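import Cfsg.Agent.H51.Amalgam

set_option autoImplicit false
open Cfsg
open scoped Pointwise

namespace Cfsg.Agent.H51

section
variable {G : Type*} [Group G]

theorem eq_one_of_pow_coprime {p k n : ℕ} {z : G} (h1 : z ^ (p ^ k) = 1) (h2 : z ^ n = 1)
    (hc : Nat.Coprime n p) : z = 1 := by
  have d1 : orderOf z ∣ p ^ k := orderOf_dvd_of_pow_eq_one h1
  have d2 : orderOf z ∣ n := orderOf_dvd_of_pow_eq_one h2
  have : orderOf z ∣ Nat.gcd n (p ^ k) := Nat.dvd_gcd d2 d1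
  rw [Nat.Coprime.pow_right k hc] at this
  exact orderOf_eq_one_iff.1 (Nat.dvd_one.1 this)

/-- A subgroup all of whose elements of order prime to `p` are trivial is a `p`-group (finite order elements). -/
theorem isPGroup_of_coprime_trivial {p : ℕ} [Fact p.Prime] [Finite G] (C : Subgroup G)
    (h : ∀ c ∈ C, Nat.Coprime (orderOf c) p → c = 1) : IsPGroup p C := by
  intro c
  have hp := (Fact.out : p.Prime)
  have hm : orderOf (c : G) ≠ 0 := (orderOf_pos (c : G)).ne'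
  obtain ⟨a, b, hb, hab⟩ := Nat.exists_eq_pow_mul_and_not_dvd hm p hp.ne_one
  refine ⟨a, ?_⟩
  have h1 : ((c : G) ^ (p ^ a)) ^ b = 1 := by
    rw [← pow_mul, ← hab]; exact pow_orderOf_eq_one _
  have h2 : orderOf ((c : G) ^ (p ^ a)) ∣ b := orderOf_dvd_of_pow_eq_one h1
  have h3 : Nat.Coprime (orderOf ((c : G) ^ (p ^ a))) p :=
    Nat.Coprime.coprime_dvd_left h2 ((Nat.Prime.coprime_iff_not_dvd hp).2 hb).symm
  have := h _ (C.pow_mem c.2 _) h3
  exact Subtype.ext (by simpa using this)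

/-- conjugation formula: if `c` commutes with `z = q⁻¹ c q c⁻¹`, then `c^n q c^{-n} = q z^n`. -/
theorem conj_pow_eq {c q : G} (hcomm : c * (q⁻¹ * (c * q * c⁻¹)) = (q⁻¹ * (c * q * c⁻¹)) * c) (n : ℕ) :
    c ^ n * q * (c ^ n)⁻¹ = q * (q⁻¹ * (c * q * c⁻¹)) ^ n := by
  induction n with
  | zero => simp
  | succ n ih =>
    have hz : Commute c (q⁻¹ * (c * q * c⁻¹)) := hcomm
    have hzn : c * (q⁻¹ * (c * q * c⁻¹)) ^ n * c⁻¹ = (q⁻¹ * (c * q * c⁻¹)) ^ n := by
      rw [(hz.pow_right n).eq]; group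
    calc c ^ (n + 1) * q * (c ^ (n + 1))⁻¹ = c * (c ^ n * q * (c ^ n)⁻¹) * c⁻¹ := by
          rw [pow_succ']; group
      _ = c * (q * (q⁻¹ * (c * q * c⁻¹)) ^ n) * c⁻¹ := by rw [ih]
      _ = (c * q * c⁻¹) * (c * (q⁻¹ * (c * q * c⁻¹)) ^ n * c⁻¹) := by group
      _ = (c * q * c⁻¹) * (q⁻¹ * (c * q * c⁻¹)) ^ n := by rw [hzn]
      _ = q * (q⁻¹ * (c * q * c⁻¹)) ^ (n + 1) := by
        rw [pow_succ', ← mul_assoc q, mul_inv_cancel_left]

theorem pCoreOf_normal_of_normal (p : ℕ) {H : Subgroup G} (hH : H.Normal) :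
    (Cfsg.pCoreOf p H).Normal := by
  rw [Subgroup.normal_iff_map_conj_eq]
  intro g
  have h1 := pCoreOf_map p H (MulAut.conj g)
  have h2 : H.map (MulAut.conj g).toMonoidHom = H :=
    haveI := hH
    Subgroup.Normal.map_conj_eq H g
  rw [h2] at h1
  exact h1.symm

theorem normalizer_centralizer_of_le {H R : Subgroup G}
    (hR : H ≤ Subgroup.normalizer (R : Set G)) :
    H ≤ Subgroup.normalizer ((H ⊓ Subgroup.centralizer (R : Set G) : Subgroup G) : Set G) := by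
  rw [Subgroup.le_normalizer_iff]
  intro h hh c hc
  obtain ⟨hc1, hc2⟩ := Subgroup.mem_inf.1 hc
  refine Subgroup.mem_inf.2 ⟨H.mul_mem (H.mul_mem hh hc1) (H.inv_mem hh), ?_⟩
  rw [Subgroup.mem_centralizer_iff] at hc2 ⊢
  intro r hr
  have hr' : h⁻¹ * r * h ∈ R := by
    have := (Subgroup.mem_normalizer_iff.1 (hR (H.inv_mem hh)) r).1 hr
    simpa using this
  have := hc2 _ hr'
  calc r * (h * c * h⁻¹) = h * ((h⁻¹ * r * h) * c) * h⁻¹ := by group
    _ = h * (c * (h⁻¹ * r * h)) * h⁻¹ := by rw [this]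
    _ = h * c * h⁻¹ * r := by group

/-- If all `p'`-elements of `C_H(O_p(H))` are trivial then `C_H(O_p(H)) ≤ O_p(H)`. -/
theorem charp_of_coprime_trivial {p : ℕ} [Fact p.Prime] [Finite G] (H : Subgroup G)
    (h : ∀ c ∈ H ⊓ Subgroup.centralizer (Cfsg.pCoreOf p H : Set G), Nat.Coprime (orderOf c) p → c = 1) :
    H ⊓ Subgroup.centralizer (Cfsg.pCoreOf p H : Set G) ≤ Cfsg.pCoreOf p H :=
  le_pCoreOf p inf_le_left (normalizer_centralizer_of_le (le_normalizer_pCoreOf p H))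
    (isPGroup_of_coprime_trivial _ h)

/-- A normal subgroup of a group of characteristic `p` has characteristic `p`. -/
theorem charp_of_normal {p : ℕ} [Fact p.Prime] [Finite G]
    (hchar : Subgroup.centralizer (Cfsg.pCore p G : Set G) ≤ Cfsg.pCore p G)
    {H : Subgroup G} (hH : H.Normal) :
    H ⊓ Subgroup.centralizer (Cfsg.pCoreOf p H : Set G) ≤ Cfsg.pCoreOf p H := by
  apply charp_of_coprime_trivial
  intro c hc hcop
  obtain ⟨hcH, hcR⟩ := Subgroup.mem_inf.1 hc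
  have hQn : (Cfsg.pCore p G).Normal := pCore_normal p
  have hRn := pCoreOf_normal_of_normal p hH
  -- H ⊓ Q ≤ R
  have hHQ : H ⊓ Cfsg.pCore p G ≤ Cfsg.pCoreOf p H := by
    apply le_pCoreOf p inf_le_left
    · have : (H ⊓ Cfsg.pCore p G).Normal := Subgroup.normal_inf_normal _ _
      rw [Subgroup.normalizer_eq_top_iff.2 this]
      exact le_top
    · exact (pCore_isPGroup p).to_le inf_le_right
  -- c centralizes Q
  have hcQ : c ∈ Subgroup.centralizer (Cfsg.pCore p G : Set G) := by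
    rw [Subgroup.mem_centralizer_iff]
    intro q hq
    have hz : q⁻¹ * (c * q * c⁻¹) ∈ H ⊓ Cfsg.pCore p G := by
      refine Subgroup.mem_inf.2 ⟨?_, ?_⟩
      · have h1 : q⁻¹ * c * q⁻¹⁻¹ ∈ H := hH.conj_mem c hcH q⁻¹
        have : q⁻¹ * (c * q * c⁻¹) = (q⁻¹ * c * q⁻¹⁻¹) * c⁻¹ := by group
        rw [this]
        exact H.mul_mem h1 (H.inv_mem hcH)
      · exact Subgroup.mul_mem _ (Subgroup.inv_mem _ hq) (hQn.conj_mem q hq c)
    have hzR := hHQ hz
    rw [Subgroup.mem_centralizer_iff] at hcR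
    have hcomm : c * (q⁻¹ * (c * q * c⁻¹)) = (q⁻¹ * (c * q * c⁻¹)) * c := (hcR _ hzR).symm
    have hpow := conj_pow_eq hcomm (orderOf c)
    rw [pow_orderOf_eq_one] at hpow
    have hz1 : (q⁻¹ * (c * q * c⁻¹)) ^ orderOf c = 1 := by
      have : q * (q⁻¹ * (c * q * c⁻¹)) ^ orderOf c = q := by rw [← hpow]; simp
      exact mul_eq_left.1 this
    obtain ⟨k, hk⟩ := (pCore_isPGroup p (G := G)) ⟨_, (Subgroup.mem_inf.1 hz).2⟩
    have hk' : (q⁻¹ * (c * q * c⁻¹)) ^ (p ^ k) = 1 := by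
      have := congrArg Subtype.val hk
      simpa using this
    have hzone := eq_one_of_pow_coprime hk' hz1 hcop
    have : c * q * c⁻¹ = q := by
      have : q⁻¹ * (c * q * c⁻¹) = 1 := hzone
      calc c * q * c⁻¹ = q * (q⁻¹ * (c * q * c⁻¹)) := by group
        _ = q := by rw [this, mul_one]
    calc q * c = (c * q * c⁻¹) * c := by rw [this]
      _ = c * q := by group
  have hcQ' := hchar hcQ
  obtain ⟨k, hk⟩ := (pCore_isPGroup p (G := G)) ⟨c, hcQ'⟩
  have hk' : c ^ (p ^ k) = 1 := by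
    have := congrArg Subtype.val hk
    simpa using this
  exact eq_one_of_pow_coprime hk' (pow_orderOf_eq_one c) hcop

/-- subtype form of the characteristic `p` property -/
theorem charp_subtype_of (p : ℕ) (H : Subgroup G)
    (h : H ⊓ Subgroup.centralizer (Cfsg.pCoreOf p H : Set G) ≤ Cfsg.pCoreOf p H) :
    Subgroup.centralizer (Cfsg.pCore p ↥H : Set ↥H) ≤ Cfsg.pCore p ↥H := by
  intro c hc
  have : (c : G) ∈ H ⊓ Subgroup.centralizer (Cfsg.pCoreOf p H : Set G) := by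
    refine Subgroup.mem_inf.2 ⟨c.2, ?_⟩
    rw [Subgroup.mem_centralizer_iff]
    rintro _ ⟨n, hn, rfl⟩
    rw [Subgroup.mem_centralizer_iff] at hc
    exact congrArg Subtype.val (hc n hn)
  obtain ⟨n, hn, hnc⟩ := h this
  have : n = c := Subtype.ext hnc
  rw [← this]; exact hn

end

end Cfsg.Agent.H51
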