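import Cfsg.Agent.H19.SxDefs

/-!
# S2949 (a J(T)-component outside `M` for a maximal straddling 2-subgroup): statements of the pieces

Route.  `T` maximal straddling, `T ≤ L` a 2-local subgroup not inside `M`, `T₀` a Sylow
2-subgroup of `L` over `T`.  By S2948 (used as a closed statement), `L` belongs to the family of
`T`; S2948 applied to `N_G(J(T))` shows `N_G(J(T)) ≤ M`.  The generation form of the existence
of `J(T)`-components (`L` is generated by `N_L(J(T))` and its `J(T)`-components) gives a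
`J(T)`-component `K ≤ L` not inside `M`.  Then `K ≤ N_G(W_K)`, a 2-local subgroup not inside `M`,
and S2948 again shows that `J(T)` is the Thompson subgroup of every Sylow 2-subgroup of
`N_G(W_K)` over `J(T)`.  Finally `1 ≠ O₂(L) ≤ O₂(⟨K, T⟩)`.
-/

set_option autoImplicit false
open Cfsg

namespace Cfsg.Agent.H51.Sy

universe u

/-- The statement S2948, as a closed proposition. -/
def St2948 : Prop := ∀ {G : Type u} [Group G] [Finite G],
  IsCharacteristicTwoType G →
  (∀ N : Subgroup G, IsTwoLocal N → Group.IsSolvable ↥N) →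
  (∀ S : Sylow 2 G, Subgroup.centralizer (omegaCenterOf (S : Subgroup G) : Set G) ≤
      Subgroup.normalizer ((S : Subgroup G) : Set G)) →
  pCore 2 G = ⊥ → ∀ (S : Sylow 2 G) (M : Subgroup G), IsTwoLocal M →
  Subgroup.normalizer (thompsonSubgroupOf 2 (S : Subgroup G) : Set G) ≤ M →
  ∀ T : Subgroup G, T ∈ maxStraddlingTwoSubgroups M →
  ∀ L : Subgroup G, IsTwoLocal L → ¬ L ≤ M → ∀ T₀ : Subgroup G, IsSylowTwoIn T₀ L →
  thompsonSubgroupOf 2 T ≤ T₀ →
    thompsonSubgroupOf 2 T = thompsonSubgroupOf 2 T₀ ∧ T₀ ∈ straddlingTwoSubgroups M ∧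
      L ∈ jOvergroups T₀ ∧
      (T ≤ L → L ∈ jOvergroups T ∧ ∃ K : Subgroup G, IsJComponent T K ∧ K ≤ L)

/-- EXIST, generation form: if `L` is in the family of the nontrivial 2-subgroup `T` and `M'` is a
subgroup containing `N_L(J(T))` but not `L`, then some `J(T)`-component of `G` lies in `L` and not
in `M'`.  (`L` is generated by `N_L(J(T))` and the `J(T)`-components inside `L`.) -/
def StExistGen : Prop := ∀ {G : Type u} [Group G] [Finite G],
  IsCharacteristicTwoType G →
  (∀ N : Subgroup G, IsTwoLocal N → Group.IsSolvable ↥N) →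
  (∀ S : Sylow 2 G, Subgroup.centralizer (omegaCenterOf (S : Subgroup G) : Set G) ≤
      Subgroup.normalizer ((S : Subgroup G) : Set G)) →
  ∀ (T : Subgroup G), IsPGroup 2 ↥T → T ≠ ⊥ → ∀ (L : Subgroup G), L ∈ jOvergroups T →
  ∀ (M' : Subgroup G), Subgroup.normalizer (thompsonSubgroupOf 2 T : Set G) ⊓ L ≤ M' → ¬ L ≤ M' →
  ∃ K : Subgroup G, IsJComponent T K ∧ K ≤ L ∧ ¬ K ≤ M'

/-! ### Pieces of the generation form of EXIST (inside `X = ↥L`)

`V = Ω₁(Z(O₂(X)))`, `C = C_X(V)`, `J = J(T)`.  A *component element* is a `k ∈ J(X)` of order 3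
modulo `C`, whose coset is normalized up to inversion by `J(X)`, with `[V, k]` inside a subgroup
of order 4 (exactly the data of helper19's STRUCT without the inverting involution). -/

/-- A component element for `V` (see above). -/
def IsCompElt {X : Type u} [Group X] (V : Subgroup X) (k : X) : Prop :=
  k ∈ thompsonSubgroup 2 X ∧ k ∉ Subgroup.centralizer (V : Set X) ∧
  k ^ 3 ∈ Subgroup.centralizer (V : Set X) ∧
  (∀ g ∈ thompsonSubgroup 2 X, g * k * g⁻¹ * k⁻¹ ∈ Subgroup.centralizer (V : Set X) ∨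
      g * k * g⁻¹ * k ∈ Subgroup.centralizer (V : Set X)) ∧
  ∃ W : Subgroup X, Nat.card ↥W = 4 ∧ ∀ v ∈ V, k * v * k⁻¹ * v⁻¹ ∈ W

/-- GEN-S (Glauberman S0617 in the holomorph of `V`): every element of odd order of `J(X)` lies
in the subgroup generated by the component elements and `C_X(V)`. -/
def StGenS : Prop := ∀ {X : Type u} [Group X] [Finite X] (V : Subgroup X) [V.Normal],
  IsElementaryAbelian 2 V → IsPSolvable 2 X →
  pCore 2 (X ⧸ Subgroup.centralizer (V : Set X)) = ⊥ →
  ∀ y ∈ thompsonSubgroup 2 X, Odd (orderOf y) →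
    y ∈ Subgroup.closure {k : X | IsCompElt V k} ⊔ Subgroup.centralizer (V : Set X)

/-- GEN-D: an element `k` whose coset modulo `C` is centralized or inverted by each element of
`J` is either inverted modulo `C` by an element of a largest elementary abelian subgroup inside
`J`, or normalizes `JC`. -/
def StGenD : Prop := ∀ {X : Type u} [Group X] [Finite X] (C J : Subgroup X) (k : X),
  C.Normal →
  J = Subgroup.closure {a : X | ∃ A : Subgroup X,
    A ∈ maxElementaryAbelianSubgroups 2 X ∧ A ≤ J ∧ a ∈ A} →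
  (∀ g ∈ J, g * k * g⁻¹ * k⁻¹ ∈ C ∨ g * k * g⁻¹ * k ∈ C) →
  (∃ A : Subgroup X, A ∈ maxElementaryAbelianSubgroups 2 X ∧ A ≤ J ∧
      ∃ a ∈ A, a * k * a⁻¹ * k ∈ C) ∨
    k ∈ Subgroup.normalizer ((J ⊔ C : Subgroup X) : Set X)

/-- GEN-F1 (Frattini in `JC`): `N_X(JC) ≤ C N_X(J)`. -/
def StGenF1 : Prop := ∀ {X : Type u} [Group X] [Finite X] (T C J : Subgroup X),
  IsPGroup 2 ↥T → Odd T.index → C.Normal → J ≤ T →
  (∀ S : Subgroup X, J ≤ S → S ≤ T →
    Subgroup.normalizer (S : Set X) ≤ Subgroup.normalizer (J : Set X)) →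
  Subgroup.normalizer ((J ⊔ C : Subgroup X) : Set X) ≤ C ⊔ Subgroup.normalizer (J : Set X)

/-- GEN-F2 (Frattini in `J(X)`): a subgroup containing `N_X(J)` and the elements of odd order of
`J(X)` is everything. -/
def StGenF2 : Prop := ∀ {X : Type u} [Group X] [Finite X] (T J M' : Subgroup X),
  IsPGroup 2 ↥T → Odd T.index → J ≤ T → J ≤ thompsonSubgroup 2 X →
  (∀ S : Subgroup X, J ≤ S → S ≤ T →
    Subgroup.normalizer (S : Set X) ≤ Subgroup.normalizer (J : Set X)) →
  Subgroup.normalizer (J : Set X) ≤ M' →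
  (∀ y ∈ thompsonSubgroup 2 X, Odd (orderOf y) → y ∈ M') →
  M' = ⊤

/-- IF-CHAR: inside `↥L`, the normalizer of a subgroup between `J(T)` and `T` normalizes
`J(T)`. -/
def StIfChar : Prop := ∀ {G : Type u} [Group G] [Finite G] (T L : Subgroup G),
  IsSylowTwoIn T L →
  ∀ S : Subgroup ↥L, (thompsonSubgroupOf 2 T).subgroupOf L ≤ S → S ≤ T.subgroupOf L →
    Subgroup.normalizer (S : Set ↥L) ≤
      Subgroup.normalizer (((thompsonSubgroupOf 2 T).subgroupOf L : Subgroup ↥L) : Set ↥L)

/-- IF-GEN: inside `↥L` (`T` Sylow in `L`), `J(T)` is generated by the largest elementary abelian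
subgroups of `↥L` that it contains. -/
def StIfGen : Prop := ∀ {G : Type u} [Group G] [Finite G] (T L : Subgroup G),
  IsSylowTwoIn T L →
  (thompsonSubgroupOf 2 T).subgroupOf L = Subgroup.closure {a : ↥L | ∃ A : Subgroup ↥L,
    A ∈ maxElementaryAbelianSubgroups 2 ↥L ∧ A ≤ (thompsonSubgroupOf 2 T).subgroupOf L ∧ a ∈ A}

/-- GEN-X: the generation statement inside `X`: a proper subgroup `M'` containing `N_X(J)` misses
a component element `k` inverted modulo `C` by an element `a` of a largest elementary abelian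
subgroup `A ≤ J`. -/
def StGenX : Prop := ∀ {X : Type u} [Group X] [Finite X] (V T J M' : Subgroup X) [V.Normal],
  IsElementaryAbelian 2 V → IsPSolvable 2 X →
  pCore 2 (X ⧸ Subgroup.centralizer (V : Set X)) = ⊥ →
  IsPGroup 2 ↥T → Odd T.index →
  Subgroup.centralizer (V : Set X) ≤ Subgroup.normalizer (T : Set X) →
  J ≤ T → J ≤ thompsonSubgroup 2 X →
  (∀ S : Subgroup X, J ≤ S → S ≤ T →
    Subgroup.normalizer (S : Set X) ≤ Subgroup.normalizer (J : Set X)) →
  J = Subgroup.closure {a : X | ∃ A : Subgroup X,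
    A ∈ maxElementaryAbelianSubgroups 2 X ∧ A ≤ J ∧ a ∈ A} →
  Subgroup.normalizer (J : Set X) ≤ M' → M' ≠ ⊤ →
  ∃ A : Subgroup X, A ∈ maxElementaryAbelianSubgroups 2 X ∧ A ≤ J ∧ ∃ a ∈ A, ∃ k : X,
    IsCompElt V k ∧ a * k * a⁻¹ * k ∈ Subgroup.centralizer (V : Set X) ∧ k ∉ M'

/-- The statement S2949. -/
def StMain9 : Prop := ∀ {G : Type u} [Group G] [Finite G],
  IsCharacteristicTwoType G →
  (∀ N : Subgroup G, IsTwoLocal N → Group.IsSolvable ↥N) →
  (∀ S : Sylow 2 G, Subgroup.centralizer (omegaCenterOf (S : Subgroup G) : Set G) ≤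
      Subgroup.normalizer ((S : Subgroup G) : Set G)) →
  pCore 2 G = ⊥ → ∀ (S : Sylow 2 G) (M : Subgroup G), IsTwoLocal M →
  Subgroup.normalizer (thompsonSubgroupOf 2 (S : Subgroup G) : Set G) ≤ M →
  ∀ T : Subgroup G, T ∈ maxStraddlingTwoSubgroups M →
  (jComponentsOutside M T).Nonempty

end Cfsg.Agent.H51.Sy
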