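import Mathlib
import Cfsg.Prelude.Def_JComponents
import Cfsg.Agent.H31.X.CharP2

set_option autoImplicit false

/-!
S2946 piece NORM (helper51, for helper52): normalizer facts for `W_K = [Ω₁(Z(O₂(K))), K]`.
-/

namespace Cfsg.Agent.H51.Jc

open Cfsg
open scoped commutatorElement

variable {G : Type*} [Group G] [Finite G]

theorem conj_mem_closure_of {s : Set G} {g : G}
    (hs : ∀ x ∈ s, g * x * g⁻¹ ∈ Subgroup.closure s) {x : G} (hx : x ∈ Subgroup.closure s) :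
    g * x * g⁻¹ ∈ Subgroup.closure s := by
  induction hx using Subgroup.closure_induction with
  | mem x hx => exact hs x hx
  | one => simp
  | mul x y _ _ hx hy =>
    have e : g * (x * y) * g⁻¹ = (g * x * g⁻¹) * (g * y * g⁻¹) := by group
    rw [e]; exact Subgroup.mul_mem _ hx hy
  | inv x _ hx =>
    have e : g * x⁻¹ * g⁻¹ = (g * x * g⁻¹)⁻¹ := by group
    rw [e]; exact Subgroup.inv_mem _ hx

theorem le_normalizer_of_comm {K J : Subgroup G} (hKJ : ⁅K, J⁆ = K) :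
    J ≤ Subgroup.normalizer (K : Set G) := by
  apply Cfsg.Agent.H31.X.H54.le_normalizer_of_conj_mem
  intro j hj x hx
  have key : ∀ x ∈ ⁅K, J⁆, j * x * j⁻¹ ∈ ⁅K, J⁆ := by
    intro x hx
    rw [Subgroup.commutator_def] at hx ⊢
    apply conj_mem_closure_of _ hx
    rintro _ ⟨k, hk, j', hj', rfl⟩
    have e : j * ⁅k, j'⁆ * j⁻¹ = ⁅k, j⁆⁻¹ * ⁅k, j * j'⁆ := by
      simp only [commutatorElement_def]; group
    rw [e, ← Subgroup.commutator_def]
    exact Subgroup.mul_mem _ (Subgroup.inv_mem _ (Subgroup.commutator_mem_commutator hk hj))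
      (Subgroup.commutator_mem_commutator hk (J.mul_mem hj hj'))
  have h2 := key x (by rw [hKJ]; exact hx)
  rw [hKJ] at h2
  exact h2

theorem pCoreOf_facts (K : Subgroup G) :
    pCoreOf 2 K ≤ K ∧ K ≤ Subgroup.normalizer (pCoreOf 2 K : Set G) ∧ IsPGroup 2 ↥(pCoreOf 2 K) :=
  ⟨Cfsg.Agent.H31.X.H54.pCoreOf_le K, Cfsg.Agent.H31.X.H54.le_normalizer_pCoreOf K,
    Cfsg.Agent.H31.X.H54.isPGroup_pCoreOf K⟩

/-- The normalizer of `K` normalizes `Ω₁(Z(O₂(K)))`. -/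
theorem conj_mem_omegaCenterOf {K : Subgroup G} {g : G}
    (hg : g ∈ Subgroup.normalizer (K : Set G)) {y : G} (hy : y ∈ omegaCenterOf (pCoreOf 2 K)) :
    g * y * g⁻¹ ∈ omegaCenterOf (pCoreOf 2 K) := by
  unfold omegaCenterOf omegaOne at hy ⊢
  apply conj_mem_closure_of _ hy
  rintro z ⟨hz, hz2⟩
  apply Subgroup.subset_closure
  have hN : g ∈ Subgroup.normalizer
      ((pCoreOf 2 K ⊓ Subgroup.centralizer (pCoreOf 2 K : Set G) : Subgroup G) : Set G) :=
    Cfsg.Agent.H31.X.H54.le_normalizer_inf' (A := Subgroup.normalizer (K : Set G))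
      (Cfsg.Agent.H31.X.H54.normalizer_le_normalizer_pCoreOf K)
      ((Cfsg.Agent.H31.X.H54.normalizer_le_normalizer_pCoreOf K).trans
        (Cfsg.Agent.H31.X.H54.normalizer_le_normalizer_centralizer _)) hg
  refine ⟨(Subgroup.mem_normalizer_iff.mp hN z).mp hz, ?_⟩
  rw [conj_pow, hz2, mul_one, mul_inv_cancel]

theorem omegaCenterOf_le_inf (Q : Subgroup G) :
    omegaCenterOf Q ≤ Q ⊓ Subgroup.centralizer (Q : Set G) := by
  unfold omegaCenterOf omegaOne
  rw [Subgroup.closure_le]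
  rintro z ⟨hz, -⟩
  exact hz

theorem wOf_le_omegaCenterOf (K : Subgroup G) : wOf K ≤ omegaCenterOf (pCoreOf 2 K) := by
  unfold wOf
  rw [Subgroup.commutator_le]
  intro y hy k hk
  have hk' : k * y⁻¹ * k⁻¹ ∈ omegaCenterOf (pCoreOf 2 K) :=
    conj_mem_omegaCenterOf (Subgroup.le_normalizer hk) (Subgroup.inv_mem _ hy)
  have e : ⁅y, k⁆ = y * (k * y⁻¹ * k⁻¹) := by
    simp only [commutatorElement_def]; group
  rw [e]
  exact Subgroup.mul_mem _ hy hk'

theorem wOf_le (K : Subgroup G) : wOf K ≤ pCoreOf 2 K :=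
  (wOf_le_omegaCenterOf K).trans ((omegaCenterOf_le_inf _).trans inf_le_left)

theorem pCoreOf_comm_wOf (K : Subgroup G) :
    ∀ q ∈ pCoreOf 2 K, ∀ w ∈ wOf K, q * w = w * q := by
  intro q hq w hw
  have hw' : w ∈ Subgroup.centralizer (pCoreOf 2 K : Set G) :=
    ((wOf_le_omegaCenterOf K).trans ((omegaCenterOf_le_inf _).trans inf_le_right)) hw
  exact Subgroup.mem_centralizer_iff.mp hw' q hq

theorem wOf_norm {K J : Subgroup G} (hnK : J ≤ Subgroup.normalizer (K : Set G)) :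
    ∀ g ∈ K ⊔ J, ∀ w ∈ wOf K, g * w * g⁻¹ ∈ wOf K := by
  intro g hg w hw
  have hgN : g ∈ Subgroup.normalizer (K : Set G) := (sup_le Subgroup.le_normalizer hnK) hg
  unfold wOf at hw ⊢
  rw [Subgroup.commutator_def] at hw ⊢
  apply conj_mem_closure_of _ hw
  rintro _ ⟨y, hy, k, hk, rfl⟩
  have e : g * ⁅y, k⁆ * g⁻¹ = ⁅g * y * g⁻¹, g * k * g⁻¹⁆ := by
    simp only [commutatorElement_def]; group
  rw [e, ← Subgroup.commutator_def]
  exact Subgroup.commutator_mem_commutator (conj_mem_omegaCenterOf hgN hy)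
    ((Subgroup.mem_normalizer_iff.mp hgN k).mp hk)

section Check

example {K J : Subgroup G} (hKJ : ⁅K, J⁆ = K) : J ≤ Subgroup.normalizer (K : Set G) :=
  le_normalizer_of_comm hKJ
example {K J : Subgroup G} (hnK : J ≤ Subgroup.normalizer (K : Set G)) : ∀ g ∈ K ⊔ J, ∀ w ∈ wOf K, g * w * g⁻¹ ∈ wOf K :=
  wOf_norm hnK
example (K : Subgroup G) : wOf K ≤ pCoreOf 2 K := wOf_le K
example (K : Subgroup G) : ∀ q ∈ pCoreOf 2 K, ∀ w ∈ wOf K, q * w = w * q := pCoreOf_comm_wOf K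
example (K : Subgroup G) : pCoreOf 2 K ≤ K ∧ K ≤ Subgroup.normalizer (pCoreOf 2 K : Set G) ∧ IsPGroup 2 ↥(pCoreOf 2 K) :=
  pCoreOf_facts K

end Check

end Cfsg.Agent.H51.Jc
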