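import Mathlib
import Cfsg.Agent.H51.SyDefs
import Cfsg.Agent.H13.PCore

/-!
# S2949: the generation form of EXIST from GEN-X and the pieces of helper19's EXIST
(the assembly follows `Cfsg.Agent.H19.Sx.exist`, with the triple `(A, a, k)` supplied by GEN-X)
-/

set_option autoImplicit false
open Cfsg

namespace Cfsg.Agent.H51.Sy

open Cfsg.Agent.H52.Sn Cfsg.Agent.H19.Sx

universe u

/-- If `x ∈ ⟨k⟩C`, `x ∉ C`, `k³ ∈ C`, and `x`, `C` lie in `M'`, then `k ∈ M'`. -/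
theorem sy_mem_of_zpowers_sup {X : Type u} [Group X] (C M' : Subgroup X) [C.Normal] (k x : X)
    (hk3 : k ^ 3 ∈ C) (hx : x ∈ Subgroup.zpowers k ⊔ C) (hxC : x ∉ C) (hCM : C ≤ M')
    (hxM : x ∈ M') : k ∈ M' := by
  rw [Subgroup.mem_sup_of_normal_right] at hx
  obtain ⟨y, hy, c, hc, rfl⟩ := hx
  obtain ⟨n, rfl⟩ := Subgroup.mem_zpowers_iff.mp hy
  have hknM : k ^ n ∈ M' := by
    have : k ^ n = (k ^ n * c) * c⁻¹ := by group
    rw [this]
    exact M'.mul_mem hxM (M'.inv_mem (hCM hc))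
  have hknC : k ^ n ∉ C := fun h => hxC (C.mul_mem h hc)
  have h3 : ¬ (3 : ℤ) ∣ n := by
    rintro ⟨m, rfl⟩
    apply hknC
    rw [zpow_mul]
    have : (k ^ (3 : ℤ)) = k ^ 3 := by norm_cast
    rw [this]
    exact C.zpow_mem hk3 m
  have hcop : IsCoprime n (3 : ℤ) := by
    have hp : Prime (3 : ℤ) := Int.prime_three
    exact (IsCoprime.symm ((Prime.coprime_iff_not_dvd hp).mpr h3))
  obtain ⟨u, v, huv⟩ := hcop
  have hk : k = (k ^ n) ^ u * (k ^ (3 : ℤ)) ^ v := by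
    rw [← zpow_mul, ← zpow_mul, ← zpow_add]
    have : n * u + 3 * v = 1 := by linarith
    rw [this, zpow_one]
  rw [hk]
  refine M'.mul_mem (M'.zpow_mem hknM u) (M'.zpow_mem ?_ v)
  have : (k ^ (3 : ℤ)) = k ^ 3 := by norm_cast
  rw [this]
  exact hCM hk3

/-- The generation form of EXIST from the pieces. -/
theorem existGen (hRed : StRed.{u}) (hSyl : StIfSyl.{u}) (hV : StIfV.{u}) (hZ : StIfZ.{u})
    (hS : StIfS.{u}) (hGenX : StGenX.{u}) (hCA : StCompA.{u}) (hCB : StCompB.{u})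
    (hVK : StVK.{u}) (hW : StW.{u}) (hIfV2 : StIfV2.{u})
    (hSylJ : StSylJ.{u}) (hLift : StLift.{u}) (hIfChar : StIfChar.{u}) (hIfGen : StIfGen.{u}) :
    StExistGen.{u} := by
  intro G _ _ hL hNsol hZN T hT hT1 L hLT M' hNM hLM
  haveI : Fact (Nat.Prime 2) := ⟨Nat.prime_two⟩
  obtain ⟨hT2, hTi, hJT, hJM⟩ := hSyl T L hLT.1
  obtain ⟨hVn, hVel, hQV⟩ := hV L
  have hCT := hZ hZN T L hLT
  have hPS := hS hNsol T L hT1 hLT
  obtain ⟨hred1, hred2⟩ := hRed (T.subgroupOf L) ((omegaCenterOf (pCoreOf 2 L)).subgroupOf L)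
    hT2 hTi hQV hCT
  obtain ⟨hVQ, hVmax⟩ := hIfV2 L
  have hchar := hIfChar T L hLT.1
  have hJgen := hIfGen T L hLT.1
  have hJL : thompsonSubgroupOf 2 T ≤ L := (Subgroup.map_subtype_le _).trans hLT.1.1
  -- `N_X(J) ≤ M'` inside `↥L`
  have hNM' : Subgroup.normalizer
      (((thompsonSubgroupOf 2 T).subgroupOf L : Subgroup ↥L) : Set ↥L) ≤ M'.subgroupOf L := by
    intro n hn
    rw [Subgroup.mem_subgroupOf]
    apply hNM
    refine Subgroup.mem_inf.mpr ⟨?_, n.2⟩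
    rw [Subgroup.mem_normalizer_iff] at hn ⊢
    intro j
    constructor
    · intro hj
      have h1 := (hn ⟨j, hJL hj⟩).mp (Subgroup.mem_subgroupOf.mpr hj)
      exact Subgroup.mem_subgroupOf.mp h1
    · intro hj
      have hjL : j ∈ L := by
        have h2 : (n : G)⁻¹ * ((n : G) * j * (n : G)⁻¹) * (n : G) ∈ L :=
          L.mul_mem (L.mul_mem (L.inv_mem n.2) (hJL hj)) n.2
        have e : (n : G)⁻¹ * ((n : G) * j * (n : G)⁻¹) * (n : G) = j := by group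
        rwa [e] at h2
      have h1 := (hn ⟨j, hjL⟩).mpr (Subgroup.mem_subgroupOf.mpr hj)
      exact Subgroup.mem_subgroupOf.mp h1
  have hM'top : M'.subgroupOf L ≠ ⊤ := by
    intro h
    apply hLM
    intro x hx
    have : (⟨x, hx⟩ : ↥L) ∈ M'.subgroupOf L := by rw [h]; trivial
    exact Subgroup.mem_subgroupOf.mp this
  obtain ⟨A, hA, hAJ, a, haA, k, hkc, hak, hkM⟩ :=
    hGenX ((omegaCenterOf (pCoreOf 2 L)).subgroupOf L) (T.subgroupOf L)
      ((thompsonSubgroupOf 2 T).subgroupOf L) (M'.subgroupOf L) hVel hPS hred1 hT2 hTi hCT hJT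
      hJM hchar hJgen hNM' hM'top
  obtain ⟨hkJ, hkC, hk3, hkn, W, hWc, hWk⟩ := hkc
  haveI hQn : (pCore 2 ↥L).Normal := Cfsg.Agent.H13.pCore_normal 2 ↥L
  have hQ2 : IsPGroup 2 ↥(pCore 2 ↥L) := Cfsg.Agent.H13.pCore_isPGroup 2 ↥L
  have hQT : pCore 2 ↥L ≤ T.subgroupOf L := by
    have hnd : ¬ 2 ∣ (T.subgroupOf L).index := by
      intro h
      exact (Nat.not_even_iff_odd.mpr hTi) (even_iff_two_dvd.mpr h)
    have := Cfsg.Agent.H13.pCore_le_sylow (hT2.toSylow hnd)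
    simpa using this
  have haa : a * a = 1 := by
    have := hA.1.2 a haA
    rwa [pow_two] at this
  have haJ : a ∈ (thompsonSubgroupOf 2 T).subgroupOf L := hAJ haA
  obtain ⟨x, hxo, hxC, hx3, hax, hxk, hxn⟩ := hCA (T.subgroupOf L)
    (Subgroup.centralizer (((omegaCenterOf (pCoreOf 2 L)).subgroupOf L : Subgroup ↥L) : Set ↥L))
    (pCore 2 ↥L) ((thompsonSubgroupOf 2 T).subgroupOf L) a k hT2 hTi inferInstance hQn hQV
    hred2 hCT hJT haJ haa hkC hk3 hak (fun g hg => hkn g (hJM hg))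
  have hxQ : x ∉ pCore 2 ↥L := fun h => hxC (hQV h)
  obtain ⟨K, hKgen, hKJ, hK3, hQK, hxK, hKle⟩ := hCB (pCore 2 ↥L)
    ((thompsonSubgroupOf 2 T).subgroupOf L) a x hQn hQ2 haJ hxo hxQ hx3 hax hxn
  have hKk : K ≤ Subgroup.zpowers k ⊔ Subgroup.centralizer
      (((omegaCenterOf (pCoreOf 2 L)).subgroupOf L : Subgroup ↥L) : Set ↥L) :=
    hKle.trans (sup_le ((Subgroup.zpowers_le).mpr hxk) (hQV.trans le_sup_right))
  have hVK4 := hVK ((omegaCenterOf (pCoreOf 2 L)).subgroupOf L) K W k x hVel hWc hWk hKk hxK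
    hxo hxC
  have hW4 := hW ((omegaCenterOf (pCoreOf 2 L)).subgroupOf L) (T.subgroupOf L) (pCore 2 ↥L)
    ((thompsonSubgroupOf 2 T).subgroupOf L) K A a x hVel hVQ hQV hVmax hT2 hQT hJT hAJ hA.1
    hA.2 hKJ hK3 hQK hVK4 haA hxK hxQ hax
  have hcomp := hLift T L K hLT.1
    (fun S hSL hS2 hJS => hSylJ T L S hLT.1 hSL hS2 hJS) hKgen hKJ hK3 hW4
  refine ⟨K.map L.subtype, hcomp, Subgroup.map_subtype_le K, ?_⟩
  intro hKM
  apply hkM
  have hxM : x ∈ M'.subgroupOf L := by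
    rw [Subgroup.mem_subgroupOf]
    exact hKM ⟨x, hxK, rfl⟩
  have hCM : Subgroup.centralizer
      (((omegaCenterOf (pCoreOf 2 L)).subgroupOf L : Subgroup ↥L) : Set ↥L) ≤ M'.subgroupOf L :=
    hCT.trans ((hchar (T.subgroupOf L) hJT le_rfl).trans hNM')
  exact sy_mem_of_zpowers_sup _ _ k x hk3 hxk hxC hCM hxM

end Cfsg.Agent.H51.Sy
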