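import Mathlib
import Cfsg.Agent.H51.SyDefs

/-!
# SY-GEND (piece of S2949): centralized-or-inverted cosets
-/

set_option autoImplicit false
open Cfsg

namespace Cfsg.Agent.H51.Sy

universe u

/-- SY-GEND. -/
theorem genD : StGenD.{u} := by
  intro X _ _ C J k hC hJ hk
  by_cases hex : ∃ A : Subgroup X, A ∈ maxElementaryAbelianSubgroups 2 X ∧ A ≤ J ∧
      ∃ a ∈ A, a * k * a⁻¹ * k ∈ C
  · exact Or.inl hex
  · right
    let Z : Subgroup X :=
      { carrier := {g | g * k * g⁻¹ * k⁻¹ ∈ C}
        mul_mem' := by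
          intro g h hg hh
          have e : (g * h) * k * (g * h)⁻¹ * k⁻¹ =
              g * (h * k * h⁻¹ * k⁻¹) * g⁻¹ * (g * k * g⁻¹ * k⁻¹) := by group
          show (g * h) * k * (g * h)⁻¹ * k⁻¹ ∈ C
          rw [e]
          exact C.mul_mem (hC.conj_mem _ hh g) hg
        one_mem' := by
          show 1 * k * 1⁻¹ * k⁻¹ ∈ C
          simp
        inv_mem' := by
          intro g hg
          have e : g⁻¹ * k * g⁻¹⁻¹ * k⁻¹ = g⁻¹ * (g * k * g⁻¹ * k⁻¹)⁻¹ * g⁻¹⁻¹ := by group
          show g⁻¹ * k * g⁻¹⁻¹ * k⁻¹ ∈ C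
          rw [e]
          exact hC.conj_mem _ (C.inv_mem hg) g⁻¹ }
    have hZmem : ∀ g, g ∈ Z ↔ g * k * g⁻¹ * k⁻¹ ∈ C := fun g => Iff.rfl
    have hJZ : J ≤ Z := by
      intro g hg
      have hg' := hg
      rw [hJ] at hg'
      refine (Subgroup.closure_le Z).mpr ?_ hg'
      rintro a ⟨A, hA, hAJ, ha⟩
      rcases hk a (hAJ ha) with h | h
      · exact (hZmem a).mpr h
      · exact absurd ⟨A, hA, hAJ, a, ha, h⟩ hex
    have h1 : J ⊔ C ≤ (J ⊔ C).comap (MulAut.conj k).toMonoidHom := by
      refine sup_le ?_ ?_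
      · intro j hj
        rw [Subgroup.mem_comap]
        have e : (MulAut.conj k).toMonoidHom j = (j * k * j⁻¹ * k⁻¹)⁻¹ * j := by
          simp only [MulEquiv.toMonoidHom_eq_coe, MonoidHom.coe_coe, MulAut.conj_apply]
          group
        rw [e]
        exact Subgroup.mul_mem _ (Subgroup.mem_sup_right (C.inv_mem ((hZmem j).mp (hJZ hj))))
          (Subgroup.mem_sup_left hj)
      · intro c hc
        rw [Subgroup.mem_comap]
        have e : (MulAut.conj k).toMonoidHom c = k * c * k⁻¹ := by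
          simp [MulAut.conj_apply]
        rw [e]
        exact Subgroup.mem_sup_right (hC.conj_mem c hc k)
    have h2 : J ⊔ C ≤ (J ⊔ C).comap (MulAut.conj k⁻¹).toMonoidHom := by
      refine sup_le ?_ ?_
      · intro j hj
        rw [Subgroup.mem_comap]
        have e : (MulAut.conj k⁻¹).toMonoidHom j =
            j * (k⁻¹ * (j⁻¹ * k * j⁻¹⁻¹ * k⁻¹)⁻¹ * k⁻¹⁻¹) := by
          simp only [MulEquiv.toMonoidHom_eq_coe, MonoidHom.coe_coe, MulAut.conj_apply]
          group
        rw [e]
        exact Subgroup.mul_mem _ (Subgroup.mem_sup_left hj)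
          (Subgroup.mem_sup_right (hC.conj_mem _
            (C.inv_mem ((hZmem j⁻¹).mp (hJZ (J.inv_mem hj)))) k⁻¹))
      · intro c hc
        rw [Subgroup.mem_comap]
        have e : (MulAut.conj k⁻¹).toMonoidHom c = k⁻¹ * c * k⁻¹⁻¹ := by
          simp [MulAut.conj_apply]
        rw [e]
        exact Subgroup.mem_sup_right (hC.conj_mem c hc k⁻¹)
    rw [Subgroup.mem_normalizer_iff]
    intro h
    constructor
    · intro hh
      have := h1 hh
      rw [Subgroup.mem_comap] at this
      simpa [MulAut.conj_apply] using this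
    · intro hh
      have := h2 hh
      rw [Subgroup.mem_comap] at this
      have e : (MulAut.conj k⁻¹).toMonoidHom (k * h * k⁻¹) = h := by
        simp only [MulEquiv.toMonoidHom_eq_coe, MonoidHom.coe_coe, MulAut.conj_apply]
        group
      rwa [e] at this

example : StGenD.{u} := genD

end Cfsg.Agent.H51.Sy
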