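import Mathlib
import Cfsg.Agent.H51.SyDefs
import Cfsg.Agent.H14.TFail
import Cfsg.Agent.H36.SyGenF1

/-!
# SY-GENF2 (piece of S2949): Frattini argument in `J(X)`
-/

set_option autoImplicit false
open Cfsg

namespace Cfsg.Agent.H51.Sy

universe u

/-- SY-GENF2. -/
theorem genF2 : StGenF2.{u} := by
  intro X _ _ T J M' hT hTi hJT hJM hchar hNM hodd
  haveI : Fact (Nat.Prime 2) := ⟨Nat.prime_two⟩
  haveI hMn : (thompsonSubgroup 2 X).Normal := Cfsg.Agent.H14.Holo.thompsonSubgroup_normal 2 X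
  have hTM : T ≤ M' := (Subgroup.le_normalizer.trans (hchar T hJT le_rfl)).trans hNM
  -- `T ∩ J(X)` is a Sylow 2-subgroup of `J(X)`
  have hrel : T.relIndex (thompsonSubgroup 2 X) ∣ T.index := by
    rw [Cfsg.Agent.H36.Sy.relIndex_eq_relIndex_sup_of_normal T (thompsonSubgroup 2 X) hMn]
    exact Subgroup.relIndex_dvd_index_of_le le_sup_left
  have hnd : ¬ 2 ∣ (T.subgroupOf (thompsonSubgroup 2 X)).index := by
    intro h
    have h2 : 2 ∣ T.index := dvd_trans h hrel
    exact (Nat.not_even_iff_odd.mpr hTi) (even_iff_two_dvd.mpr h2)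
  have hT' : IsPGroup 2 ↥(T.subgroupOf (thompsonSubgroup 2 X)) := hT.comap_subtype
  have hPmap : ((hT'.toSylow hnd : Sylow 2 ↥(thompsonSubgroup 2 X)) :
      Subgroup ↥(thompsonSubgroup 2 X)).map (thompsonSubgroup 2 X).subtype =
      T ⊓ thompsonSubgroup 2 X := by
    rw [IsPGroup.toSylow_coe]
    exact Subgroup.subgroupOf_map_subtype T (thompsonSubgroup 2 X)
  have hfr := Sylow.normalizer_sup_eq_top (hT'.toSylow hnd)
  rw [hPmap] at hfr
  have hN1 : Subgroup.normalizer ((T ⊓ thompsonSubgroup 2 X : Subgroup X) : Set X) ≤ M' :=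
    (hchar (T ⊓ thompsonSubgroup 2 X) (le_inf hJT hJM) inf_le_left).trans hNM
  -- `J(X) ≤ M'`: the subgroup `M' ∩ J(X)` of `J(X)` contains a Sylow `p`-subgroup for every `p`
  have hidx : (M'.subgroupOf (thompsonSubgroup 2 X)).index = 1 := by
    rw [Nat.eq_one_iff_not_exists_prime_dvd]
    intro p hp hdvd
    haveI : Fact p.Prime := ⟨hp⟩
    rcases hp.eq_two_or_odd' with rfl | hpodd
    · have hle : ((hT'.toSylow hnd : Sylow 2 ↥(thompsonSubgroup 2 X)) :
          Subgroup ↥(thompsonSubgroup 2 X)) ≤ M'.subgroupOf (thompsonSubgroup 2 X) := by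
        intro y hy
        rw [IsPGroup.toSylow_coe] at hy
        rw [Subgroup.mem_subgroupOf] at hy ⊢
        exact hTM hy
      exact (hT'.toSylow hnd).not_dvd_index (dvd_trans hdvd (Subgroup.index_dvd_of_le hle))
    · have Q : Sylow p ↥(thompsonSubgroup 2 X) := default
      have hle : (Q : Subgroup ↥(thompsonSubgroup 2 X)) ≤
          M'.subgroupOf (thompsonSubgroup 2 X) := by
        intro y hy
        rw [Subgroup.mem_subgroupOf]
        apply hodd (y : X) y.2
        obtain ⟨k, hk⟩ := Q.isPGroup' ⟨y, hy⟩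
        have hk' : y ^ p ^ k = 1 := by
          have := congrArg Subtype.val hk
          simpa using this
        have hd : orderOf y ∣ p ^ k := orderOf_dvd_of_pow_eq_one hk'
        have ho : Odd (orderOf y) := Odd.of_dvd_nat (hpodd.pow) hd
        rwa [Subgroup.orderOf_coe]
      exact Q.not_dvd_index (dvd_trans hdvd (Subgroup.index_dvd_of_le hle))
  have hMxM : thompsonSubgroup 2 X ≤ M' := by
    rw [Subgroup.index_eq_one] at hidx
    intro g hg
    have : (⟨g, hg⟩ : ↥(thompsonSubgroup 2 X)) ∈ M'.subgroupOf (thompsonSubgroup 2 X) := by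
      rw [hidx]; trivial
    exact Subgroup.mem_subgroupOf.mp this
  rw [eq_top_iff, ← hfr]
  exact sup_le hN1 hMxM

example : StGenF2.{u} := genF2

end Cfsg.Agent.H51.Sy
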