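import Mathlib
import Cfsg.Agent.H51.SyDefs

/-!
# S2949: the generation statement inside `X` from its pieces
-/

set_option autoImplicit false
open Cfsg

namespace Cfsg.Agent.H51.Sy

universe u

/-- GEN-X from GEN-S, GEN-D, GEN-F1, GEN-F2. -/
theorem genX (hS : StGenS.{u}) (hD : StGenD.{u}) (hF1 : StGenF1.{u}) (hF2 : StGenF2.{u}) :
    StGenX.{u} := by
  intro X _ _ V T J M' _ hVel hPS hO hT hTi hCT hJT hJM hchar hJgen hNM hM'
  by_contra hcon
  apply hM'
  have hCn : (Subgroup.centralizer (V : Set X)).Normal := inferInstance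
  have hTM : Subgroup.normalizer (T : Set X) ≤ M' := (hchar T hJT le_rfl).trans hNM
  have hCM : Subgroup.centralizer (V : Set X) ≤ M' := hCT.trans hTM
  have hk : ∀ k : X, IsCompElt V k → k ∈ M' := by
    intro k hkc
    rcases hD (Subgroup.centralizer (V : Set X)) J k hCn hJgen
      (fun g hg => hkc.2.2.2.1 g (hJM hg)) with ⟨A, hA, hAJ, a, ha, hak⟩ | hn
    · by_contra hkM
      exact hcon ⟨A, hA, hAJ, a, ha, k, hkc, hak, hkM⟩
    · have := hF1 T (Subgroup.centralizer (V : Set X)) J hT hTi hCn hJT hchar hn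
      exact (sup_le hCM hNM) this
  apply hF2 T J M' hT hTi hJT hJM hchar hNM
  intro y hy hyo
  have h1 := hS V hVel hPS hO y hy hyo
  refine (sup_le ?_ hCM) h1
  rw [Subgroup.closure_le]
  intro k hk'
  exact hk k hk'

end Cfsg.Agent.H51.Sy
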