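import Mathlib
import Cfsg.Agent.H51.SyDefs
import Cfsg.Agent.H14.Thompson

/-!
# SY-IFCHAR (piece of S2949): normalizers of subgroups between `J(T)` and `T` normalize `J(T)`
-/

set_option autoImplicit false
open Cfsg

namespace Cfsg.Agent.H51.Sy

universe u

/-- SY-IFCHAR, from helper19's SX-SYLJ. -/
theorem ifChar (h : Cfsg.Agent.H19.Sx.StSylJ.{u}) : StIfChar.{u} := by
  intro G _ _ T L hTL S hJS hST n hn
  have hJL : thompsonSubgroupOf 2 T ≤ L := (Subgroup.map_subtype_le _).trans hTL.1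
  have hS'L : S.map L.subtype ≤ L := Subgroup.map_subtype_le S
  have hS'T : S.map L.subtype ≤ T := by
    rintro _ ⟨s, hs, rfl⟩
    exact Subgroup.mem_subgroupOf.mp (hST hs)
  have hS'2 : IsPGroup 2 ↥(S.map L.subtype) := hTL.2.1.to_le hS'T
  have hJS' : thompsonSubgroupOf 2 T ≤ S.map L.subtype := by
    intro j hj
    exact ⟨⟨j, hJL hj⟩, hJS (Subgroup.mem_subgroupOf.mpr hj), rfl⟩
  have hJeq := h T L (S.map L.subtype) hTL hS'L hS'2 hJS'
  have hnS' : (S.map L.subtype).map (MulAut.conj (n : G)).toMonoidHom = S.map L.subtype := by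
    ext y
    constructor
    · rintro ⟨_, ⟨s, hs, rfl⟩, rfl⟩
      refine ⟨n * s * n⁻¹, (Subgroup.mem_normalizer_iff.mp hn s).mp hs, ?_⟩
      simp [MulAut.conj_apply]
    · rintro ⟨s, hs, rfl⟩
      have hs' : n⁻¹ * s * n ∈ S := by
        apply (Subgroup.mem_normalizer_iff.mp hn (n⁻¹ * s * n)).mpr
        have e : n * (n⁻¹ * s * n) * n⁻¹ = s := by group
        rw [e]; exact hs
      refine ⟨((n⁻¹ * s * n : ↥L) : G), ⟨n⁻¹ * s * n, hs', rfl⟩, ?_⟩
      simp only [MulEquiv.toMonoidHom_eq_coe, MonoidHom.coe_coe, MulAut.conj_apply,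
        Subgroup.coe_mul, Subgroup.coe_inv, Subgroup.coe_subtype]
      group
  have hconj := Cfsg.Agent.H14.thompsonSubgroupOf_conj 2 (n : G) (S.map L.subtype)
  rw [hnS', hJeq] at hconj
  rw [Subgroup.mem_normalizer_iff]
  intro j
  rw [Subgroup.mem_subgroupOf, Subgroup.mem_subgroupOf]
  constructor
  · intro hj
    have h1 : (MulAut.conj (n : G)).toMonoidHom (j : G) ∈
        (thompsonSubgroupOf 2 T).map (MulAut.conj (n : G)).toMonoidHom :=
      Subgroup.mem_map_of_mem _ hj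
    rw [hconj] at h1
    simpa [MulAut.conj_apply] using h1
  · intro hj
    rw [← hconj] at hj
    obtain ⟨y, hy, hyx⟩ := hj
    have h1 : (n : G) * y * (n : G)⁻¹ = (n : G) * (j : G) * (n : G)⁻¹ := by
      simpa [MulAut.conj_apply] using hyx
    have h2 : y = (j : G) := mul_left_cancel (mul_right_cancel h1)
    rw [← h2]; exact hy

example (h : Cfsg.Agent.H19.Sx.StSylJ.{u}) : StIfChar.{u} := ifChar h

end Cfsg.Agent.H51.Sy
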