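import Cfsg.Agent.H51.SyAsm
import Cfsg.Agent.H51.SyGenX
import Cfsg.Agent.H51.SyExist
import Cfsg.Agent.H51.SyGenD
import Cfsg.Agent.H51.SyGenF2
import Cfsg.Agent.H51.SyIfChar
import Cfsg.Agent.H13.SyGenS
import Cfsg.Agent.H36.SyGenF1
import Cfsg.Agent.H13.SyIfGen
import Cfsg.Agent.H5.SnRed
import Cfsg.Agent.H63.SnIfSyl
import Cfsg.Agent.H63.SnIfV
import Cfsg.Agent.H63.SnIfZ
import Cfsg.Agent.H71.SnIfS
import Cfsg.Agent.H18.SxCompA
import Cfsg.Agent.H25.SxCompB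
import Cfsg.Agent.H13.SxVK
import Cfsg.Agent.H82.SxW
import Cfsg.Agent.H25.SxIfV2
import Cfsg.Agent.H25.SxSylJ
import Cfsg.Agent.H39.SxLift

/-!
# S2949: the generation form of EXIST, hypothesis-free, and S2949 from the S2948 statement
-/

set_option autoImplicit false
open Cfsg

namespace Cfsg.Agent.H51.Sy

universe u

/-- GEN-X, hypothesis-free. -/
theorem genX_proved : StGenX.{u} :=
  genX Cfsg.Agent.H13.Sy.genS genD Cfsg.Agent.H36.Sy.genF1 genF2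

/-- The generation form of EXIST, hypothesis-free. -/
theorem existGen_proved : StExistGen.{u} :=
  existGen Cfsg.Agent.H5.Sn.red Cfsg.Agent.H63.Sn.ifSyl Cfsg.Agent.H63.Sn.ifV
    Cfsg.Agent.H63.Sn.ifZ Cfsg.Agent.H71.Sn.ifS genX_proved Cfsg.Agent.H18.Sx.compA
    Cfsg.Agent.H25.Sx.compB Cfsg.Agent.H13.Sx.vk Cfsg.Agent.H82.Sx.w Cfsg.Agent.H25.Sx.ifV2
    Cfsg.Agent.H25.Sx.sylJ Cfsg.Agent.H39.Sx.lift (ifChar Cfsg.Agent.H25.Sx.sylJ)
    Cfsg.Agent.H13.Sy.ifGen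

/-- S2949 from the S2948 statement. -/
theorem main9_of_48 (h48 : St2948.{u}) : StMain9.{u} := main9 h48 existGen_proved

end Cfsg.Agent.H51.Sy
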