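import Mathlib
import Cfsg.Agent.H51.SyDefs
import Cfsg.Agent.H51.Local
import Cfsg.Agent.H51.JcNORM
import Cfsg.Agent.H14.Thompson

/-!
# S2949: assembly from S2948 (as a statement) and the generation form of EXIST
-/

set_option autoImplicit false
open Cfsg

namespace Cfsg.Agent.H51.Sy

universe u

/-- A 2-subgroup of `N` lies in a Sylow 2-subgroup of `N`. -/
theorem sy_exists_sylow {G : Type u} [Group G] [Finite G] (N J : Subgroup G) (hJN : J ≤ N)
    (hJ : IsPGroup 2 ↥J) : ∃ S : Subgroup G, IsSylowTwoIn S N ∧ J ≤ S := by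
  have hfact : Fact (Nat.Prime 2) := ⟨Nat.prime_two⟩
  have hJ' : IsPGroup 2 ↥(J.subgroupOf N) := hJ.comap_subtype
  obtain ⟨P, hP⟩ := hJ'.exists_le_sylow
  refine ⟨(P : Subgroup ↥N).map N.subtype, ⟨Subgroup.map_subtype_le _, ?_, ?_⟩, ?_⟩
  · exact P.isPGroup'.map N.subtype
  · have e : ((P : Subgroup ↥N).map N.subtype).relIndex N = (P : Subgroup ↥N).index := by
      unfold Subgroup.relIndex
      rw [← Subgroup.comap_subtype,
        Subgroup.comap_map_eq_self_of_injective N.subtype_injective]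
    rw [e]
    have h1 := P.not_dvd_index
    rw [← Nat.not_even_iff_odd, even_iff_two_dvd]
    exact h1
  · intro x hx
    exact ⟨⟨x, hJN hx⟩, hP (Subgroup.mem_subgroupOf.mpr hx), rfl⟩

/-- The Thompson subgroup of a nontrivial finite 2-group is nontrivial. -/
theorem sy_thompson_ne_bot {G : Type u} [Group G] [Finite G] (T : Subgroup G)
    (hT : IsPGroup 2 ↥T) (hne : T ≠ ⊥) : thompsonSubgroupOf 2 T ≠ ⊥ := by
  have hfact : Fact (Nat.Prime 2) := ⟨Nat.prime_two⟩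
  obtain ⟨A, hA⟩ := Cfsg.Agent.H14.maxElementaryAbelian_nonempty (G := ↥T) 2
  have hcard : 2 ∣ Nat.card ↥T := by
    obtain ⟨k, hk⟩ := IsPGroup.iff_card.1 hT
    have hk0 : k ≠ 0 := by
      rintro rfl
      rw [pow_zero] at hk
      exact hne ((Subgroup.card_eq_one).1 hk)
    rw [hk]; exact dvd_pow_self 2 hk0
  obtain ⟨x, hx⟩ := exists_prime_orderOf_dvd_card' 2 hcard
  have hxp : x ^ 2 = 1 := by rw [← hx]; exact pow_orderOf_eq_one x
  have h1 := hA.2 _ (Cfsg.Agent.H14.isElementaryAbelian_zpowers hxp)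
  rw [Nat.card_zpowers, hx] at h1
  have hAne : A ≠ ⊥ := by
    intro h
    rw [h, Subgroup.card_bot] at h1
    omega
  have hle : A ≤ thompsonSubgroup 2 ↥T := le_sSup hA
  unfold thompsonSubgroupOf
  rw [Ne, Subgroup.map_eq_bot_iff_of_injective _ T.subtype_injective]
  intro h
  apply hAne
  rw [eq_bot_iff, ← h]; exact hle

/-- `O₂(L)` lies in every Sylow 2-subgroup of `L`. -/
theorem sy_pCoreOf_le {G : Type u} [Group G] [Finite G] {T L : Subgroup G}
    (h : IsSylowTwoIn T L) : pCoreOf 2 L ≤ T := by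
  obtain ⟨hle, hT2, hodd⟩ := h
  have : Fact (Nat.Prime 2) := ⟨Nat.prime_two⟩
  have hT' : IsPGroup 2 ↥(T.subgroupOf L) := hT2.comap_subtype
  have hodd' : Odd (T.subgroupOf L).index := hodd
  have hnd : ¬ 2 ∣ (T.subgroupOf L).index := by
    intro h
    exact (Nat.not_even_iff_odd.mpr hodd') (even_iff_two_dvd.mpr h)
  intro x hx
  obtain ⟨y, hy, rfl⟩ := hx
  have h1 := Cfsg.Agent.H51.pCore_le_sylow 2 (hT'.toSylow hnd) hy
  have h2 := (IsPGroup.mem_toSylow hT' hnd).mp h1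
  exact Subgroup.mem_subgroupOf.mp h2

/-- S2949 from S2948 and the generation form of EXIST. -/
theorem main9 (h48 : St2948.{u}) (hEx : StExistGen.{u}) : StMain9.{u} := by
  intro G _ _ hL hN hZ hO S M hM hMJ T hT
  have hT' := hT
  obtain ⟨hTs, -⟩ := hT
  obtain ⟨hT2, hT1, hTM, L, hL2, hTL, hLM⟩ := hTs
  have hJT : thompsonSubgroupOf 2 T ≤ T := Subgroup.map_subtype_le _
  obtain ⟨T₀, hT₀, hTT₀⟩ := sy_exists_sylow L T hTL hT2
  obtain ⟨-, -, -, h1d⟩ := h48 hL hN hZ hO S M hM hMJ T hT' L hL2 hLM T₀ hT₀ (hJT.trans hTT₀)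
  obtain ⟨hLfam, -⟩ := h1d hTL
  have hJne : thompsonSubgroupOf 2 T ≠ ⊥ := sy_thompson_ne_bot T hT2 hT1
  have hJ2 : IsPGroup 2 ↥(thompsonSubgroupOf 2 T) := hT2.to_le hJT
  -- `N_G(J(T)) ≤ M`
  have hNJ : Subgroup.normalizer (thompsonSubgroupOf 2 T : Set G) ≤ M := by
    by_contra hcon
    have hN2 : IsTwoLocal (Subgroup.normalizer (thompsonSubgroupOf 2 T : Set G)) :=
      ⟨thompsonSubgroupOf 2 T, hJ2, hJne, rfl⟩
    obtain ⟨T₁, hT₁, hJT₁⟩ := sy_exists_sylow
      (Subgroup.normalizer (thompsonSubgroupOf 2 T : Set G)) (thompsonSubgroupOf 2 T)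
      Subgroup.le_normalizer hJ2
    obtain ⟨hJeq, -, hfam, -⟩ := h48 hL hN hZ hO S M hM hMJ T hT' _ hN2 hcon T₁ hT₁ hJT₁
    apply hfam.2.1
    rw [← hJeq]
    exact Cfsg.Agent.H51.le_pCoreOf 2 Subgroup.le_normalizer le_rfl hJ2
  -- a `J(T)`-component of `L` outside `M`
  obtain ⟨K, hK, hKL, hKM⟩ := hEx hL hN hZ T hT2 hT1 L hLfam M (inf_le_left.trans hNJ) hLM
  refine ⟨K, ⟨hK, ?_⟩, hKM, ?_⟩
  · intro S' hJS' hS'
    have hfact : Fact (Nat.Prime 2) := ⟨Nat.prime_two⟩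
    have hWc : Nat.card ↥(wOf K) = 4 := hK.2.2.2.2.1
    have hW2 : IsPGroup 2 ↥(wOf K) := IsPGroup.of_card (n := 2) (by rw [hWc]; norm_num)
    have hWne : wOf K ≠ ⊥ := by
      intro h
      rw [h, Subgroup.card_bot] at hWc
      omega
    have hN2 : IsTwoLocal (Subgroup.normalizer (wOf K : Set G)) := ⟨wOf K, hW2, hWne, rfl⟩
    have hKN : K ≤ Subgroup.normalizer (wOf K : Set G) := by
      have hw := Cfsg.Agent.H51.Jc.wOf_norm (K := K) (J := K) Subgroup.le_normalizer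
      intro g hg
      rw [Subgroup.mem_normalizer_iff]
      intro w
      constructor
      · intro hwm
        exact hw g (Subgroup.mem_sup_left hg) w hwm
      · intro hwm
        have := hw g⁻¹ (Subgroup.mem_sup_left (K.inv_mem hg)) _ hwm
        simpa [mul_assoc] using this
    have hNM : ¬ Subgroup.normalizer (wOf K : Set G) ≤ M := fun h => hKM (hKN.trans h)
    obtain ⟨hJeq, -⟩ := h48 hL hN hZ hO S M hM hMJ T hT' _ hN2 hNM S' hS' hJS'
    exact hJeq.symm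
  · have hQT : pCoreOf 2 L ≤ T := sy_pCoreOf_le hLfam.1
    have hQ : pCoreOf 2 L ≤ pCoreOf 2 (K ⊔ T) := by
      apply Cfsg.Agent.H51.le_pCoreOf 2 (hQT.trans le_sup_right)
      · exact (sup_le hKL hTL).trans (Cfsg.Agent.H51.le_normalizer_pCoreOf 2 L)
      · exact Cfsg.Agent.H51.pCoreOf_isPGroup 2 L
    intro hbot
    have hQbot : pCoreOf 2 L = ⊥ := by rw [eq_bot_iff, ← hbot]; exact hQ
    have hc := hLfam.2.2
    rw [hQbot] at hc
    apply hT1
    rw [eq_bot_iff]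
    intro x hx
    apply hc
    rw [Subgroup.mem_centralizer_iff]
    intro y hy
    have hy1 : y = 1 := by simpa using hy
    rw [hy1]; simp

end Cfsg.Agent.H51.Sy
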