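import Mathlib
import Cfsg.Agent.H96.RoDefs

/-!
# S2113 team project (helper51): the Schur multiplier of `²G₂(q)`, `q = 3^(2m+1) ≥ 27`, is trivial

Definitions, basic lemmas and the exact piece statements (`def St… : Prop`).

Setting: helper96's abstract Ree datum `D : Cfsg.Agent.H96.Ro.Datum K G n` (`n = 3^(m+1)`; only the
fields `R`, `h`, `R_mul`, `h_mul`, `h_conj` are used) and a central extension `σ : Γ →* G`
(surjective, kernel central), bundled as `Ext K G n Γ`.  `E.r t u v`, `E.hh κ` are chosen lifts of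
`R t u v`, `h κ`; commutators `cm x y = x * y * x⁻¹ * y⁻¹` of lifts do not depend on the lifts
(`Ext.cm_congr`).  `E.c u t = cm (r 0 u 0) (r t 0 0)` (a lift of `R 0 0 (-(t*u))`),
`E.ζ v = E.c (-v) 1` (the canonical lift of `R 0 0 v`), `E.b t t' = cm (r t 0 0) (r t' 0 0)`,
`E.nuL L x = ∏_{κ ∈ L} hh κ * x * (hh κ)⁻¹` (ordered product over a list of units).
-/

set_option autoImplicit false

namespace Cfsg.Agent.H51.Rs

open Cfsg.Agent.H96.Ro

universe u v w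

/-! ## Commutators -/

/-- the group commutator, written out (equal to Mathlib's `⁅x, y⁆`) -/
def cm {Γ : Type*} [Group Γ] (x y : Γ) : Γ := x * y * x⁻¹ * y⁻¹

open scoped commutatorElement in
theorem cm_eq_commutatorElement {Γ : Type*} [Group Γ] (x y : Γ) : cm x y = ⁅x, y⁆ := rfl

theorem cm_mul_left {Γ : Type*} [Group Γ] (x₁ x₂ y : Γ) :
    cm (x₁ * x₂) y = x₁ * cm x₂ y * x₁⁻¹ * cm x₁ y := by
  unfold cm; group

theorem cm_mul_right {Γ : Type*} [Group Γ] (x y₁ y₂ : Γ) :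
    cm x (y₁ * y₂) = cm x y₁ * (y₁ * cm x y₂ * y₁⁻¹) := by
  unfold cm; group

theorem cm_conj {Γ : Type*} [Group Γ] (g x y : Γ) :
    g * cm x y * g⁻¹ = cm (g * x * g⁻¹) (g * y * g⁻¹) := by
  unfold cm; group

theorem cm_map {Γ G : Type*} [Group Γ] [Group G] (σ : Γ →* G) (x y : Γ) :
    σ (cm x y) = cm (σ x) (σ y) := by
  simp [cm, map_mul, map_inv]

theorem cm_inv {Γ : Type*} [Group Γ] (x y : Γ) : (cm x y)⁻¹ = cm y x := by
  unfold cm; group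

theorem cm_eq_one_iff {Γ : Type*} [Group Γ] {x y : Γ} : cm x y = 1 ↔ x * y = y * x := by
  unfold cm
  constructor
  · intro h
    have h1 : x * y = (x * y * x⁻¹ * y⁻¹) * (y * x) := by group
    rw [h1, h, one_mul]
  · intro h
    rw [h]; group

/-- `x * y = c * (y * x)` identifies the commutator -/
theorem cm_eq_of_mul_eq {Γ : Type*} [Group Γ] {x y c : Γ} (h : x * y = c * (y * x)) :
    cm x y = c := by
  unfold cm
  rw [h]; group

theorem cm_one_left {Γ : Type*} [Group Γ] (x : Γ) : cm 1 x = 1 := by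
  unfold cm; group

theorem cm_one_right {Γ : Type*} [Group Γ] (x : Γ) : cm x 1 = 1 := by
  unfold cm; group

/-! ## The group `U` of a Ree datum -/

section datum

variable {K : Type u} [Field K] {G : Type v} [Group G] {n : ℕ} (D : Datum K G n)

theorem R_one : D.R 0 0 0 = 1 := by
  have h := D.R_mul 0 0 0 0 0 0
  have e : D.R (0 + 0) (0 + 0 - 0 ^ n * 0) (0 + 0 - 0 * 0 + 0 ^ n * 0 * 0 - 0 ^ n * 0 ^ 2) =
      D.R 0 0 0 := by
    congr 1 <;> ring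
  rw [e] at h
  exact (mul_eq_left (a := D.R 0 0 0)).1 h

/-- `U₁ = {R 0 u v}` is abelian with the additive law -/
theorem R_U1_mul (u v u' v' : K) : D.R 0 u v * D.R 0 u' v' = D.R 0 (u + u') (v + v') := by
  rw [D.R_mul]
  congr 1 <;> ring

theorem R_split2 (u v : K) : D.R 0 u v = D.R 0 u 0 * D.R 0 0 v := by
  rw [R_U1_mul]; simp

/-- left multiplication by an element of `U₁` -/
theorem R_U1_mul_left (a b T A B : K) :
    D.R 0 a b * D.R T A B = D.R T (a + A) (b + B - T * a) := by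
  rw [D.R_mul]
  congr 1 <;> ring

theorem R_split1 (hn : n ≠ 0) (t u v : K) : D.R t u v = D.R t 0 0 * D.R 0 u v := by
  rw [D.R_mul]
  simp [zero_pow hn]

/-- `U₂ = {R 0 0 v}` is central in `U` -/
theorem R_U2_comm (hn : n ≠ 0) (v t u w : K) :
    D.R 0 0 v * D.R t u w = D.R t u w * D.R 0 0 v := by
  rw [D.R_mul, D.R_mul]
  simp [zero_pow hn]
  congr 1; ring

/-- two elements of `U` differ, in either order, by an element of `U₁` -/
theorem R_diff (T A B A' B' : K) :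
    D.R T A B = D.R 0 (A - A') (B - B' + T * (A - A')) * D.R T A' B' := by
  rw [R_U1_mul_left]
  congr 1 <;> ring

/-- the basic commutator `[R 0 u 0, R t 0 0] = R 0 0 (-(t*u))` -/
theorem cm_R_u_t (hn : n ≠ 0) (u t : K) :
    cm (D.R 0 u 0) (D.R t 0 0) = D.R 0 0 (-(t * u)) := by
  apply cm_eq_of_mul_eq
  rw [D.R_mul, D.R_mul, R_U1_mul_left]
  simp [zero_pow hn]

/-- products of elements `R t 0 0` -/
theorem R_t_mul (hn : n ≠ 0) (t t' : K) :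
    D.R t 0 0 * D.R t' 0 0 =
      D.R (t + t') 0 0 * D.R 0 (-(t' ^ n * t)) (t' ^ n * t * t' - t' ^ n * t ^ 2) := by
  rw [← R_split1 D hn, D.R_mul]
  congr 1 <;> ring

/-- the commutator of two elements of `U` lies in `U₁` -/
theorem cm_R_mem_U1 (t u v t' u' v' : K) :
    ∃ a b : K, cm (D.R t u v) (D.R t' u' v') = D.R 0 a b := by
  have h1 := D.R_mul t u v t' u' v'
  have h2 := D.R_mul t' u' v' t u v
  have e : t' + t = t + t' := add_comm _ _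
  rw [e] at h2
  exact ⟨_, _, cm_eq_of_mul_eq (by rw [h1, h2]; exact R_diff D _ _ _ _ _)⟩

theorem h_conj_t (κ : Kˣ) (t : K) :
    D.h κ * D.R t 0 0 * (D.h κ)⁻¹ = D.R ((κ : K) * t) 0 0 := by
  rw [D.h_conj]; simp

theorem h_conj_u (κ : Kˣ) (u : K) :
    D.h κ * D.R 0 u 0 * (D.h κ)⁻¹ = D.R 0 ((κ : K) ^ (n + 1) * u) 0 := by
  rw [D.h_conj]; simp

theorem h_conj_v (κ : Kˣ) (v : K) :
    D.h κ * D.R 0 0 v * (D.h κ)⁻¹ = D.R 0 0 ((κ : K) ^ (n + 2) * v) := by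
  rw [D.h_conj]; simp

theorem h_conj_uv (κ : Kˣ) (u v : K) :
    D.h κ * D.R 0 u v * (D.h κ)⁻¹ = D.R 0 ((κ : K) ^ (n + 1) * u) ((κ : K) ^ (n + 2) * v) := by
  rw [D.h_conj]; simp

end datum

/-! ## Central extensions of a group with a Ree datum -/

/-- a central extension `σ : Γ →* G` of a group with a Ree datum -/
structure Ext (K : Type u) [Field K] (G : Type v) [Group G] (n : ℕ) (Γ : Type w) [Group Γ] where
  D : Datum K G n
  σ : Γ →* G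
  surj : Function.Surjective σ
  central : ∀ z : Γ, σ z = 1 → ∀ x : Γ, x * z = z * x

namespace Ext

variable {K : Type u} [Field K] {G : Type v} [Group G] {n : ℕ} {Γ : Type w} [Group Γ]
  (E : Ext K G n Γ)

/-- the chosen lift of `R t u v` -/
noncomputable def r (t u v : K) : Γ := Function.surjInv E.surj (E.D.R t u v)

/-- the chosen lift of `h κ` -/
noncomputable def hh (κ : Kˣ) : Γ := Function.surjInv E.surj (E.D.h κ)

theorem σ_r (t u v : K) : E.σ (E.r t u v) = E.D.R t u v := Function.surjInv_eq E.surj _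

theorem σ_hh (κ : Kˣ) : E.σ (E.hh κ) = E.D.h κ := Function.surjInv_eq E.surj _

/-- `x` lies over `U` -/
def InU (x : Γ) : Prop := ∃ t u v : K, E.σ x = E.D.R t u v

/-- `x` lies over `U₁ = {R 0 u v}` -/
def InU1 (x : Γ) : Prop := ∃ u v : K, E.σ x = E.D.R 0 u v

/-- `x` lies over `U₂ = {R 0 0 v}` -/
def InU2 (x : Γ) : Prop := ∃ v : K, E.σ x = E.D.R 0 0 v

/-- lift of `R 0 0 (-(t*u))` -/
noncomputable def c (u t : K) : Γ := cm (E.r 0 u 0) (E.r t 0 0)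

/-- the canonical lift of `R 0 0 v` -/
noncomputable def ζ (v : K) : Γ := E.c (-v) 1

/-- the commutator of the lifts of `R t 0 0`, `R t' 0 0` -/
noncomputable def b (t t' : K) : Γ := cm (E.r t 0 0) (E.r t' 0 0)

/-- ordered product of the torus conjugates of `x` along a list of units -/
noncomputable def nuL (L : List Kˣ) (x : Γ) : Γ :=
  (L.map (fun κ => E.hh κ * x * (E.hh κ)⁻¹)).prod

theorem InU1.inU {x : Γ} (h : E.InU1 x) : E.InU x := by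
  obtain ⟨u, v, h⟩ := h; exact ⟨0, u, v, h⟩

theorem InU2.inU1 {x : Γ} (h : E.InU2 x) : E.InU1 x := by
  obtain ⟨v, h⟩ := h; exact ⟨0, v, h⟩

theorem inU_r (t u v : K) : E.InU (E.r t u v) := ⟨t, u, v, E.σ_r t u v⟩

theorem inU1_r (u v : K) : E.InU1 (E.r 0 u v) := ⟨u, v, E.σ_r 0 u v⟩

theorem inU2_r (v : K) : E.InU2 (E.r 0 0 v) := ⟨v, E.σ_r 0 0 v⟩

theorem InU.mul {x y : Γ} (hx : E.InU x) (hy : E.InU y) : E.InU (x * y) := by
  obtain ⟨t, u, v, hx⟩ := hx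
  obtain ⟨t', u', v', hy⟩ := hy
  exact ⟨_, _, _, by rw [map_mul, hx, hy, E.D.R_mul]⟩

theorem InU1.mul {x y : Γ} (hx : E.InU1 x) (hy : E.InU1 y) : E.InU1 (x * y) := by
  obtain ⟨u, v, hx⟩ := hx
  obtain ⟨u', v', hy⟩ := hy
  exact ⟨_, _, by rw [map_mul, hx, hy, R_U1_mul]⟩

theorem inU1_one : E.InU1 (1 : Γ) := ⟨0, 0, by rw [map_one, R_one]⟩

theorem InU1.inv {x : Γ} (hx : E.InU1 x) : E.InU1 x⁻¹ := by
  obtain ⟨u, v, hx⟩ := hx
  refine ⟨-u, -v, ?_⟩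
  rw [map_inv, hx]
  apply inv_eq_of_mul_eq_one_right
  rw [R_U1_mul]; simp [R_one]

theorem InU.inv {x : Γ} (hx : E.InU x) : E.InU x⁻¹ := by
  obtain ⟨t, u, v, hx⟩ := hx
  refine ⟨-t, -u + (-t) ^ n * t, -v - t * u + 2 * (-t) ^ n * t ^ 2, ?_⟩
  rw [map_inv, hx]
  apply inv_eq_of_mul_eq_one_right
  rw [E.D.R_mul, ← R_one E.D]
  congr 1 <;> ring

/-- conjugation by a lift of a torus element preserves "over `U₁`" -/
theorem InU1.conj {x g : Γ} (hx : E.InU1 x) {κ : Kˣ} (hg : E.σ g = E.D.h κ) :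
    E.InU1 (g * x * g⁻¹) := by
  obtain ⟨u, v, hx⟩ := hx
  exact ⟨_, _, by rw [map_mul, map_mul, map_inv, hx, hg, h_conj_uv]⟩

/-- conjugation depends only on the image in `G` -/
theorem conj_congr {x x' : Γ} (hx : E.σ x = E.σ x') (γ : Γ) :
    x * γ * x⁻¹ = x' * γ * x'⁻¹ := by
  have hα : ∀ z, z * (x⁻¹ * x') = (x⁻¹ * x') * z :=
    E.central _ (by rw [map_mul, map_inv, hx, inv_mul_cancel])
  have ex : x' = x * (x⁻¹ * x') := by group
  generalize x⁻¹ * x' = α at hα ex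
  subst ex
  have h1 : x * α * γ * (x * α)⁻¹ = x * (α * γ) * α⁻¹ * x⁻¹ := by group
  rw [h1, ← hα γ]
  group

/-- commutators depend only on the images in `G` -/
theorem cm_congr {x x' y y' : Γ} (hx : E.σ x = E.σ x') (hy : E.σ y = E.σ y') :
    cm x y = cm x' y' := by
  have e1 : cm x y = (x * y * x⁻¹) * y⁻¹ := by unfold cm; group
  have e2 : cm x' y' = (x' * y' * x'⁻¹) * y'⁻¹ := by unfold cm; group
  have e3 : (x' * y' * x'⁻¹) * y'⁻¹ = x' * (y' * x'⁻¹ * y'⁻¹) := by group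
  have e4 : (x' * y * x'⁻¹) * y⁻¹ = x' * (y * x'⁻¹ * y⁻¹) := by group
  rw [e1, e2, E.conj_congr hx y, e4, E.conj_congr hy x'⁻¹, ← e3]

/-- elements over `1` are central -/
theorem central' {z : Γ} (hz : E.σ z = 1) (x : Γ) : z * x = x * z := (E.central z hz x).symm

theorem σ_c (hn : n ≠ 0) (u t : K) : E.σ (E.c u t) = E.D.R 0 0 (-(t * u)) := by
  unfold c
  rw [cm_map, E.σ_r, E.σ_r, cm_R_u_t E.D hn]

theorem σ_ζ (hn : n ≠ 0) (v : K) : E.σ (E.ζ v) = E.D.R 0 0 v := by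
  unfold ζ
  rw [E.σ_c hn]; simp

theorem inU1_b (t t' : K) : E.InU1 (E.b t t') := by
  obtain ⟨a, b', h⟩ := cm_R_mem_U1 E.D t 0 0 t' 0 0
  exact ⟨a, b', by unfold b; rw [cm_map, E.σ_r, E.σ_r, h]⟩

/-- torus conjugation of `b` -/
theorem conj_b {g : Γ} {κ : Kˣ} (hg : E.σ g = E.D.h κ) (t t' : K) :
    g * E.b t t' * g⁻¹ = E.b ((κ : K) * t) ((κ : K) * t') := by
  unfold b
  rw [cm_conj]
  apply E.cm_congr
  · rw [map_mul, map_mul, map_inv, hg, E.σ_r, E.σ_r, h_conj_t]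
  · rw [map_mul, map_mul, map_inv, hg, E.σ_r, E.σ_r, h_conj_t]

end Ext

/-! ## Invariant pairings -/

/-- every biadditive pairing `K × K → Γ` with commuting values that is invariant under
`(x, y) ↦ (κ^a x, κ^b y)` is trivial -/
def PairVanish (K : Type u) [Field K] (a b : ℕ) : Prop :=
  ∀ (Γ : Type w) [Group Γ] (ω : K → K → Γ),
    (∀ x y x' y', ω x y * ω x' y' = ω x' y' * ω x y) →
    (∀ x x' y, ω (x + x') y = ω x y * ω x' y) →
    (∀ x y y', ω x (y + y') = ω x y * ω x y') →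
    (∀ κ : K, κ ≠ 0 → ∀ x y, ω (κ ^ a * x) (κ ^ b * y) = ω x y) →
    ∀ x y, ω x y = 1

/-- RS-PAIRGEN: the trace / character-sum lemma. -/
def StPairGen : Prop :=
  ∀ (K : Type u) [Field K] [Fintype K] (N : ℕ), Fintype.card K = 3 ^ N → ∀ a b : ℕ,
    (∀ i < N, ∀ j < N, ¬ (3 ^ N - 1) ∣ a * 3 ^ i + b * 3 ^ j) → PairVanish.{u, w} K a b

/-- RS-ARITHA: exponent pairs `(1,1)`, `(n+1,1)`, `(n+1,n+2)` (size / parity). -/
def StArithA : Prop :=
  ∀ m : ℕ, 1 ≤ m → ∀ i < 2 * m + 1, ∀ j < 2 * m + 1,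
    ¬ (3 ^ (2 * m + 1) - 1) ∣ 1 * 3 ^ i + 1 * 3 ^ j ∧
    ¬ (3 ^ (2 * m + 1) - 1) ∣ (3 ^ (m + 1) + 1) * 3 ^ i + 1 * 3 ^ j ∧
    ¬ (3 ^ (2 * m + 1) - 1) ∣ (3 ^ (m + 1) + 1) * 3 ^ i + (3 ^ (m + 1) + 2) * 3 ^ j

/-- RS-ARITHB: exponent pairs `(n+2,1)`, `(n+1,n+1)` (sums of four powers of 3). -/
def StArithB : Prop :=
  ∀ m : ℕ, 1 ≤ m → ∀ i < 2 * m + 1, ∀ j < 2 * m + 1,
    ¬ (3 ^ (2 * m + 1) - 1) ∣ (3 ^ (m + 1) + 2) * 3 ^ i + 1 * 3 ^ j ∧
    ¬ (3 ^ (2 * m + 1) - 1) ∣ (3 ^ (m + 1) + 1) * 3 ^ i + (3 ^ (m + 1) + 1) * 3 ^ j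

/-- RS-ARITHC: exponent pair `(n+2,n+2)` (`n+2` is a unit mod `q-1`). -/
def StArithC : Prop :=
  ∀ m : ℕ, 1 ≤ m → ∀ i < 2 * m + 1, ∀ j < 2 * m + 1,
    ¬ (3 ^ (2 * m + 1) - 1) ∣ (3 ^ (m + 1) + 2) * 3 ^ i + (3 ^ (m + 1) + 2) * 3 ^ j

/-- the six pairing lemmas used below (glue of PAIRGEN and ARITH) -/
def StPairs : Prop :=
  ∀ (K : Type u) [Field K] [Fintype K] (m : ℕ), 1 ≤ m → Fintype.card K = 3 ^ (2 * m + 1) →
    PairVanish.{u, w} K 1 1 ∧ PairVanish.{u, w} K (3 ^ (m + 1) + 1) 1 ∧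
    PairVanish.{u, w} K (3 ^ (m + 1) + 2) 1 ∧
    PairVanish.{u, w} K (3 ^ (m + 1) + 1) (3 ^ (m + 1) + 1) ∧
    PairVanish.{u, w} K (3 ^ (m + 1) + 1) (3 ^ (m + 1) + 2) ∧
    PairVanish.{u, w} K (3 ^ (m + 1) + 2) (3 ^ (m + 1) + 2)

/-! ## The Sylow 3-subgroup: structure of the preimage of `U` -/

/-- RS-STEP1: the preimage of `U₁` is abelian. -/
def StStep1 : Prop :=
  ∀ (K : Type u) [Field K] [Fintype K] [CharP K 3] (m : ℕ), 1 ≤ m →
    Fintype.card K = 3 ^ (2 * m + 1) → ∀ (G : Type v) [Group G] (Γ : Type w) [Group Γ]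
    (E : Ext K G (3 ^ (m + 1)) Γ),
    ∀ x y : Γ, E.InU1 x → E.InU1 y → x * y = y * x

/-- RS-STEP2: the preimage of `U₂` is central in the preimage of `U`. -/
def StStep2 : Prop :=
  ∀ (K : Type u) [Field K] [Fintype K] [CharP K 3] (m : ℕ), 1 ≤ m →
    Fintype.card K = 3 ^ (2 * m + 1) → ∀ (G : Type v) [Group G] (Γ : Type w) [Group Γ]
    (E : Ext K G (3 ^ (m + 1)) Γ),
    ∀ z x : Γ, E.InU2 z → E.InU x → z * x = x * z

/-- RS-STEP3: `ζ` is a torus-equivariant homomorphic lift of `U₂`, and `[Û₁, Û] ⊆ ζ(K)`. -/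
def StStep3 : Prop :=
  ∀ (K : Type u) [Field K] [Fintype K] [CharP K 3] (m : ℕ), 1 ≤ m →
    Fintype.card K = 3 ^ (2 * m + 1) → ∀ (G : Type v) [Group G] (Γ : Type w) [Group Γ]
    (E : Ext K G (3 ^ (m + 1)) Γ),
    (∀ v v' : K, E.ζ (v + v') = E.ζ v * E.ζ v') ∧
    (∀ (κ : Kˣ) (g : Γ), E.σ g = E.D.h κ → ∀ v : K,
      g * E.ζ v * g⁻¹ = E.ζ ((κ : K) ^ (3 ^ (m + 1) + 2) * v)) ∧
    (∀ a x : Γ, E.InU1 a → E.InU x → ∃ v : K, cm a x = E.ζ v)

/-- RS-STEP4: every commutator of the preimage of `U` is `b t t' * ζ v`. -/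
def StStep4 : Prop :=
  ∀ (K : Type u) [Field K] [Fintype K] [CharP K 3] (m : ℕ), 1 ≤ m →
    Fintype.card K = 3 ^ (2 * m + 1) → ∀ (G : Type v) [Group G] (Γ : Type w) [Group Γ]
    (E : Ext K G (3 ^ (m + 1)) Γ),
    ∀ x y : Γ, E.InU x → E.InU y → ∃ t t' v : K, cm x y = E.b t t' * E.ζ v

/-- RS-STEP5: `b` is biadditive modulo `ζ(K)`. -/
def StStep5 : Prop :=
  ∀ (K : Type u) [Field K] [Fintype K] [CharP K 3] (m : ℕ), 1 ≤ m →
    Fintype.card K = 3 ^ (2 * m + 1) → ∀ (G : Type v) [Group G] (Γ : Type w) [Group Γ]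
    (E : Ext K G (3 ^ (m + 1)) Γ),
    (∀ t₁ t₂ t' : K, ∃ v : K, E.b (t₁ + t₂) t' = E.b t₁ t' * E.b t₂ t' * E.ζ v) ∧
    (∀ t t₁ t₂ : K, ∃ v : K, E.b t (t₁ + t₂) = E.b t t₁ * E.b t t₂ * E.ζ v)

/-- RS-STEP6: `b t t'` has cube `1`. -/
def StStep6 : Prop :=
  ∀ (K : Type u) [Field K] [Fintype K] [CharP K 3] (m : ℕ), 1 ≤ m →
    Fintype.card K = 3 ^ (2 * m + 1) → ∀ (G : Type v) [Group G] (Γ : Type w) [Group Γ]
    (E : Ext K G (3 ^ (m + 1)) Γ),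
    ∀ t t' : K, E.b t t' ^ 3 = 1

/-- RS-NUMUL: `nuL L` is multiplicative on the preimage of `U₁`. -/
def StNuMul : Prop :=
  ∀ (K : Type u) [Field K] [Fintype K] [CharP K 3] (m : ℕ), 1 ≤ m →
    Fintype.card K = 3 ^ (2 * m + 1) → ∀ (G : Type v) [Group G] (Γ : Type w) [Group Γ]
    (E : Ext K G (3 ^ (m + 1)) Γ),
    ∀ (L : List Kˣ) (a b : Γ), E.InU1 a → E.InU1 b → E.nuL L (a * b) = E.nuL L a * E.nuL L b

/-- RS-NUKER: `nuL L` is the `L.length`-th power on the kernel. -/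
def StNuKer : Prop :=
  ∀ (K : Type u) [Field K] (G : Type v) [Group G] (n : ℕ) (Γ : Type w) [Group Γ]
    (E : Ext K G n Γ) (L : List Kˣ) (z : Γ), E.σ z = 1 → E.nuL L z = z ^ L.length

/-- RS-NUZETA: `nuL L` kills `ζ(K)` when `L` enumerates the units. -/
def StNuZeta : Prop :=
  ∀ (K : Type u) [Field K] [Fintype K] [CharP K 3] (m : ℕ), 1 ≤ m →
    Fintype.card K = 3 ^ (2 * m + 1) → ∀ (G : Type v) [Group G] (Γ : Type w) [Group Γ]
    (E : Ext K G (3 ^ (m + 1)) Γ),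
    ∀ L : List Kˣ, L.Nodup → (∀ κ : Kˣ, κ ∈ L) → ∀ v : K, E.nuL L (E.ζ v) = 1

/-- RS-NUB: `nuL L` kills every `b t t'` when `L` enumerates the units. -/
def StNuB : Prop :=
  ∀ (K : Type u) [Field K] [Fintype K] [CharP K 3] (m : ℕ), 1 ≤ m →
    Fintype.card K = 3 ^ (2 * m + 1) → ∀ (G : Type v) [Group G] (Γ : Type w) [Group Γ]
    (E : Ext K G (3 ^ (m + 1)) Γ),
    ∀ L : List Kˣ, L.Nodup → (∀ κ : Kˣ, κ ∈ L) → ∀ t t' : K, E.nuL L (E.b t t') = 1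

/-- RS-FINAL3: the kernel meets the commutator subgroup of the preimage of `U` trivially. -/
def StFinal3 : Prop :=
  ∀ (K : Type u) [Field K] [Fintype K] [CharP K 3] (m : ℕ), 1 ≤ m →
    Fintype.card K = 3 ^ (2 * m + 1) → ∀ (G : Type v) [Group G] (Γ : Type w) [Group Γ]
    (E : Ext K G (3 ^ (m + 1)) Γ) (P : Subgroup G),
    (∀ x : G, x ∈ P ↔ ∃ t u v : K, x = E.D.R t u v) →
    E.σ.ker ⊓ ⁅P.comap E.σ, P.comap E.σ⁆ = ⊥

/-! ## The primes 2 and `p ≥ 5` -/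

/-- RS-TWO: an abelian subgroup of order 8 normalised but not centralised by an element `y` with
`y^7 = 1` has abelian preimage in every central extension. -/
def StTwo : Prop :=
  ∀ (G : Type v) [Group G] (S : Subgroup G) (y : G), Nat.card S = 8 →
    (∀ a ∈ S, ∀ b ∈ S, a * b = b * a) → (∀ a ∈ S, y * a * y⁻¹ ∈ S) → y ^ 7 = 1 →
    (∃ a ∈ S, y * a * y⁻¹ ≠ a) →
    ∀ (Γ : Type w) [Group Γ] (σ : Γ →* G), Function.Surjective σ →
      (∀ z : Γ, σ z = 1 → ∀ x : Γ, x * z = z * x) →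
      ∀ a b : Γ, σ a ∈ S → σ b ∈ S → a * b = b * a

/-- RS-TWOGLUE: in a group of the order of `²G₂(q)`, a self-centralising Sylow 2-subgroup with
normaliser of order 168 has commutative preimage in every central extension. -/
def StTwoGlue : Prop :=
  ∀ (G : Type v) [Group G] [Finite G] (m : ℕ), 1 ≤ m →
    Nat.card G = (3 ^ (2 * m + 1)) ^ 3 * (3 ^ (2 * m + 1) - 1) * ((3 ^ (2 * m + 1)) ^ 3 + 1) →
    ∀ S : Sylow 2 G, Subgroup.centralizer ((S : Subgroup G) : Set G) = S →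
      Nat.card (Subgroup.normalizer ((S : Subgroup G) : Set G)) = 168 →
      ∀ (Γ : Type w) [Group Γ] (σ : Γ →* G), Function.Surjective σ →
        σ.ker ≤ Subgroup.center Γ →
        σ.ker ⊓ ⁅(S : Subgroup G).comap σ, (S : Subgroup G).comap σ⁆ = ⊥

/-- RS-CYC: in a group of the order of `²G₂(q)` with cyclic subgroups of the four torus orders,
every prime `p ≠ 2, 3` has a cyclic subgroup of index prime to `p`. -/
def StCyc : Prop :=
  ∀ (G : Type v) [Group G] [Finite G] (m : ℕ), 1 ≤ m →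
    Nat.card G = (3 ^ (2 * m + 1)) ^ 3 * (3 ^ (2 * m + 1) - 1) * ((3 ^ (2 * m + 1)) ^ 3 + 1) →
    (∀ k ∈ ({(3 ^ (2 * m + 1) - 1) / 2, (3 ^ (2 * m + 1) + 1) / 4,
        3 ^ (2 * m + 1) - 3 ^ (m + 1) + 1, 3 ^ (2 * m + 1) + 3 ^ (m + 1) + 1} : Set ℕ),
      ∃ A : Subgroup G, IsCyclic A ∧ Nat.card A = k) →
    ∀ p : ℕ, p.Prime → p ≠ 2 → p ≠ 3 → ∃ A : Subgroup G, IsCyclic A ∧ ¬ p ∣ A.index

end Cfsg.Agent.H51.Rs
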