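import Mathlib
import Cfsg.Agent.H58.BG10Defs2
import Cfsg.Agent.H58.BG96
import Cfsg.Agent.S1398
import Cfsg.Agent.S0126

set_option autoImplicit false

/-!
BG10 piece E (helper51, for helper58): Bender–Glauberman 10.4, `St1403 G → St1406 G → St1407 G`.
-/

namespace Cfsg.Agent.H51.BG10

open Cfsg Subgroup Cfsg.Agent.H58.BG10

universe u

variable {G : Type u} [Group G]

/-- In a minimal simple group the normalizer of a proper nontrivial subgroup is proper. -/
theorem normalizer_ne_top_of_ne (hG : IsMinSimpleOddOrder G) {K : Subgroup G} (h1 : K ≠ ⊥)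
    (h2 : K ≠ ⊤) : normalizer (K : Set G) ≠ ⊤ := by
  intro h
  haveI := hG.2.1
  have hn : K.Normal := Subgroup.normalizer_eq_top_iff.mp h
  rcases hn.eq_bot_or_eq_top with h' | h'
  exacts [h1 h', h2 h']

/-- A proper overgroup of a uniqueness subgroup of `M` lies in `M`. -/
theorem le_of_inUniqueMaximal [Finite G] {K M N : Subgroup G} (hK : InUniqueMaximal K)
    (hM : IsCoatom M) (hKM : K ≤ M) (hKN : K ≤ N) (hN : N ≠ ⊤) : N ≤ M := by
  obtain ⟨M₀, ⟨-, -⟩, huniq⟩ := hK
  obtain ⟨L, hL, hNL⟩ := (eq_top_or_exists_le_coatom N).resolve_left hN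
  have e1 : L = M₀ := huniq L ⟨hL, hKN.trans hNL⟩
  have e2 : M = M₀ := huniq M ⟨hM, hKM⟩
  rw [e2, ← e1]
  exact hNL

/-- `Ω₁(Z(S))` as a subgroup of the ambient group. -/
def omegaZ (p : ℕ) (S : Subgroup G) : Subgroup G where
  carrier := {z | z ∈ S ∧ (∀ s ∈ S, s * z = z * s) ∧ z ^ p = 1}
  mul_mem' := by
    rintro a b ⟨ha, hac, hap⟩ ⟨hb, hbc, hbp⟩
    refine ⟨S.mul_mem ha hb, fun s hs => ?_, ?_⟩
    · rw [← mul_assoc, hac s hs, mul_assoc, hbc s hs, mul_assoc]
    · have hcomm : Commute a b := (hac b hb).symm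
      rw [hcomm.mul_pow, hap, hbp, one_mul]
  one_mem' := ⟨S.one_mem, fun s _ => by simp, one_pow p⟩
  inv_mem' := by
    rintro a ⟨ha, hac, hap⟩
    refine ⟨S.inv_mem ha, fun s hs => ?_, by rw [inv_pow, hap, inv_one]⟩
    have h := hac s hs
    calc s * a⁻¹ = a⁻¹ * (a * s) * a⁻¹ := by group
      _ = a⁻¹ * (s * a) * a⁻¹ := by rw [h]
      _ = a⁻¹ * s := by group

theorem mem_omegaZ {p : ℕ} {S : Subgroup G} {z : G} :
    z ∈ omegaZ p S ↔ z ∈ S ∧ (∀ s ∈ S, s * z = z * s) ∧ z ^ p = 1 := Iff.rfl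

theorem omegaZ_le (p : ℕ) (S : Subgroup G) : omegaZ p S ≤ S := fun _ hz => hz.1

theorem conj_mem_omegaZ {p : ℕ} {S : Subgroup G} {g : G} (hg : g ∈ normalizer (S : Set G))
    {z : G} (hz : z ∈ omegaZ p S) : g * z * g⁻¹ ∈ omegaZ p S := by
  obtain ⟨hzS, hzc, hzp⟩ := hz
  refine ⟨(Subgroup.mem_normalizer_iff.mp hg z).mp hzS, fun s hs => ?_, ?_⟩
  · have hs' : g⁻¹ * s * g ∈ S := by
      refine (Subgroup.mem_normalizer_iff.mp hg (g⁻¹ * s * g)).mpr ?_
      have e : g * (g⁻¹ * s * g) * g⁻¹ = s := by group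
      rw [e]
      exact hs
    have h := hzc _ hs'
    calc s * (g * z * g⁻¹) = g * (g⁻¹ * s * g * z) * g⁻¹ := by group
      _ = g * (z * (g⁻¹ * s * g)) * g⁻¹ := by rw [h]
      _ = g * z * g⁻¹ * s := by group
  · rw [conj_pow, hzp, mul_one, mul_inv_cancel]

theorem normalizer_le_normalizer_omegaZ (p : ℕ) (S : Subgroup G) :
    normalizer (S : Set G) ≤ normalizer (omegaZ p S : Set G) := by
  intro g hg
  rw [Subgroup.mem_normalizer_iff]
  intro z
  constructor
  · exact conj_mem_omegaZ hg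
  · intro h
    have h2 := conj_mem_omegaZ (p := p) (inv_mem hg) h
    have e : g⁻¹ * (g * z * g⁻¹) * g⁻¹⁻¹ = z := by group
    rw [e] at h2
    exact h2

theorem omegaZ_elementary (p : ℕ) (S : Subgroup G) : IsElementaryAbelian p (omegaZ p S) :=
  ⟨⟨⟨fun a b => Subtype.ext (a.2.2.1 (b : G) b.2.1).symm⟩⟩, fun a ha => ha.2.2⟩

theorem omegaZ_ne_bot [Finite G] {p : ℕ} [Fact p.Prime] {S : Subgroup G} (hS : IsPGroup p S)
    (hS1 : S ≠ ⊥) : omegaZ p S ≠ ⊥ := by
  have hp : p.Prime := Fact.out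
  have hne := Cfsg.Agent.H31.T2.inf_centralizer_ne_bot hS hS1
  have hpg : IsPGroup p ↥(S ⊓ centralizer (S : Set G)) := hS.to_le inf_le_left
  obtain ⟨k, hk⟩ := IsPGroup.iff_card.mp hpg
  have hk0 : k ≠ 0 := by
    rintro rfl
    rw [pow_zero] at hk
    exact hne ((Subgroup.card_eq_one).mp hk)
  have hdvd : p ∣ Nat.card ↥(S ⊓ centralizer (S : Set G)) := by
    rw [hk]
    exact dvd_pow_self p hk0
  obtain ⟨x, hx⟩ := exists_prime_orderOf_dvd_card' p hdvd
  intro hbot
  have hxm : (x : G) ∈ omegaZ p S := by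
    refine ⟨(Subgroup.mem_inf.mp x.2).1, fun s hs => ?_, ?_⟩
    · exact (Subgroup.mem_centralizer_iff.mp (Subgroup.mem_inf.mp x.2).2 s hs)
    · have h1 : x ^ p = 1 := by rw [← hx]; exact pow_orderOf_eq_one x
      have h2 := congrArg Subtype.val h1
      simpa using h2
  rw [hbot, Subgroup.mem_bot] at hxm
  have hx1 : x = 1 := Subtype.ext hxm
  rw [hx1, orderOf_one] at hx
  exact hp.one_lt.ne hx

theorem centralizer_zpowers_eq (x : G) :
    centralizer ((zpowers x : Subgroup G) : Set G) = centralizer ({x} : Set G) := by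
  apply le_antisymm
  · exact Subgroup.centralizer_le (Set.singleton_subset_iff.mpr (Subgroup.mem_zpowers x))
  · intro c hc
    rw [Subgroup.mem_centralizer_iff] at hc ⊢
    intro y hy
    have hxc : x * c = c * x := hc x rfl
    have h2 := Cfsg.Agent.H31.T2.zpowers_le_centralizer_singleton hxc hy
    rw [Subgroup.mem_centralizer_iff] at h2
    exact (h2 c rfl).symm

/-- Bender–Glauberman 10.4. -/
theorem bg104 [Finite G] (hG : IsMinSimpleOddOrder G) (h96 : St1403 G) (h103 : St1406 G) :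
    St1407 G := by
  intro M hM _ p _ hpM hpσ P
  have hp : p.Prime := Fact.out
  have hMtop : M ≠ ⊤ := hM.1
  have hNall : ∀ Q : Sylow p M,
      ¬ normalizer (((Q : Subgroup M).map M.subtype : Subgroup G) : Set G) ≤ M :=
    fun Q h => hpσ ⟨hp, hpM, Q, h⟩
  have hmapM : ∀ Q : Sylow p M, (Q : Subgroup M).map M.subtype ≤ M := by
    rintro Q _ ⟨y, -, rfl⟩
    exact y.2
  -- `p ∉ α(M)`
  have hpα : p ∉ alpha M := by
    rintro ⟨-, hr⟩
    obtain ⟨B, hBM, hBc, hBp, hBcard⟩ := Cfsg.Agent.H31.T2.exists_elementary_of_not_pRankLE hr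
    have hBe : IsElementaryAbelian p B :=
      ⟨⟨⟨fun a b => Subtype.ext (hBc a a.2 b b.2)⟩⟩, hBp⟩
    have hBU : InUniqueMaximal B := by
      apply h96 B (ne_top_of_le_ne_top hMtop hBM)
      · intro h
        refine Cfsg.Agent.H31.BG8.not_pRankLE_of_le (le_refl B) hBe ?_ (h p hp)
        calc p ^ 1 < p ^ 2 := Nat.pow_lt_pow_right hp.one_lt (by norm_num)
          _ < Nat.card B := hBcard
      · left
        intro h
        exact Cfsg.Agent.H31.BG8.not_pRankLE_of_le (le_refl B) hBe hBcard (h p hp)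
    have hBp' : IsPGroup p (B.subgroupOf M) := by
      intro g
      refine ⟨1, ?_⟩
      rw [pow_one]
      apply Subtype.ext
      apply Subtype.ext
      have := hBp ((g : M) : G) (Subgroup.mem_subgroupOf.mp g.2)
      simpa using this
    obtain ⟨Q, hQ⟩ := hBp'.exists_le_sylow
    have hBS' : B ≤ (Q : Subgroup M).map M.subtype := by
      intro b hb
      exact ⟨⟨b, hBM hb⟩, hQ (Subgroup.mem_subgroupOf.mpr hb), rfl⟩
    have hS'M := hmapM Q
    have hS'top : (Q : Subgroup M).map M.subtype ≠ ⊤ := ne_top_of_le_ne_top hMtop hS'M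
    have hB1 : B ≠ ⊥ := by
      rintro rfl
      rw [Subgroup.card_bot] at hBcard
      have := Nat.pos_of_ne_zero (pow_ne_zero 2 hp.ne_zero)
      omega
    have hS'bot : (Q : Subgroup M).map M.subtype ≠ ⊥ := by
      intro h
      apply hB1
      rw [eq_bot_iff, ← h]
      exact hBS'
    have hU' : InUniqueMaximal ((Q : Subgroup M).map M.subtype) :=
      Cfsg.Agent.H58.BG96.inUniqueMaximal_of_le hBS' hS'top hBU
    exact hNall Q (le_of_inUniqueMaximal hU' hM hS'M le_normalizer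
      (normalizer_ne_top_of_ne hG hS'bot hS'top))
  -- the Sylow subgroup `S` and `Z = Ω₁(Z(S))`
  set S : Subgroup G := (P : Subgroup M).map M.subtype with hS
  have hSM : S ≤ M := hmapM P
  have hSp : IsPGroup p S := P.isPGroup'.map _
  have hS1 : S ≠ ⊥ := by
    intro h
    have hcard : Nat.card S = Nat.card (P : Subgroup M) :=
      Subgroup.card_map_of_injective M.subtype_injective
    have hdvd : p ∣ Nat.card (P : Subgroup M) := P.dvd_card_of_dvd_card hpM
    rw [← hcard, h, Subgroup.card_bot] at hdvd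
    exact hp.one_lt.ne' (Nat.dvd_one.mp hdvd)
  have hNS : ¬ normalizer (S : Set G) ≤ M := hNall P
  set Z : Subgroup G := omegaZ p S with hZ
  have hZS : Z ≤ S := omegaZ_le p S
  have hZM : Z ≤ M := hZS.trans hSM
  have hZ1 : Z ≠ ⊥ := omegaZ_ne_bot hSp hS1
  have hZtop : Z ≠ ⊤ := ne_top_of_le_ne_top hMtop hZM
  have hZe : IsElementaryAbelian p Z := omegaZ_elementary p S
  have hNZ : ¬ normalizer (Z : Set G) ≤ M :=
    fun h => hNS ((normalizer_le_normalizer_omegaZ p S).trans h)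
  have hNZtop : normalizer (Z : Set G) ≠ ⊤ := normalizer_ne_top_of_ne hG hZ1 hZtop
  -- some non-identity element of `Z` is not "bad"
  have hclaim : ∃ x ∈ Z, x ≠ 1 ∧ ¬ (centralizer ({x} : Set G) ≤ M ∧
      ∀ L : Subgroup G, IsCoatom L → centralizer ({x} : Set G) ≤ L → L = M) := by
    by_contra hcon
    push Not at hcon
    by_cases hcyc : IsCyclic Z
    · obtain ⟨g, hg⟩ := IsCyclic.exists_generator (α := Z)
      have hpow : ∀ z ∈ Z, ∃ k : ℤ, (g : G) ^ k = z := by
        intro z hz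
        obtain ⟨k, hk⟩ := Subgroup.mem_zpowers_iff.mp (hg ⟨z, hz⟩)
        refine ⟨k, ?_⟩
        have := congrArg Subtype.val hk
        simpa using this
      have hg1 : (g : G) ≠ 1 := by
        intro h
        apply hZ1
        rw [Subgroup.eq_bot_iff_forall]
        intro z hz
        obtain ⟨k, hk⟩ := hpow z hz
        rw [h, one_zpow] at hk
        exact hk.symm
      have hbad := hcon (g : G) g.2 hg1
      have hCZ : centralizer ({(g : G)} : Set G) ≤ centralizer (Z : Set G) := by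
        intro c hc
        rw [Subgroup.mem_centralizer_iff] at hc ⊢
        intro z hz
        obtain ⟨k, hk⟩ := hpow z hz
        have hgc : (g : G) * c = c * (g : G) := hc (g : G) rfl
        have hcomm : Commute ((g : G) ^ k) c := Commute.zpow_left hgc k
        rw [← hk]
        exact hcomm.eq
      have hCN : centralizer ({(g : G)} : Set G) ≤ normalizer (Z : Set G) :=
        hCZ.trans (Subgroup.centralizer_le_normalizer _)
      obtain ⟨L, hL, hNL⟩ := (eq_top_or_exists_le_coatom _).resolve_left hNZtop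
      have hLM : L = M := hbad.2 L hL (hCN.trans hNL)
      exact hNZ (hLM ▸ hNL)
    · have hU : InUniqueMaximal Z :=
        Cfsg.Agent.S1398.result hG M hM p Z hZM hZe hcyc
          (Or.inl (fun b hb hb1 => (hcon b hb hb1).1))
      exact hNZ (le_of_inUniqueMaximal hU hM hZM le_normalizer hNZtop)
  obtain ⟨x, hxZ, hx1, hxbad⟩ := hclaim
  have hxM : x ∈ M := hZM hxZ
  have hxord : orderOf x = p := orderOf_eq_prime hxZ.2.2 hx1
  refine ⟨x, ?_, hxord, ?_, hxbad⟩
  · obtain ⟨m, hm, hmx⟩ := hxZ.1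
    refine ⟨m, ⟨⟨m, hm⟩, ?_, rfl⟩, hmx⟩
    rw [SetLike.mem_coe, Subgroup.mem_center_iff]
    intro y
    apply Subtype.ext
    apply Subtype.ext
    have h := hxZ.2.1 (((y : M) : G)) ⟨(y : M), y.2, rfl⟩
    rw [← hmx] at h
    exact h
  · by_contra hZG
    rw [isZGroup_iff] at hZG
    push Not at hZG
    obtain ⟨q, hq, Q, hQnc⟩ := hZG
    haveI : Fact q.Prime := ⟨hq⟩
    -- `q` is odd
    have hq2 : q ≠ 2 := by
      apply Cfsg.Agent.H31.BG9.ne_two_of_dvd hG
      obtain ⟨k, hk⟩ := IsPGroup.iff_card.mp Q.isPGroup'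
      have hk0 : k ≠ 0 := by
        rintro rfl
        rw [pow_zero] at hk
        apply hQnc
        have : Subsingleton ↥(Q : Subgroup ↥(alphaCore M ⊓ centralizer ({x} : Set G))) :=
          (Nat.card_eq_one_iff_unique.mp hk).1
        exact isCyclic_of_subsingleton
      have h1 : q ∣ Nat.card ↥(Q : Subgroup ↥(alphaCore M ⊓ centralizer ({x} : Set G))) := by
        rw [hk]
        exact dvd_pow_self q hk0
      have h2 : Nat.card ↥(Q : Subgroup ↥(alphaCore M ⊓ centralizer ({x} : Set G))) ∣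
          Nat.card ↥(alphaCore M ⊓ centralizer ({x} : Set G)) := Subgroup.card_subgroup_dvd_card _
      have h3 : Nat.card ↥(alphaCore M ⊓ centralizer ({x} : Set G)) ∣ Nat.card G :=
        Subgroup.card_subgroup_dvd_card _
      exact h1.trans (h2.trans h3)
    obtain ⟨A, -, hAe, hAcard⟩ := Cfsg.Agent.S0126.result (R := ↥(Q : Subgroup
      ↥(alphaCore M ⊓ centralizer ({x} : Set G)))) hq2 Q.isPGroup' hQnc
    have hnr : ¬ RankLE 1 ↥(alphaCore M ⊓ centralizer ({x} : Set G)) := by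
      intro h
      have hAe' := Cfsg.Agent.H31.BG9.isElementaryAbelian_map
        (Q : Subgroup ↥(alphaCore M ⊓ centralizer ({x} : Set G))).subtype hAe
      have hle := h q hq _ hAe'.1 hAe'.2
      rw [Subgroup.card_map_of_injective (Subgroup.subtype_injective _), hAcard] at hle
      have : q ^ 1 < q ^ 2 := Nat.pow_lt_pow_right hq.one_lt (by norm_num)
      omega
    -- apply 10.3 to `X = ⟨x⟩`
    have hXM : zpowers x ≤ M := (Subgroup.zpowers_le).mpr hxM
    have hXα : ∀ r : ℕ, r.Prime → r ∣ Nat.card (zpowers x) → r ∉ alpha M := by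
      intro r hr hdvd
      rw [Nat.card_zpowers, hxord] at hdvd
      rw [(Nat.prime_dvd_prime_iff_eq hr hp).mp hdvd]
      exact hpα
    have h3 := h103 M hM (zpowers x) hXM hXα
    rw [centralizer_zpowers_eq x] at h3
    have hU := h3 hnr
    have hCtop : centralizer ({x} : Set G) ≠ ⊤ :=
      Cfsg.Agent.H31.T2.minSimple_centralizer_singleton_ne_top hG hx1
    apply hxbad
    refine ⟨le_of_inUniqueMaximal hU hM inf_le_left inf_le_right hCtop, ?_⟩
    intro L hL hCL
    obtain ⟨M₀, ⟨-, -⟩, huniq⟩ := hU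
    have e1 : L = M₀ := huniq L ⟨hL, inf_le_right.trans hCL⟩
    have e2 : M = M₀ := huniq M ⟨hM, inf_le_left⟩
    rw [e1, e2]

example [Finite G] (hG : IsMinSimpleOddOrder G) (h96 : St1403 G) (h103 : St1406 G) : St1407 G :=
  bg104 hG h96 h103

end Cfsg.Agent.H51.BG10
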