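import Mathlib
import Cfsg.Agent.H63.BG11Defs
import Cfsg.Agent.H51.BG10E

set_option autoImplicit false

/-!
BG11 piece R (helper51, for helper63): Bender–Glauberman 11.3 — under Hypothesis 11.1 some
subgroup `A₁ ≤ A` of order `p` acts fixed-point-freely on `M_σ`.
-/

namespace Cfsg.Agent.H51.BG11

open Cfsg Subgroup Cfsg.Agent.H58.BG10 Cfsg.Agent.H63.BG11 Cfsg.Agent.H51.BG10

universe u

variable {G : Type u} [Group G]

/-- Normalizers grow in finite `p`-groups. -/
theorem exists_normalizing_not_mem {p : ℕ} [Fact p.Prime] [Finite G] {S D : Subgroup G}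
    (hS : IsPGroup p S) (hDS : D < S) : ∃ x ∈ S, x ∈ normalizer (D : Set G) ∧ x ∉ D := by
  have hnil : Group.IsNilpotent S := hS.isNilpotent
  have hnc : NormalizerCondition S := Group.normalizerCondition_of_isNilpotent
  have hlt : D.subgroupOf S < ⊤ := by
    rw [lt_top_iff_ne_top]
    intro h
    rw [Subgroup.subgroupOf_eq_top] at h
    exact hDS.not_ge h
  have h1 := hnc _ hlt
  obtain ⟨x, hx1, hx2⟩ := SetLike.exists_of_lt h1
  refine ⟨x, x.2, ?_, fun h => hx2 (mem_subgroupOf.mpr h)⟩
  rw [← Subgroup.subgroupOf_normalizer_eq hDS.le] at hx1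
  exact mem_subgroupOf.mp hx1

/-- Conjugation by an element of the normalizer fixes the subgroup. -/
theorem map_conj_eq_of_mem_normalizer {K : Subgroup G} {g : G}
    (hg : g ∈ normalizer (K : Set G)) : K.map (MulAut.conj g).toMonoidHom = K := by
  ext x
  constructor
  · rintro ⟨y, hy, rfl⟩
    exact (Subgroup.mem_normalizer_iff.mp hg y).mp hy
  · intro hx
    refine ⟨g⁻¹ * x * g, ?_, ?_⟩
    · refine (Subgroup.mem_normalizer_iff.mp hg (g⁻¹ * x * g)).mpr ?_
      have e : g * (g⁻¹ * x * g) * g⁻¹ = x := by group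
      rw [e]
      exact hx
    · change g * (g⁻¹ * x * g) * g⁻¹ = x
      group

/-- Bender–Glauberman 11.3. -/
theorem excFree [Finite G] (hG : IsMinSimpleOddOrder G) (hF : StExcFacts G) (hT : StExcTI G)
    (hX : StExcFix G) : StExcFree G := by
  intro M A A₀ p _ hE
  have hp : p.Prime := Fact.out
  have hFacts := hF M A A₀ p hE
  have hA1 : A ≠ ⊥ := by
    intro h
    have hc := hE.card
    rw [h, Subgroup.card_bot] at hc
    have : 1 < p ^ 2 := Nat.one_lt_pow (by norm_num) hp.one_lt
    omega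
  -- a Sylow `p`-subgroup `P` of `M` containing `A`
  have hAp : IsPGroup p (A.subgroupOf M) := by
    intro x
    refine ⟨1, ?_⟩
    rw [pow_one]
    apply Subtype.ext
    apply Subtype.ext
    have := hE.elem.2 ((x : M) : G) (Subgroup.mem_subgroupOf.mp x.2)
    simpa using this
  obtain ⟨P, hP⟩ := hAp.exists_le_sylow
  set P' : Subgroup G := (P : Subgroup M).map M.subtype with hP'
  have hAP : A ≤ P' := by
    intro a ha
    exact ⟨⟨a, hE.le ha⟩, hP (Subgroup.mem_subgroupOf.mpr ha), rfl⟩
  have hP'M : P' ≤ M := by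
    rintro _ ⟨y, -, rfl⟩
    exact y.2
  have hP'p : IsPGroup p P' := P.isPGroup'.map _
  -- a Sylow `p`-subgroup `S` of `G` containing `P'`
  obtain ⟨S, hS⟩ := hP'p.exists_le_sylow
  have hSp : IsPGroup p (S : Subgroup G) := S.isPGroup'
  have hAS : A ≤ (S : Subgroup G) := hAP.trans hS
  have hS1 : (S : Subgroup G) ≠ ⊥ := by
    intro h
    apply hA1
    rw [eq_bot_iff, ← h]
    exact hAS
  set Z : Subgroup G := omegaZ p (S : Subgroup G) with hZ
  have hZ1 : Z ≠ ⊥ := omegaZ_ne_bot hSp hS1
  have hZA : Z ≤ A := by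
    intro z hz
    have hzc : z ∈ centralizer (A : Set G) := by
      rw [Subgroup.mem_centralizer_iff]
      intro a ha
      exact hz.2.1 a (hAS ha)
    exact (hFacts.omega z hzc).mp hz.2.2
  have hpM : p ∣ Nat.card M := by
    have h1 : Nat.card A ∣ Nat.card M := Subgroup.card_dvd_of_le hE.le
    rw [hE.card] at h1
    exact (dvd_pow_self p (by norm_num)).trans h1
  -- the element `g`
  have hg : ∃ g : G, g ∉ M ∧ g ∈ normalizer ((S : Subgroup G) : Set G) ∧
      g ∈ normalizer (P' : Set G) ∧ (P' ≠ (S : Subgroup G) → g ∈ (S : Subgroup G)) := by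
    by_cases hPS : P' = (S : Subgroup G)
    · have hN : ¬ normalizer (P' : Set G) ≤ M := fun h => hE.nsig ⟨hp, hpM, P, h⟩
      obtain ⟨g, hgN, hgM⟩ := Set.not_subset.mp hN
      exact ⟨g, hgM, hPS ▸ hgN, hgN, fun h => absurd hPS h⟩
    · have hlt : P' < (S : Subgroup G) := lt_of_le_of_ne hS hPS
      obtain ⟨g, hgS, hgN, hgP⟩ := exists_normalizing_not_mem hSp hlt
      refine ⟨g, ?_, le_normalizer hgS, hgN, fun _ => hgS⟩
      intro hgM
      -- `(S ⊓ M).subgroupOf M` is a `p`-subgroup of `M` containing `P`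
      have hQp : IsPGroup p (((S : Subgroup G) ⊓ M).subgroupOf M) := by
        have h1 : IsPGroup p ↥((S : Subgroup G) ⊓ M) := hSp.to_le inf_le_left
        exact h1.comap_of_injective _ (Subgroup.subtype_injective M)
      have hPQ : (P : Subgroup M) ≤ ((S : Subgroup G) ⊓ M).subgroupOf M := by
        intro x hx
        rw [Subgroup.mem_subgroupOf]
        exact ⟨hS ⟨x, hx, rfl⟩, x.2⟩
      have hQ := P.3 hQp hPQ
      have hgQ : (⟨g, hgM⟩ : M) ∈ ((S : Subgroup G) ⊓ M).subgroupOf M := by
        rw [Subgroup.mem_subgroupOf]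
        exact ⟨hgS, hgM⟩
      rw [hQ] at hgQ
      exact hgP ⟨⟨g, hgM⟩, hgQ, rfl⟩
  obtain ⟨g, hgM, hgS, hgP, hgS'⟩ := hg
  have hPconj : P'.map (MulAut.conj g).toMonoidHom = P' := map_conj_eq_of_mem_normalizer hgP
  have hAgM : A ≤ M.map (MulAut.conj g).toMonoidHom := by
    calc A ≤ P' := hAP
      _ = P'.map (MulAut.conj g).toMonoidHom := hPconj.symm
      _ ≤ M.map (MulAut.conj g).toMonoidHom := Subgroup.map_mono hP'M
  have hZconj : Z.map (MulAut.conj g).toMonoidHom = Z :=
    map_conj_eq_of_mem_normalizer (normalizer_le_normalizer_omegaZ p (S : Subgroup G) hgS)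
  by_cases hZp : Nat.card Z = p
  · exact ⟨Z, hZA, hZp, hX M A A₀ p hE g hgM hAgM Z hZA hZp hZconj⟩
  · -- `Z = A`
    have hZA' : Z = A := by
      have hdvd : Nat.card Z ∣ p ^ 2 := hE.card ▸ Subgroup.card_dvd_of_le hZA
      obtain ⟨k, hk, hkc⟩ := (Nat.dvd_prime_pow hp).mp hdvd
      have hk2 : k = 2 := by
        interval_cases k
        · rw [pow_zero] at hkc
          exact absurd (Subgroup.card_eq_one.mp hkc) hZ1
        · rw [pow_one] at hkc
          exact absurd hkc hZp
        · rfl
      rw [hk2] at hkc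
      exact Subgroup.eq_of_le_of_card_ge hZA (by rw [hkc, hE.card])
    by_cases hPS : P' = (S : Subgroup G)
    · -- `A₁ := g A₀ g⁻¹`
      refine ⟨A₀.map (MulAut.conj g).toMonoidHom, ?_, ?_, ?_⟩
      · calc A₀.map (MulAut.conj g).toMonoidHom ≤ A.map (MulAut.conj g).toMonoidHom :=
              Subgroup.map_mono hE.le₀
          _ = A := by rw [← hZA', hZconj]
      · rw [Subgroup.card_map_of_injective (MulAut.conj g).injective]
        exact hE.card₀
      · have hcent : centralizer ((A₀.map (MulAut.conj g).toMonoidHom : Subgroup G) : Set G)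
            ≤ M.map (MulAut.conj g).toMonoidHom := by
          intro x hx
          rw [Subgroup.mem_centralizer_iff] at hx
          have hx' : g⁻¹ * x * g ∈ centralizer (A₀ : Set G) := by
            rw [Subgroup.mem_centralizer_iff]
            intro a ha
            have h1 := hx (g * a * g⁻¹) ⟨a, ha, rfl⟩
            calc a * (g⁻¹ * x * g) = g⁻¹ * ((g * a * g⁻¹) * x) * g := by group
              _ = g⁻¹ * (x * (g * a * g⁻¹)) * g := by rw [h1]
              _ = g⁻¹ * x * g * a := by group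
          have hxM : g⁻¹ * x * g ∈ M :=
            hE.norm (Subgroup.centralizer_le_normalizer (A₀ : Set G) hx')
          refine ⟨g⁻¹ * x * g, hxM, ?_⟩
          change g * (g⁻¹ * x * g) * g⁻¹ = x
          group
        rw [eq_bot_iff, ← hT M A A₀ p hE g hgM hAgM]
        exact inf_le_inf_left _ hcent
    · -- `g ∈ S` centralizes `A = Z`, `A₁ := A₀`
      have hgS2 : g ∈ (S : Subgroup G) := hgS' hPS
      have hA₀conj : A₀.map (MulAut.conj g).toMonoidHom = A₀ := by
        have hfix : ∀ a ∈ A₀, g * a * g⁻¹ = a := by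
          intro a ha
          have haZ : a ∈ Z := hZA' ▸ hE.le₀ ha
          have h1 := haZ.2.1 g hgS2
          rw [h1, mul_inv_cancel_right]
        ext x
        constructor
        · rintro ⟨y, hy, rfl⟩
          change g * y * g⁻¹ ∈ A₀
          rw [hfix y hy]
          exact hy
        · intro hx
          exact ⟨x, hx, hfix x hx⟩
      exact ⟨A₀, hE.le₀, hE.card₀, hX M A A₀ p hE g hgM hAgM A₀ hE.le₀ hE.card₀ hA₀conj⟩

end Cfsg.Agent.H51.BG11
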