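import Mathlib
import Cfsg.Agent.H17.MnDefs
import Cfsg.Agent.H17.MnTv

set_option autoImplicit false

/-!
S5634 piece RT1: a subgroup `M` containing the decomposition stabiliser (intersected with `SL`)
and one "mixed" transvection with centre in `D i` whose form does not vanish on `D j` contains
the whole root group `(i, j)`.
-/

namespace Cfsg.Agent.H51.Mn

open Cfsg Cfsg.Geo Cfsg.Agent.H17.Mn
open scoped MatrixGroups Matrix

variable {ι : Type} [Fintype ι] [DecidableEq ι] {F : Type*} [Field F]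
variable {t m : ℕ} (D : Fin t → Submodule F (ι → F))

lemma tvGL_congr {x x' : ι → F} {χ χ' : (ι → F) →ₗ[F] F} (hx : x = x') (hχ : χ = χ')
    (h : χ x = 0) (h' : χ' x' = 0) : H95.tvGL x χ h = H95.tvGL x' χ' h' := by
  subst hx; subst hχ; rfl

/-- A functional supported on `D j`, vanishing at `a` and equal to one at `b`. -/
lemma exists_suppOn_zero_one (hI : DirectSum.IsInternal D) (j : Fin t) (a b : ι → F)
    (ha : a ∈ D j) (hb : b ∈ D j) (hab : b ∉ Submodule.span F {a}) :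
    ∃ χ : (ι → F) →ₗ[F] F, SuppOn D j χ ∧ χ a = 0 ∧ χ b = 1 := by
  obtain ⟨f, hf, hker⟩ := Submodule.exists_le_ker_of_notMem hab
  have hfa : f a = 0 := by
    have : a ∈ LinearMap.ker f := hker (Submodule.mem_span_singleton_self a)
    exact LinearMap.mem_ker.1 this
  refine ⟨((f b)⁻¹ • f) ∘ₗ H95.comp hI j, ?_, ?_, ?_⟩
  · intro l hl w hw
    rw [LinearMap.comp_apply, H95.comp_of_mem_ne hI hw hl, map_zero]
  · rw [LinearMap.comp_apply, H95.comp_of_mem hI ha]
    simp [hfa]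
  · rw [LinearMap.comp_apply, H95.comp_of_mem hI hb]
    simp [hf]

/-- A block of dimension at least two is not contained in a line. -/
lemma exists_notMem_span (hD : IsMDecomposition m D) (hm : 2 ≤ m) (j : Fin t) (a : ι → F) :
    ∃ b ∈ D j, b ∉ Submodule.span F {a} := by
  by_contra hcon
  push_neg at hcon
  have hle : D j ≤ Submodule.span F {a} := hcon
  have h1 := Submodule.finrank_mono hle
  have h2 : Module.finrank F (Submodule.span F {a}) ≤ 1 := by
    have := finrank_span_le_card (R := F) ({a} : Set (ι → F))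
    simpa using this
  have := hD.finrank_eq j
  omega

/-- If `b ∉ F a` and `b ≠ 0`... symmetric non-membership. -/
lemma notMem_span_symm {a b : ι → F} (ha : a ≠ 0) (hab : b ∉ Submodule.span F {a}) :
    a ∉ Submodule.span F {b} := by
  intro h
  obtain ⟨c, hc⟩ := Submodule.mem_span_singleton.1 h
  have hc0 : c ≠ 0 := by
    rintro rfl
    rw [zero_smul] at hc
    exact ha hc.symm
  apply hab
  rw [Submodule.mem_span_singleton]
  refine ⟨c⁻¹, ?_⟩
  rw [← hc, smul_smul, inv_mul_cancel₀ hc0, one_smul]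

theorem hasRoot_of_mixed (hD : IsMDecomposition m D) (hm : 2 ≤ m) (M : Subgroup (GL ι F))
    (hM : decompositionStabilizer D ⊓ specialLinear ι F ≤ M) (i j : Fin t) (hij : j ≠ i)
    (x : ι → F) (hx : x ∈ D i) (hx0 : x ≠ 0) (ψ : (ι → F) →ₗ[F] F) (h : ψ x = 0)
    (hmem : H95.tvGL x ψ h ∈ M) (v : ι → F) (hv : v ∈ D j) (hψv : ψ v ≠ 0) :
    HasRoot D M i j := by
  classical
  have hI : DirectSum.IsInternal D :=
    DirectSum.isInternal_submodule_of_iSupIndep_of_iSup_eq_top hD.indep hD.iSup_eq_top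
  have hv0 : v ≠ 0 := by
    rintro rfl
    exact hψv (map_zero ψ)
  -- step (a)
  obtain ⟨u, hu, huv⟩ := exists_notMem_span D hD hm j v
  obtain ⟨χ₀, hχ₀, hχ₀v, hχ₀u⟩ := exists_suppOn_zero_one D hI j v u hv hu huv
  have hvu : v ∉ Submodule.span F {u} := by
    have hu0 : u ≠ 0 := by
      rintro rfl
      exact huv (Submodule.zero_mem _)
    intro hmemv
    obtain ⟨c, hc⟩ := Submodule.mem_span_singleton.1 hmemv
    have hc0 : c ≠ 0 := by
      rintro rfl
      rw [zero_smul] at hc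
      exact hv0 hc.symm
    apply huv
    rw [Submodule.mem_span_singleton]
    refine ⟨c⁻¹, ?_⟩
    rw [← hc, smul_smul, inv_mul_cancel₀ hc0, one_smul]
  have hχ₀i : ∀ z ∈ D i, χ₀ z = 0 := fun z hz => hχ₀ i (Ne.symm hij) z hz
  set x₁ : ι → F := ψ v • x with hx₁
  have hx₁D : x₁ ∈ D i := (D i).smul_mem _ hx
  have hx₁0 : x₁ ≠ 0 := smul_ne_zero hψv hx0
  have hA : H95.tvGL x₁ χ₀ (hχ₀i x₁ hx₁D) ∈ M := by
    have e := comm_tvGL x v ψ χ₀ h hχ₀v (hχ₀i x hx) (hχ₀i x₁ hx₁D)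
    rw [← e]
    have h2 : H95.tvGL v χ₀ hχ₀v ∈ M := hM (blockTv_mem D hD j v hv χ₀ hχ₀ hχ₀v)
    exact M.mul_mem (M.mul_mem (M.mul_mem hmem h2) (M.inv_mem hmem)) (M.inv_mem h2)
  -- step (b)
  have hB0 : ∀ z (hz : z ∈ D i), z ∉ Submodule.span F {x₁} →
      H95.tvGL z χ₀ (hχ₀i z hz) ∈ M := by
    intro z hz hzx
    have hx₁z : x₁ ∉ Submodule.span F {z} := by
      intro hmemx
      obtain ⟨c, hc⟩ := Submodule.mem_span_singleton.1 hmemx
      have hc0 : c ≠ 0 := by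
        rintro rfl
        rw [zero_smul] at hc
        exact hx₁0 hc.symm
      apply hzx
      rw [Submodule.mem_span_singleton]
      refine ⟨c⁻¹, ?_⟩
      rw [← hc, smul_smul, inv_mul_cancel₀ hc0, one_smul]
    obtain ⟨φ, hφ, hφz, hφx⟩ := exists_suppOn_zero_one D hI i z x₁ hz hx₁D hx₁z
    have h' : χ₀ (φ x₁ • z) = 0 := hχ₀i _ ((D i).smul_mem _ hz)
    have e := comm_tvGL z x₁ φ χ₀ hφz (hχ₀i x₁ hx₁D) (hχ₀i z hz) h'
    have e2 : H95.tvGL (φ x₁ • z) χ₀ h' = H95.tvGL z χ₀ (hχ₀i z hz) :=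
      tvGL_congr (by rw [hφx, one_smul]) rfl _ _
    rw [← e2, ← e]
    have h2 : H95.tvGL z φ hφz ∈ M := hM (blockTv_mem D hD i z hz φ hφ hφz)
    exact M.mul_mem (M.mul_mem (M.mul_mem h2 hA) (M.inv_mem h2)) (M.inv_mem hA)
  have hB : ∀ z (hz : z ∈ D i), H95.tvGL z χ₀ (hχ₀i z hz) ∈ M := by
    intro z hz
    by_cases hzx : z ∈ Submodule.span F {x₁}
    · obtain ⟨w, hw, hwx⟩ := exists_notMem_span D hD hm i x₁
      have hzw : z - w ∈ D i := (D i).sub_mem hz hw
      have hzwx : z - w ∉ Submodule.span F {x₁} := by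
        intro hh
        apply hwx
        have : w = z - (z - w) := by abel
        rw [this]
        exact Submodule.sub_mem _ hzx hh
      have e := tvGL_mul_centre (z - w) w χ₀ (hχ₀i _ hzw) (hχ₀i _ hw)
        (hχ₀i _ ((D i).add_mem hzw hw))
      have e2 : H95.tvGL (z - w + w) χ₀ (hχ₀i _ ((D i).add_mem hzw hw)) =
          H95.tvGL z χ₀ (hχ₀i z hz) := tvGL_congr (by abel) rfl _ _
      rw [← e2, ← e]
      exact M.mul_mem (hB0 _ hzw hzwx) (hB0 _ hw hwx)
    · exact hB0 z hz hzx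
  -- step (c): "good" forms
  have hC : ∀ θ : (ι → F) →ₗ[F] F, SuppOn D j θ → (∃ w ∈ D j, θ w = 0 ∧ χ₀ w ≠ 0) →
      ∀ z (hz : z ∈ D i) (hθz : θ z = 0), H95.tvGL z θ hθz ∈ M := by
    intro θ hθ ⟨w, hw, hθw, hχw⟩ z hz hθz
    have hθi : ∀ z ∈ D i, θ z = 0 := fun z hz => hθ i (Ne.symm hij) z hz
    set z'' : ι → F := (χ₀ w)⁻¹ • z with hz''
    have hz''D : z'' ∈ D i := (D i).smul_mem _ hz
    have h' : θ (χ₀ w • z'') = 0 := hθi _ ((D i).smul_mem _ hz''D)
    have e := comm_tvGL' w z'' θ χ₀ hθw (hχ₀i _ hz''D) (hθi _ hz''D) h'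
    have e2 : H95.tvGL (χ₀ w • z'') θ h' = H95.tvGL z θ hθz :=
      tvGL_congr (by rw [hz'', smul_smul, mul_inv_cancel₀ hχw, one_smul]) rfl _ _
    rw [← e2, ← e]
    have h1 : H95.tvGL z'' χ₀ (hχ₀i _ hz''D) ∈ M := hB z'' hz''D
    have h2 : H95.tvGL w θ hθw ∈ M := hM (blockTv_mem D hD j w hw θ hθ hθw)
    exact M.mul_mem (M.mul_mem (M.mul_mem h1 h2) (M.inv_mem h1)) (M.inv_mem h2)
  -- conclusion
  intro z hz θ hθ hθz
  by_cases hθu : θ u = 0
  · exact hC θ hθ ⟨u, hu, hθu, by rw [hχ₀u]; exact one_ne_zero⟩ z hz hθz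
  · obtain ⟨η, hη, hηu, hηv⟩ := exists_suppOn_zero_one D hI j u v hu hv hvu
    set η' : (ι → F) →ₗ[F] F := (θ v + 1) • η with hη'
    have hη'S : SuppOn D j η' := by
      intro l hl w hw
      rw [hη', LinearMap.smul_apply, hη l hl w hw, smul_zero]
    have hη'z : η' z = 0 := hη'S i (Ne.symm hij) z hz
    have hdS : SuppOn D j (θ - η') := by
      intro l hl w hw
      rw [LinearMap.sub_apply, hθ l hl w hw, hη'S l hl w hw, sub_zero]
    have hdz : (θ - η') z = 0 := hdS i (Ne.symm hij) z hz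
    have g1 : H95.tvGL z η' hη'z ∈ M := by
      refine hC η' hη'S ⟨u, hu, ?_, by rw [hχ₀u]; exact one_ne_zero⟩ z hz hη'z
      rw [hη', LinearMap.smul_apply, hηu, smul_zero]
    have g2 : H95.tvGL z (θ - η') hdz ∈ M := by
      refine hC (θ - η') hdS ⟨v + (θ u)⁻¹ • u, (D j).add_mem hv ((D j).smul_mem _ hu), ?_, ?_⟩
        z hz hdz
      · rw [LinearMap.sub_apply, hη', LinearMap.smul_apply, map_add, map_add, map_smul, map_smul,
          hηu, hηv, smul_eq_mul, smul_eq_mul, smul_eq_mul, inv_mul_cancel₀ hθu]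
        ring
      · rw [map_add, map_smul, hχ₀v, hχ₀u, smul_eq_mul, mul_one, zero_add]
        exact inv_ne_zero hθu
    have hsum : (θ - η' + η') z = 0 := by
      rw [sub_add_cancel]; exact hθz
    have e := tvGL_mul_form z (θ - η') η' hdz hη'z hsum
    have e2 : H95.tvGL z (θ - η' + η') hsum = H95.tvGL z θ hθz :=
      tvGL_congr rfl (sub_add_cancel θ η') _ _
    rw [← e2, ← e]
    exact M.mul_mem g2 g1

example (hD : IsMDecomposition m D) (hm : 2 ≤ m) (M : Subgroup (GL ι F)) (hM : decompositionStabilizer D ⊓ specialLinear ι F ≤ M) (i j : Fin t) (hij : j ≠ i) (x : ι → F) (hx : x ∈ D i) (hx0 : x ≠ 0) (ψ : (ι → F) →ₗ[F] F) (h : ψ x = 0) (hmem : H95.tvGL x ψ h ∈ M) (v : ι → F) (hv : v ∈ D j) (hψv : ψ v ≠ 0) : HasRoot D M i j :=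
  hasRoot_of_mixed D hD hm M hM i j hij x hx hx0 ψ h hmem v hv hψv

end Cfsg.Agent.H51.Mn
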