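import Cfsg.Agent.H68.StDefs

set_option autoImplicit false

/-!
# S2311, piece WA (helper51 for helper68): distinguished double coset representatives
-/

namespace Cfsg.Agent.H51.St

open Cfsg Cfsg.H8Exch Cfsg.Agent.H68.St

variable {W : Type*} [Group W] {ι : Type*}

/-- the exchange-system hypotheses, bundled. -/
structure ES (f : ι → W) (Ps : ι → Set W) : Prop where
  hf2 : ∀ i, f i * f i = 1
  hgen : Subgroup.closure (Set.range f) = ⊤
  hA : ∀ i, (1 : W) ∈ Ps i
  hB : ∀ i w, w ∈ Ps i → f i * w ∉ Ps i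
  hC : ∀ i j w, w ∈ Ps i → w * f j ∉ Ps i → f i * w = w * f j

namespace ES

variable {f : ι → W} {Ps : ι → Set W}

theorem len_inv_le (E : ES f Ps) (w : W) : len f w⁻¹ ≤ len f w := by
  obtain ⟨l, h1, h2⟩ := exists_reduced f E.hf2 E.hgen w
  have := len_le f l.reverse
  rw [wprod_reverse f E.hf2, h2, List.length_reverse, h1] at this
  exact this

theorem len_inv (E : ES f Ps) (w : W) : len f w⁻¹ = len f w := by
  have h1 := E.len_inv_le w
  have h2 := E.len_inv_le w⁻¹
  rw [inv_inv] at h2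
  omega

theorem lenL (E : ES f Ps) (i : ι) (w : W) : len f (f i * w) ≤ len f w + 1 :=
  len_mul_le f E.hf2 E.hgen i w

theorem lenL' (E : ES f Ps) (i : ι) (w : W) : len f w ≤ len f (f i * w) + 1 :=
  len_le_mul f E.hf2 E.hgen i w

theorem lenL_ne (E : ES f Ps) (i : ι) (w : W) : len f (f i * w) ≠ len f w :=
  len_mul_ne f E.hf2 E.hgen Ps E.hA E.hB E.hC i w

theorem lenR (E : ES f Ps) (i : ι) (w : W) : len f (w * f i) ≤ len f w + 1 :=
  len_mul_right_le f E.hf2 E.hgen i w

theorem lenR' (E : ES f Ps) (i : ι) (w : W) : len f w ≤ len f (w * f i) + 1 :=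
  len_le_mul_right f E.hf2 E.hgen i w

theorem lenR_ne (E : ES f Ps) (i : ι) (w : W) : len f (w * f i) ≠ len f w := by
  have h1 : (w * f i)⁻¹ = f i * w⁻¹ := by rw [mul_inv_rev, inv_gen f E.hf2]
  have h2 := E.lenL_ne i w⁻¹
  rw [← h1, E.len_inv, E.len_inv] at h2
  exact h2

theorem len_mul_le_add (E : ES f Ps) (a b : W) : len f (a * b) ≤ len f a + len f b := by
  obtain ⟨la, h1, h2⟩ := exists_reduced f E.hf2 E.hgen a
  obtain ⟨lb, h3, h4⟩ := exists_reduced f E.hf2 E.hgen b
  have := len_le f (la ++ lb)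
  rw [wprod_append, h2, h4, List.length_append, h1, h3] at this
  exact this

theorem mem_gen (Y : Set ι) {j : ι} (hj : j ∈ Y) : f j ∈ Subgroup.closure (f '' Y) :=
  Subgroup.subset_closure ⟨j, hj, rfl⟩

/-- a minimal element of a double coset. -/
theorem exists_min_dc (f : ι → W) (X Y : Set ι) (w : W) :
    ∃ a ∈ Subgroup.closure (f '' X), ∃ b ∈ Subgroup.closure (f '' Y),
      ∀ a' ∈ Subgroup.closure (f '' X), ∀ b' ∈ Subgroup.closure (f '' Y),
        len f (a * w * b) ≤ len f (a' * w * b') := by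
  have hS : ({k | ∃ a ∈ Subgroup.closure (f '' X), ∃ b ∈ Subgroup.closure (f '' Y),
      len f (a * w * b) = k} : Set ℕ).Nonempty :=
    ⟨len f (1 * w * 1), 1, one_mem _, 1, one_mem _, rfl⟩
  obtain ⟨a, ha, b, hb, hab⟩ := Nat.sInf_mem hS
  refine ⟨a, ha, b, hb, fun a' ha' b' hb' => ?_⟩
  rw [hab]
  exact Nat.sInf_le ⟨a', ha', b', hb', rfl⟩

/-- KEY: a reduced element of a double coset is its minimal element. -/
theorem key (E : ES f Ps) (X Y : Set ι) (m u v : W)
    (hmin : ∀ a ∈ Subgroup.closure (f '' X), ∀ b ∈ Subgroup.closure (f '' Y),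
      len f m ≤ len f (a * m * b))
    (hu : u ∈ Subgroup.closure (f '' X)) (hv : v ∈ Subgroup.closure (f '' Y))
    (hw : u * m * v ∈ Red f X Y) : u * m * v = m := by
  obtain ⟨lu, hluX, -, hlu⟩ :=
    exists_isRed_of_mem_closure f E.hf2 E.hgen Ps E.hA E.hB E.hC X hu
  obtain ⟨lm, hlmR, hlm⟩ := exists_isRed f E.hf2 E.hgen m
  obtain ⟨lv, hlvY, -, hlv⟩ :=
    exists_isRed_of_mem_closure f E.hf2 E.hgen Ps E.hA E.hB E.hC Y hv
  obtain ⟨l', hsub, hl'R, hl'⟩ :=
    exists_isRed_sublist f E.hf2 E.hgen Ps E.hA E.hB E.hC (lu ++ lm ++ lv)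
  rw [wprod_append, wprod_append, hlu, hlm, hlv] at hl'
  obtain ⟨l12, lv', rfl, h12, hv'⟩ := List.sublist_append_iff.1 hsub
  obtain ⟨lu', lm', rfl, hu', hm'⟩ := List.sublist_append_iff.1 h12
  have hpu : wprod f lu' ∈ Subgroup.closure (f '' X) :=
    wprod_mem_closure f X lu' (fun i hi => hluX i (hu'.subset hi))
  have hpv : wprod f lv' ∈ Subgroup.closure (f '' Y) :=
    wprod_mem_closure f Y lv' (fun i hi => hlvY i (hv'.subset hi))
  have hlen : len f (u * m * v) = (lu' ++ lm' ++ lv').length := by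
    rw [← hl']; exact hl'R
  rw [wprod_append, wprod_append] at hl'
  have hm'eq : wprod f lm' = ((wprod f lu')⁻¹ * u) * m * (v * (wprod f lv')⁻¹) := by
    have e : wprod f lm' =
        (wprod f lu')⁻¹ * (wprod f lu' * wprod f lm' * wprod f lv') * (wprod f lv')⁻¹ := by
      group
    rw [e, hl']; group
  have h1 : len f m ≤ len f (wprod f lm') := by
    rw [hm'eq]
    exact hmin _ (mul_mem (inv_mem hpu) hu) _ (mul_mem hv (inv_mem hpv))
  have h2 := len_le f lm'
  have h3 : lm'.length ≤ lm.length := hm'.length_le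
  have h4 : len f m = lm.length := by rw [← hlm]; exact hlmR
  have hlm' : lm' = lm := hm'.eq_of_length_le (by omega)
  rw [hlm'] at hl' hlen
  rw [hlm] at hl'
  have hlu' : lu' = [] := by
    cases lu' with
    | nil => rfl
    | cons i t =>
      exfalso
      have hiX : i ∈ X := hluX i (hu'.subset List.mem_cons_self)
      have hlt := hw.1 i hiX
      have e : f i * (u * m * v) = wprod f (t ++ lm ++ lv') := by
        rw [← hl', wprod_cons, wprod_append, wprod_append, hlm, mul_assoc (f i), mul_assoc (f i),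
          mul_mul_cancel_gen f E.hf2, mul_assoc]
      have h5 := len_le f (t ++ lm ++ lv')
      rw [← e] at h5
      simp only [List.length_append, List.length_cons] at hlen h5
      omega
  rw [hlu', wprod_nil, one_mul] at hl'
  rw [hlu', List.nil_append] at hlen
  have hlv' : lv' = [] := by
    rcases List.eq_nil_or_concat' lv' with h | ⟨t, j, rfl⟩
    · exact h
    · exfalso
      have hjY : j ∈ Y := hlvY j (hv'.subset (by simp))
      have hlt := hw.2 j hjY
      have e : (u * m * v) * f j = wprod f (lm ++ t) := by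
        rw [← hl', wprod_append, wprod_append, wprod_singleton, hlm, mul_assoc, mul_assoc,
          E.hf2, mul_one]
      have h5 := len_le f (lm ++ t)
      rw [← e] at h5
      simp only [List.length_append, List.length_cons, List.length_nil] at hlen h5
      omega
  rw [hlv', wprod_nil, mul_one] at hl'
  exact hl'.symm

end ES

/-- **Piece WA of S2311** (existence). -/
theorem red_exists (f : ι → W) (hf2 : ∀ i, f i * f i = 1) (hgen : Subgroup.closure (Set.range f) = ⊤) (Ps : ι → Set W) (hA : ∀ i, (1 : W) ∈ Ps i) (hB : ∀ i w, w ∈ Ps i → f i * w ∉ Ps i) (hC : ∀ i j w, w ∈ Ps i → w * f j ∉ Ps i → f i * w = w * f j) (X Y : Set ι) (w : W) : ∃ d ∈ Red f X Y, ∃ u ∈ Subgroup.closure (f '' X), ∃ v ∈ Subgroup.closure (f '' Y), w = u * d * v := by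
  have E : ES f Ps := ⟨hf2, hgen, hA, hB, hC⟩
  obtain ⟨a, ha, b, hb, hmin⟩ := ES.exists_min_dc f X Y w
  refine ⟨a * w * b, ⟨?_, ?_⟩, a⁻¹, inv_mem ha, b⁻¹, inv_mem hb, by group⟩
  · intro i hi
    have h1 := hmin (f i * a) (mul_mem (ES.mem_gen X hi) ha) b hb
    have h2 := E.lenL_ne i (a * w * b)
    have e : f i * a * w * b = f i * (a * w * b) := by group
    rw [e] at h1
    omega
  · intro j hj
    have h1 := hmin a ha (b * f j) (mul_mem hb (ES.mem_gen Y hj))
    have h2 := E.lenR_ne j (a * w * b)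
    have e : a * w * (b * f j) = a * w * b * f j := by group
    rw [e] at h1
    omega

/-- **Piece WA of S2311** (uniqueness). -/
theorem red_unique (f : ι → W) (hf2 : ∀ i, f i * f i = 1) (hgen : Subgroup.closure (Set.range f) = ⊤) (Ps : ι → Set W) (hA : ∀ i, (1 : W) ∈ Ps i) (hB : ∀ i w, w ∈ Ps i → f i * w ∉ Ps i) (hC : ∀ i j w, w ∈ Ps i → w * f j ∉ Ps i → f i * w = w * f j) (X Y : Set ι) {d d' u v : W} (hd : d ∈ Red f X Y) (hd' : d' ∈ Red f X Y) (hu : u ∈ Subgroup.closure (f '' X)) (hv : v ∈ Subgroup.closure (f '' Y)) (h : d' = u * d * v) : d' = d := by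
  have E : ES f Ps := ⟨hf2, hgen, hA, hB, hC⟩
  obtain ⟨a, ha, b, hb, hmin⟩ := ES.exists_min_dc f X Y d
  have hmin' : ∀ a' ∈ Subgroup.closure (f '' X), ∀ b' ∈ Subgroup.closure (f '' Y),
      len f (a * d * b) ≤ len f (a' * (a * d * b) * b') := by
    intro a' ha' b' hb'
    have := hmin (a' * a) (mul_mem ha' ha) (b * b') (mul_mem hb hb')
    have e : a' * a * d * (b * b') = a' * (a * d * b) * b' := by group
    rwa [e] at this
  have e1 : a⁻¹ * (a * d * b) * b⁻¹ = d := by group
  have k1 := E.key X Y (a * d * b) a⁻¹ b⁻¹ hmin' (inv_mem ha) (inv_mem hb) (by rw [e1]; exact hd)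
  rw [e1] at k1
  have e2 : (u * a⁻¹) * (a * d * b) * (b⁻¹ * v) = d' := by rw [h]; group
  have k2 := E.key X Y (a * d * b) (u * a⁻¹) (b⁻¹ * v) hmin' (mul_mem hu (inv_mem ha))
    (mul_mem (inv_mem hb) hv) (by rw [e2]; exact hd')
  rw [e2] at k2
  rw [k2, ← k1]

/-- **Piece WA of S2311** (additivity of the length). -/
theorem red_len_mul (f : ι → W) (hf2 : ∀ i, f i * f i = 1) (hgen : Subgroup.closure (Set.range f) = ⊤) (Ps : ι → Set W) (hA : ∀ i, (1 : W) ∈ Ps i) (hB : ∀ i w, w ∈ Ps i → f i * w ∉ Ps i) (hC : ∀ i j w, w ∈ Ps i → w * f j ∉ Ps i → f i * w = w * f j) (Y : Set ι) {w v : W} (hw : ∀ j ∈ Y, len f w < len f (w * f j)) (hv : v ∈ Subgroup.closure (f '' Y)) : len f (w * v) = len f w + len f v := by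
  have E : ES f Ps := ⟨hf2, hgen, hA, hB, hC⟩
  have hbot : ∀ a ∈ Subgroup.closure (f '' (∅ : Set ι)), a = 1 := by
    intro a ha
    rw [Set.image_empty, Subgroup.closure_empty] at ha
    exact Subgroup.mem_bot.1 ha
  -- `w` is minimal in its coset
  have hwmin : ∀ b ∈ Subgroup.closure (f '' Y), len f w ≤ len f (w * b) := by
    obtain ⟨a, ha, b₀, hb₀, hmin⟩ := ES.exists_min_dc f ∅ Y w
    have ha1 := hbot a ha
    subst ha1
    have hmin' : ∀ a' ∈ Subgroup.closure (f '' (∅ : Set ι)),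
        ∀ b' ∈ Subgroup.closure (f '' Y), len f (1 * w * b₀) ≤ len f (a' * (1 * w * b₀) * b') := by
      intro a' ha' b' hb'
      have ha1 := hbot a' ha'
      subst ha1
      have := hmin 1 (one_mem _) (b₀ * b') (mul_mem hb₀ hb')
      have e : 1 * w * (b₀ * b') = 1 * (1 * w * b₀) * b' := by group
      rwa [e] at this
    have e1 : 1 * (1 * w * b₀) * b₀⁻¹ = w := by group
    have k1 := E.key ∅ Y (1 * w * b₀) 1 b₀⁻¹ hmin' (one_mem _) (inv_mem hb₀)
      (by rw [e1]; exact ⟨fun i hi => absurd hi (Set.notMem_empty i), hw⟩)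
    rw [e1] at k1
    intro b hb
    have := hmin 1 (one_mem _) b hb
    rw [← k1] at this
    rwa [one_mul] at this
  obtain ⟨lw, hlwR, hlw⟩ := exists_isRed f hf2 hgen w
  obtain ⟨lv, hlvY, hlvR, hlv⟩ := exists_isRed_of_mem_closure f hf2 hgen Ps hA hB hC Y hv
  obtain ⟨l', hsub, hl'R, hl'⟩ := exists_isRed_sublist f hf2 hgen Ps hA hB hC (lw ++ lv)
  rw [wprod_append, hlw, hlv] at hl'
  obtain ⟨lw', lv', rfl, hw', hv'⟩ := List.sublist_append_iff.1 hsub
  have hpv : wprod f lv' ∈ Subgroup.closure (f '' Y) :=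
    wprod_mem_closure f Y lv' (fun i hi => hlvY i (hv'.subset hi))
  have hlen : len f (w * v) = (lw' ++ lv').length := by
    rw [← hl']; exact hl'R
  rw [wprod_append] at hl'
  have e1 : wprod f lw' = w * (v * (wprod f lv')⁻¹) := by
    have e : wprod f lw' = (wprod f lw' * wprod f lv') * (wprod f lv')⁻¹ := by group
    rw [e, hl']; group
  have h1 : len f w ≤ len f (wprod f lw') := by
    rw [e1]; exact hwmin _ (mul_mem hv (inv_mem hpv))
  have h2 := len_le f lw'
  have h3 : lw'.length ≤ lw.length := hw'.length_le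
  have h4 : len f w = lw.length := by rw [← hlw]; exact hlwR
  have hlw' : lw' = lw := hw'.eq_of_length_le (by omega)
  rw [hlw', hlw] at hl'
  have e2 : wprod f lv' = v := mul_left_cancel hl'
  have h5 := len_le f lv'
  rw [e2] at h5
  have h6 : lv'.length ≤ lv.length := hv'.length_le
  have h7 : len f v = lv.length := by rw [← hlv]; exact hlvR
  rw [hlen, List.length_append, hlw']
  omega

end Cfsg.Agent.H51.St
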