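import Mathlib
import Cfsg.Agent.H42.SpdDefs

set_option autoImplicit false

/-!
S5961 piece SPD-DECOMP (helper51, for helper42): an invariant orthogonal decomposition into `t`
nondegenerate subspaces of even dimension `a`.
-/

namespace Cfsg.Agent.H51.Spd

open Cfsg.Agent.H45 Cfsg.Agent.H42.Spd Module

universe u v

theorem cc_even (F : Type u) [Fintype F] (r : ℕ) : Even (cc F r) := by
  unfold cc
  split_ifs with h
  · exact h
  · exact even_two_mul _

theorem decomp (hSub : StSub.{u, v}) (hM : StModc.{u, v}) (hC : StCompl.{u, v}) :
    StDecomp.{u, v} := by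
  intro F _ _ V _ _ _ r B T hctx a t
  induction t with
  | zero =>
    intro W hW _ hfin _
    rw [mul_zero] at hfin
    have hWbot : W = ⊥ := Submodule.finrank_eq_zero.mp hfin
    refine ⟨fun j => ⊥, fun j => j.elim0, fun j => j.elim0, ?_⟩
    rw [hWbot]
    simp
  | succ t ih =>
    intro W hW ha hfin hk
    set c := cc F r with hc
    obtain ⟨s, hs⟩ := hM F V r B T hctx W hW
    rw [← hc] at hs
    -- the numbers `j1`, `l1`
    set j1 := min s (a / c) with hj1
    have hcj : c * j1 ≤ a := by
      calc c * j1 ≤ c * (a / c) := Nat.mul_le_mul_left c (min_le_right _ _)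
        _ ≤ a := Nat.mul_div_le a c
    obtain ⟨a', ha'⟩ := ha
    obtain ⟨c', hc'⟩ := cc_even F r
    have hl : ∃ l1 : ℕ, 2 * l1 = a - c * j1 := by
      refine ⟨a' - c' * j1, ?_⟩
      rw [← hc] at hc'
      rw [hc', ha']
      have : (c' + c') * j1 = c' * j1 + c' * j1 := by ring
      rw [this]
      omega
    obtain ⟨l1, hl1⟩ := hl
    have hkle : kk T W ≤ finrank F W := by
      rw [hs]; exact Nat.le_add_right _ _
    -- the conditions for `hSub`
    have h1 : kk T W + c * j1 ≤ finrank F W := by
      rw [hs]
      exact Nat.add_le_add_left (Nat.mul_le_mul_left c (min_le_left _ _)) _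
    have hmodle : a % c ≤ kk T W := by
      calc a % c ≤ (t + 1) * (a % c) := Nat.le_mul_of_pos_left _ (Nat.succ_pos t)
        _ ≤ kk T W := hk
    have h2 : 2 * l1 ≤ kk T W ∧ t * (a % c) + 2 * l1 ≤ kk T W := by
      rcases le_total (a / c) s with hle | hle
      · -- `j1 = a / c`
        have e : j1 = a / c := min_eq_right hle
        have e2 : 2 * l1 = a % c := by
          rw [hl1, e]
          have := Nat.div_add_mod a c
          omega
        rw [e2]
        refine ⟨hmodle, ?_⟩
        have : (t + 1) * (a % c) = t * (a % c) + a % c := by ring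
        omega
      · -- `j1 = s`
        have e : j1 = s := min_eq_left hle
        rw [e] at hl1 hcj
        have hmod : t * (a % c) ≤ t * a := Nat.mul_le_mul_left t (Nat.mod_le a c)
        have hfin' : finrank F W = a * t + a := by rw [hfin]; ring
        have hta : t * a = a * t := Nat.mul_comm t a
        constructor
        · omega
        · omega
    obtain ⟨U, hUW, hUnd, hUfin, hUk⟩ := hSub F V r B T hctx W hW j1 l1 h1 h2.1
    rw [← hc] at hUfin
    have hUa : finrank F U = a := by
      rw [hUfin, hl1]; omega
    obtain ⟨hW'nd, hsup, hfinsum, hksum⟩ := hC F V B T hctx.good U W hUnd hW hUW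
    set W' := W ⊓ perp B U with hW'
    have hW'fin : finrank F W' = a * t := by
      have : a * (t + 1) = a * t + a := by ring
      omega
    have hW'k : t * (a % c) ≤ kk T W' := by
      have := h2.2
      omega
    obtain ⟨D', hD'1, hD'2, hD'3⟩ := ih W' hW'nd ⟨a', ha'⟩ hW'fin hW'k
    refine ⟨Fin.cons U D', ?_, ?_, ?_⟩
    · intro j
      refine Fin.cases ?_ (fun j => ?_) j
      · simp only [Fin.cons_zero]
        exact ⟨hUW, hUnd, hUa⟩
      · simp only [Fin.cons_succ]
        exact ⟨(hD'1 j).1.trans inf_le_left, (hD'1 j).2.1, (hD'1 j).2.2⟩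
    · intro j j' hjj'
      induction j using Fin.cases with
      | zero =>
        induction j' using Fin.cases with
        | zero => exact absurd rfl hjj'
        | succ k' =>
          simp only [Fin.cons_zero, Fin.cons_succ]
          exact (hD'1 k').1.trans inf_le_right
      | succ k =>
        induction j' using Fin.cases with
        | zero =>
          simp only [Fin.cons_zero, Fin.cons_succ]
          intro u hu
          rw [mem_perp]
          intro y hy
          have h3 : y ∈ perp B U := ((hD'1 k).1 hy).2
          exact hctx.good.refl ((mem_perp B U y).mp h3 u hu)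
        | succ k' =>
          simp only [Fin.cons_succ]
          exact hD'2 k k' (fun h => hjj' (by rw [h]))
    · apply le_antisymm
      · apply iSup_le
        intro j
        refine Fin.cases ?_ (fun j => ?_) j
        · simp only [Fin.cons_zero]
          exact hUW
        · simp only [Fin.cons_succ]
          exact (hD'1 j).1.trans inf_le_left
      · rw [← hsup]
        apply sup_le
        · exact le_iSup_of_le 0 (by simp)
        · rw [← hD'3]
          apply iSup_le
          intro j
          exact le_iSup_of_le j.succ (by simp)

end Cfsg.Agent.H51.Spd
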