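import Mathlib
import Cfsg.Agent.H88.AltFDefs

/-!
# S5165-CB (helper51, for helper88)

The base group `baseB` of fibrewise translations is self-centralizing in `Sym((I × ZMod p) ⊕ E)`.
-/

set_option autoImplicit false

namespace Cfsg.Agent.H51.AltF

open Cfsg Cfsg.Agent.H88.AltF

theorem cb : Cfsg.Agent.H88.AltF.StmtCB := by
  intro I E _ _ _ _ _ p _
  intro g hg
  rw [Subgroup.mem_centralizer_iff] at hg
  have hcomm : ∀ f : I → ZMod p, ∀ pt, fibP E f (g pt) = g (fibP E f pt) := by
    intro f pt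
    have h := hg (fibP E f) (fibP_mem_baseB E f)
    exact congrArg (fun σ : Equiv.Perm (Pt I E p) => σ pt) h
  have h10 : (1 : ZMod p) ≠ 0 := one_ne_zero
  have step1 : ∀ (h : Equiv.Perm (Pt I E p)),
      (∀ f : I → ZMod p, ∀ pt, fibP E f (h pt) = h (fibP E f pt)) →
      ∀ i x, ∃ y, h (Sum.inl (i, x)) = Sum.inl (i, y) := by
    intro h hh i x
    have hmove : fibP E (Pi.single i 1) (h (Sum.inl (i, x))) ≠ h (Sum.inl (i, x)) := by
      rw [hh]
      intro heq
      have h2 := h.injective heq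
      rw [fibP_inl, Pi.single_eq_same] at h2
      have h3 : x + 1 = x := by simpa using h2
      exact h10 (add_eq_left.mp h3)
    rcases hpt : h (Sum.inl (i, x)) with ⟨i', y⟩ | e
    · rw [hpt] at hmove
      by_cases hii : i' = i
      · subst hii
        exact ⟨y, rfl⟩
      · exfalso
        apply hmove
        rw [fibP_inl, Pi.single_eq_of_ne hii, add_zero]
    · rw [hpt] at hmove
      exact absurd (fibP_inr E _ e) hmove
  have hcomm' : ∀ f : I → ZMod p, ∀ pt, fibP E f (g⁻¹ pt) = g⁻¹ (fibP E f pt) := by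
    intro f pt
    have h := hcomm f (g⁻¹ pt)
    rw [Equiv.Perm.inv_def, Equiv.apply_symm_apply] at h
    rw [Equiv.Perm.inv_def, h, Equiv.symm_apply_apply]
  choose γ hγ using step1 g hcomm
  have hγ1 : ∀ i x, γ i (x + 1) = γ i x + 1 := by
    intro i x
    have h := hcomm (Pi.single i 1) (Sum.inl (i, x))
    rw [hγ i x, fibP_inl, fibP_inl, Pi.single_eq_same, hγ i (x + 1)] at h
    have h2 : γ i x + 1 = γ i (x + 1) := by simpa using h
    exact h2.symm
  have hγn : ∀ i (n : ℕ), γ i (n : ZMod p) = (n : ZMod p) + γ i 0 := by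
    intro i n
    induction n with
    | zero => simp
    | succ n ih => rw [Nat.cast_succ, hγ1, ih]; ring
  have hγx : ∀ i x, γ i x = x + γ i 0 := by
    intro i x
    have h := hγn i x.val
    rwa [ZMod.natCast_zmod_val] at h
  have hinr : ∀ e, g (Sum.inr e) = Sum.inr e := by
    intro e
    rcases hpt : g (Sum.inr e) with ⟨i, y⟩ | e'
    · exfalso
      obtain ⟨y', hy'⟩ := step1 g⁻¹ hcomm' i y
      rw [← hpt, Equiv.Perm.inv_def, Equiv.symm_apply_apply] at hy'
      exact Sum.inr_ne_inl hy'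
    · rw [Subsingleton.elim e' e]
  refine ⟨fun i => γ i 0, ?_⟩
  apply Equiv.ext
  rintro (⟨i, x⟩ | e)
  · rw [fibP_inl, hγ i x, hγx i x]
  · rw [fibP_inr, hinr]

example : Cfsg.Agent.H88.AltF.StmtCB := cb

end Cfsg.Agent.H51.AltF
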