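import Mathlib
import Cfsg.Agent.H79.BrDefs

/-!
# S4504-LOC (helper51, for helper79): assembly of the local data `Loc`
-/

set_option autoImplicit false

namespace Cfsg.Agent.H51.Br

open Cfsg Cfsg.Agent.H79.Br
open scoped ComplexConjugate

universe u

theorem isClassFunction_of_char {G : Type u} [Group G] {χ : G → ℂ} (h : IsCharacter G χ) :
    IsClassFunction G χ := by
  obtain ⟨n, ρ, rfl⟩ := h
  intro g h
  exact Representation.char_conj ρ g h

theorem char_one_eq_deg {G : Type u} [Group G] {χ : G → ℂ} (h : IsCharacter G χ) :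
    χ 1 = (charDegree χ : ℂ) := by
  obtain ⟨n, ρ, rfl⟩ := h
  have h1 : ρ.character 1 = (n : ℂ) := by
    rw [Representation.char_one]
    simp
  unfold charDegree
  rw [h1, Complex.natCast_re, Nat.floor_natCast]

/-- **S4504-LOC**. -/
theorem loc (hL : StLib.{u}) (h1 : StGLCent.{u}) (h2 : StGLReps.{u}) (h3 : StGLOrb.{u})
    (h4 : StGLSing.{u}) (h5 : StGLPar.{u}) (h6 : StNoLin.{u}) (h7 : StFive.{u}) : StLoc.{u} := by
  intro G _ _ p _ P hP hK hnn χ hχ hfaith hdeg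
  obtain ⟨hirr, hcz, hN, hsum, hsq, htype⟩ := hL p P hP hK hnn χ hχ hfaith hdeg
  have h5p : 5 ≤ p := h7 p P hP hnn χ hχ hfaith hdeg
  obtain ⟨hC, hzreg, hcx⟩ := h1 p P hP hnn hcz
  obtain ⟨x₁, x₂, hx1, hx2, hx1n, hx2n, hnc⟩ := h2 p P hP (charDegree χ) hdeg h5p hN
  obtain ⟨hcov, horb⟩ := h3 p P hP (charDegree χ) hdeg hN x₁ x₂ hx1 hx2 hx1n hx2n hnc
  have hsing := h4 p P hP hcz x₁ x₂ hcov
  obtain ⟨hpar3, hpar1⟩ := h5 p P hP (charDegree χ) hdeg hN x₁ x₂ hx1 hx2 hx1n hx2n hnc hcov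
  have hf2 : 2 ≤ charDegree χ := by omega
  have hcf := isClassFunction_of_char hχ
  have h1f := char_one_eq_deg hχ
  have hf0 : ((charDegree χ : ℕ) : ℂ) ≠ 0 := by
    have : charDegree χ ≠ 0 := by omega
    exact_mod_cast this
  have hpc : (p : ℂ) = 2 * (charDegree χ : ℂ) + 1 := by
    rw [← hdeg]
    push_cast
    ring
  -- the sum relation
  have e1 := horb χ hcf
  rw [hsum, h1f] at e1
  have hsumx : χ x₁ + χ x₂ = -1 := by
    have h0 : ((charDegree χ : ℕ) : ℂ) * (χ x₁ + χ x₂ + 1) = 0 := by linear_combination -e1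
    rcases mul_eq_zero.1 h0 with h | h
    · exact absurd h hf0
    · linear_combination h
  -- the square relation
  have hcf2 : IsClassFunction G (fun g => χ g * conj (χ g)) := by
    intro g h
    show χ (h * g * h⁻¹) * conj (χ (h * g * h⁻¹)) = χ g * conj (χ g)
    rw [hcf g h]
  have e2 : ∑ᶠ x : (P : Subgroup G), χ x * conj (χ x) =
      χ 1 * conj (χ 1) + (charDegree χ : ℂ) * (χ x₁ * conj (χ x₁)) +
        (charDegree χ : ℂ) * (χ x₂ * conj (χ x₂)) := horb _ hcf2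
  rw [hsq, h1f, Complex.conj_natCast, hpc] at e2
  have hsqx : χ x₁ * conj (χ x₁) + χ x₂ * conj (χ x₂) = (charDegree χ : ℂ) + 1 := by
    have h0 : ((charDegree χ : ℕ) : ℂ) *
        (χ x₁ * conj (χ x₁) + χ x₂ * conj (χ x₂) - ((charDegree χ : ℂ) + 1)) = 0 := by
      linear_combination -e2
    rcases mul_eq_zero.1 h0 with h | h
    · exact absurd h hf0
    · linear_combination h
  -- the seven types
  have htypex : ∀ ψ : IrrCharacter G,
      (ψ.1 x₁ = 0 ∧ ψ.1 x₂ = 0) ∨ (ψ.1 x₁ = 1 ∧ ψ.1 x₂ = 1) ∨ (ψ.1 x₁ = -1 ∧ ψ.1 x₂ = -1) ∨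
      (ψ.1 x₁ = χ x₁ ∧ ψ.1 x₂ = χ x₂) ∨ (ψ.1 x₁ = χ x₂ ∧ ψ.1 x₂ = χ x₁) ∨
      (ψ.1 x₁ = -χ x₁ ∧ ψ.1 x₂ = -χ x₂) ∨ (ψ.1 x₁ = -χ x₂ ∧ ψ.1 x₂ = -χ x₁) := by
    intro ψ
    rcases htype ψ with h | h | h | h | h | h | h
    · exact Or.inl ⟨h x₁ hx1 hx1n, h x₂ hx2 hx2n⟩
    · exact Or.inr (Or.inl ⟨h x₁ hx1 hx1n, h x₂ hx2 hx2n⟩)
    · exact Or.inr (Or.inr (Or.inl ⟨h x₁ hx1 hx1n, h x₂ hx2 hx2n⟩))
    · exact Or.inr (Or.inr (Or.inr (Or.inl ⟨h x₁ hx1 hx1n, h x₂ hx2 hx2n⟩)))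
    · refine Or.inr (Or.inr (Or.inr (Or.inr (Or.inl ⟨?_, ?_⟩))))
      · rw [h x₁ hx1 hx1n]
        linear_combination -hsumx
      · rw [h x₂ hx2 hx2n]
        linear_combination -hsumx
    · exact Or.inr (Or.inr (Or.inr (Or.inr (Or.inr (Or.inl ⟨h x₁ hx1 hx1n, h x₂ hx2 hx2n⟩)))))
    · refine Or.inr (Or.inr (Or.inr (Or.inr (Or.inr (Or.inr ⟨?_, ?_⟩)))))
      · rw [h x₁ hx1 hx1n]
        linear_combination hsumx
      · rw [h x₂ hx2 hx2n]
        linear_combination hsumx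
  -- an element of `N ∖ C`
  have hex : ∃ n ∈ Subgroup.normalizer ((P : Subgroup G) : Set G), ∃ x ∈ (P : Subgroup G),
      n * x ≠ x * n := by
    by_contra hcon
    have hle : Subgroup.normalizer ((P : Subgroup G) : Set G) ≤
        Subgroup.centralizer ((P : Subgroup G) : Set G) := by
      intro n hn
      rw [Subgroup.mem_centralizer_iff]
      intro x hx
      by_contra hne
      exact hcon ⟨n, hn, x, hx, fun h => hne h.symm⟩
    have hcard := Subgroup.card_le_of_le hle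
    have hCpos : 0 < Nat.card (Subgroup.centralizer ((P : Subgroup G) : Set G)) := Nat.card_pos
    rw [hN] at hcard
    have h2c : 2 * Nat.card (Subgroup.centralizer ((P : Subgroup G) : Set G)) ≤
        charDegree χ * Nat.card (Subgroup.centralizer ((P : Subgroup G) : Set G)) :=
      Nat.mul_le_mul_right _ hf2
    omega
  exact ⟨x₁, x₂,
    { grp :=
        { mem₁ := hx1
          mem₂ := hx2
          ne₁ := hx1n
          ne₂ := hx2n
          nconj := hnc
          zreg := hzreg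
          cent₁ := by rw [hcx x₁ hx1 hx1n]; exact hC
          cent₂ := by rw [hcx x₂ hx2 hx2n]; exact hC
          sing := hsing
          orb := horb
          par3 := hpar3
          par1 := hpar1
          norm := by rw [hN, hC]; ring }
      cardP := hP
      nn := hnn
      irr := hirr
      deg := hdeg
      five := h5p
      faith := hfaith
      sum := hsumx
      sq := hsqx
      type := htypex
      nolin := (h6 p P hP hK hex).2 }⟩

end Cfsg.Agent.H51.Br
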