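import Mathlib
import Cfsg.Agent.H79.BrDefs
import Cfsg.Agent.H82.Irr
import Cfsg.Agent.H82.Extra
import Cfsg.Agent.H4.Irr
import Cfsg.Agent.H4.Chars
import Cfsg.Agent.H4.RealClasses
import Cfsg.Agent.H51.BrLoc

/-!
# S4504-EXC3 (helper51, for helper79): the partner `θ₂` of `χ` in the principal block,
case `p ≡ 3 (mod 4)`
-/

set_option autoImplicit false
set_option linter.style.haveILetI false

namespace Cfsg.Agent.H51.Br

open Cfsg Cfsg.Agent.H79.Br
open scoped ComplexConjugate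

universe u

/-- The trivial character as an irreducible character. -/
theorem exists_triv (G : Type u) [Group G] : ∃ t : IrrCharacter G, t.1 = 1 := by
  refine ⟨Cfsg.Agent.H82.linChar (1 : G →* ℂˣ), ?_⟩
  funext g
  rw [Cfsg.Agent.H82.linChar_apply]
  simp

/-- A product `χ · conj ψ` of two irreducible characters with the same central character is
invariant under translation by central elements. -/
theorem mul_conj_central {G : Type u} [Group G] [Finite G] (χ ψ : IrrCharacter G)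
    (hψ : ψ ∈ Ov χ.1) (z : G) (hz : z ∈ Subgroup.center G) (g : G) :
    χ.1 (z * g) * conj (ψ.1 (z * g)) = χ.1 g * conj (ψ.1 g) := by
  have hz' : ∀ g : G, g * z = z * g := fun g => Subgroup.mem_center_iff.1 hz g
  obtain ⟨c, hc, hck, -⟩ := Cfsg.Agent.H82.irr_central_scalar χ z hz'
  obtain ⟨c', hc', -, -⟩ := Cfsg.Agent.H82.irr_central_scalar ψ z hz'
  have h1 := hc 1
  have h2 := hc' 1
  rw [mul_one] at h1 h2
  have h3 := hψ z hz
  rw [h1, h2] at h3
  have hχ1 : χ.1 1 ≠ 0 := Cfsg.Agent.H82.irr_one_ne_zero χ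
  have hψ1 : ψ.1 1 ≠ 0 := Cfsg.Agent.H82.irr_one_ne_zero ψ
  have hcc : c' = c := by
    have h4 : (c' - c) * (ψ.1 1 * χ.1 1) = 0 := by linear_combination h3
    rcases mul_eq_zero.1 h4 with h | h
    · exact sub_eq_zero.1 h
    · exact absurd h (mul_ne_zero hψ1 hχ1)
  have hnorm : ‖c‖ = 1 :=
    Complex.norm_eq_one_of_pow_eq_one (hck (orderOf z) (pow_orderOf_eq_one z))
      (orderOf_pos z).ne'
  have hcconj : c * conj c = 1 := by
    rw [Complex.mul_conj, Complex.normSq_eq_norm_sq, hnorm]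
    norm_num
  rw [hc g, hc' g, hcc, map_mul]
  linear_combination (χ.1 g * conj (ψ.1 g)) * hcconj

/-- **S4504-EXC3**. -/
theorem exc3 (hP : StPair.{u}) (hC : StDecC.{u}) (hZ : StCentConst.{u}) : StExc3.{u} := by
  intro G _ _ p _ P χ x₁ x₂ L hp4
  classical
  letI : Fintype (IrrCharacter G) := Cfsg.Agent.H4.fintypeIrr G
  have hdeg := L.deg
  have hfive := L.five
  have hsum := L.sum
  have hsq := L.sq
  have hχc : IsCharacter G χ := Cfsg.Agent.H4.isCharacter_of_isIrrCharacter L.irr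
  have h1f := char_one_eq_deg hχc
  have hinv : ∀ g : G, χ g⁻¹ = conj (χ g) := fun g => Cfsg.Agent.H82.irr_inv ⟨χ, L.irr⟩ g
  have hcl : ∀ {g h : G}, IsConj g h → χ g = χ h :=
    fun c => Cfsg.Agent.H82.irr_isConj ⟨χ, L.irr⟩ c
  have hconj : conj (χ x₁) = χ x₂ := by
    rw [← hinv x₁]
    exact hcl (L.grp.par3 hp4)
  have hconj' : conj (χ x₂) = χ x₁ := by rw [← hconj, Complex.conj_conj]
  have hprod : 2 * (χ x₁ * χ x₂) = (charDegree χ : ℂ) + 1 := by
    rw [hconj, hconj'] at hsq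
    linear_combination hsq
  have hne : χ x₁ ≠ χ x₂ := by
    intro h
    have h1 : χ x₁ = -1 / 2 := by linear_combination (1 / 2 : ℂ) * hsum + (1 / 2 : ℂ) * h
    have h2 : χ x₂ = -1 / 2 := by rw [← h]; exact h1
    rw [h1, h2] at hprod
    have h4 : ((2 * charDegree χ + 1 : ℕ) : ℂ) = 0 := by
      push_cast
      linear_combination (-2 : ℂ) * hprod
    have h5 : 2 * charDegree χ + 1 = 0 := by exact_mod_cast h4
    omega
  -- the pair over `χ`
  obtain ⟨ε, θ, θ', hε, hθ, hθ', hθ1, hθ2, hθ'1, hθ'2, hdegs, hagree, hothers, -⟩ :=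
    hP p P χ x₁ x₂ L ⟨χ, L.irr⟩
  have hχOv : (⟨χ, L.irr⟩ : IrrCharacter G) ∈ Ov χ := fun z _ => rfl
  have hχθ : (⟨χ, L.irr⟩ : IrrCharacter G) = θ := by
    by_contra hne1
    by_cases h2 : (⟨χ, L.irr⟩ : IrrCharacter G) = θ'
    · subst h2
      have a1 : χ x₁ = ε * χ x₂ := hθ'1
      rcases hε with h | h
      · rw [h, one_mul] at a1
        exact hne a1
      · rw [h] at a1
        have h0 : χ x₁ + χ x₂ = 0 := by linear_combination a1
        rw [hsum] at h0
        norm_num at h0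
    · rcases hothers _ hχOv hne1 h2 with ⟨a, b⟩ | ⟨a, b⟩ | ⟨a, b⟩
      · have a' : χ x₁ = 0 := a
        have b' : χ x₂ = 0 := b
        rw [a', b'] at hsum
        norm_num at hsum
      · have a' : χ x₁ = 1 := a
        have b' : χ x₂ = 1 := b
        rw [a', b'] at hsum
        norm_num at hsum
      · have a' : χ x₁ = -1 := a
        have b' : χ x₂ = -1 := b
        rw [a', b'] at hsum
        norm_num at hsum
  subst hχθ
  have hε1 : ε = 1 := by
    have a1 : χ x₁ = ε * χ x₁ := hθ1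
    have a2 : χ x₂ = ε * χ x₂ := hθ2
    rcases hε with h | h
    · exact h
    · exfalso
      rw [h] at a1 a2
      have b1 : χ x₁ = 0 := by linear_combination (1 / 2 : ℂ) * a1
      have b2 : χ x₂ = 0 := by linear_combination (1 / 2 : ℂ) * a2
      rw [b1, b2] at hsum
      norm_num at hsum
  rw [hε1, one_mul] at hθ'1 hθ'2
  have hdθ' : charDegree θ'.1 = charDegree χ := hdegs.symm
  -- the character `Ξ = χ · conj θ'`
  have hΞc : IsCharacter G (fun g => χ g * conj (θ'.1 g)) :=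
    Cfsg.Agent.H4.isCharacter_mul hχc
      (Cfsg.Agent.H4.isCharacter_conj (Cfsg.Agent.H4.isCharacter_of_isIrrCharacter θ'.2))
  obtain ⟨m, hm⟩ := Cfsg.Agent.H4.isCharacter_iff.1 hΞc
  have hev : ∀ g : G, χ g * conj (θ'.1 g) = ∑ ψ : IrrCharacter G, (m ψ : ℂ) * ψ.1 g := by
    intro g
    have h := congrFun hm g
    rw [finsum_eq_sum_of_fintype, Finset.sum_apply] at h
    simpa [Pi.smul_apply, smul_eq_mul] using h
  -- `c(Ξ) = 0`
  have hc0 : χ 1 * conj (θ'.1 1) + (charDegree χ : ℂ) * (χ x₁ * conj (θ'.1 x₁)) +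
      (charDegree χ : ℂ) * (χ x₂ * conj (θ'.1 x₂)) = 0 := by
    rw [hθ'1, hθ'2, hconj, hconj', h1f, Cfsg.Agent.H82.irr_one_eq_charDegree θ', hdθ',
      Complex.conj_natCast]
    linear_combination (charDegree χ : ℂ) * (χ x₁ + χ x₂ - 1) * hsum -
      (charDegree χ : ℂ) * hprod
  -- constituents lie over the trivial character
  obtain ⟨triv, htriv⟩ := exists_triv G
  have hcentral : ∀ z ∈ Subgroup.center G, ∀ g : G,
      (fun g => χ g * conj (θ'.1 g)) (z * g) * triv.1 1 =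
        triv.1 z * (fun g => χ g * conj (θ'.1 g)) g := by
    intro z hz g
    rw [htriv]
    show χ (z * g) * conj (θ'.1 (z * g)) * 1 = 1 * (χ g * conj (θ'.1 g))
    rw [mul_one, one_mul]
    exact mul_conj_central ⟨χ, L.irr⟩ θ' hθ' z hz g
  have hov : ∀ ψ : IrrCharacter G, m ψ ≠ 0 → ψ ∈ Ov (1 : G → ℂ) := by
    intro ψ hψ
    have h := hZ triv m _ hm hcentral ψ hψ
    rwa [htriv] at h
  have htypes := hC p P χ x₁ x₂ L m _ hm hc0
  -- a constituent of type `(η', η)`
  have hex : ∃ ψ : IrrCharacter G, m ψ ≠ 0 ∧ ψ.1 x₁ = χ x₂ ∧ ψ.1 x₂ = χ x₁ := by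
    by_contra hnone
    have e1 := hev x₁
    rw [hθ'1, hconj'] at e1
    have e2 : χ x₁ * χ x₁ = -χ x₁ - ((charDegree χ : ℂ) + 1) / 2 := by
      linear_combination (χ x₁) * hsum - (1 / 2 : ℂ) * hprod
    have e3 : (χ x₁ * χ x₁).im = -(χ x₁).im := by
      rw [e2]
      simp
    have e4 : (χ x₁ * χ x₁).im =
        (∑ ψ : IrrCharacter G, if ψ.1 x₁ = χ x₁ then (m ψ : ℝ) else 0) * (χ x₁).im := by
      rw [e1, Complex.im_sum, Finset.sum_mul]
      refine Finset.sum_congr rfl fun ψ _ => ?_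
      by_cases hψη : ψ.1 x₁ = χ x₁
      · rw [if_pos hψη, hψη]
        simp
      · rw [if_neg hψη, zero_mul]
        by_cases hmψ : m ψ = 0
        · rw [hmψ]
          simp
        · rcases htypes ψ hmψ with ⟨a, -, -⟩ | ⟨⟨a, -⟩ | ⟨a, b⟩, -⟩
          · rw [a]
            simp
          · exact absurd a hψη
          · exact absurd ⟨ψ, hmψ, a, b⟩ hnone
    have hB : 0 ≤ ∑ ψ : IrrCharacter G, if ψ.1 x₁ = χ x₁ then (m ψ : ℝ) else 0 :=
      Finset.sum_nonneg fun ψ _ => by split_ifs <;> positivity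
    have e5 : ((∑ ψ : IrrCharacter G, if ψ.1 x₁ = χ x₁ then (m ψ : ℝ) else 0) + 1) *
        (χ x₁).im = 0 := by
      rw [add_mul, ← e4, e3]
      ring
    have him : (χ x₁).im = 0 := by
      rcases mul_eq_zero.1 e5 with h | h
      · linarith
      · exact h
    have hreal : conj (χ x₁) = χ x₁ := Complex.conj_eq_iff_im.2 him
    rw [hconj] at hreal
    exact hne hreal.symm
  obtain ⟨ψ, hmψ, hψ1, hψ2⟩ := hex
  refine ⟨ψ, hov ψ hmψ, hψ1, hψ2, ?_⟩
  rcases htypes ψ hmψ with ⟨a, b, -⟩ | ⟨-, hd⟩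
  · exfalso
    rw [hψ1] at a
    rw [hψ2] at b
    rw [a, b] at hsum
    norm_num at hsum
  · exact hd

end Cfsg.Agent.H51.Br
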