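import Mathlib
import Cfsg.Agent.H79.BrDefs
import Cfsg.Agent.H82.Irr
import Cfsg.Agent.H82.Extra
import Cfsg.Agent.H4.Irr
import Cfsg.Agent.H4.Chars
import Cfsg.Agent.H4.RealClasses
import Cfsg.Agent.H51.BrLoc
import Cfsg.Agent.H51.BrExc3

/-!
# S4504 (helper51, for helper79): common lemmas for the pieces PRODWA / PRODWB
-/

set_option autoImplicit false
set_option linter.style.haveILetI false

namespace Cfsg.Agent.H51.Br

open Cfsg Cfsg.Agent.H79.Br
open scoped ComplexConjugate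

universe u

/-- `η ≠ η'`. -/
theorem loc_ne {G : Type u} [Group G] {p : ℕ} {P : Subgroup G} {χ : G → ℂ} {x₁ x₂ : G}
    (L : Loc p P χ x₁ x₂) : χ x₁ ≠ χ x₂ := by
  have hsum := L.sum
  have hsq := L.sq
  intro h
  have h1 : χ x₁ = -1 / 2 := by linear_combination (1 / 2 : ℂ) * hsum + (1 / 2 : ℂ) * h
  have h2 : χ x₂ = -1 / 2 := by rw [← h]; exact h1
  rw [h1, h2] at hsq
  have h3 : conj (-1 / 2 : ℂ) = -1 / 2 := by
    rw [show (-1 / 2 : ℂ) = ((-1 / 2 : ℝ) : ℂ) by push_cast; ring, Complex.conj_ofReal]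
  rw [h3] at hsq
  have h4 : ((2 * charDegree χ + 1 : ℕ) : ℂ) = 0 := by
    push_cast
    linear_combination (-2 : ℂ) * hsq
  have h5 : 2 * charDegree χ + 1 = 0 := by exact_mod_cast h4
  omega

/-- The pair over `χ` itself: `χ` and its partner `θ'` of type `(η', η)`. -/
theorem pair_chi (hP : StPair.{u}) {G : Type u} [Group G] [Finite G] (p : ℕ) [Fact p.Prime]
    (P : Subgroup G) (χ : G → ℂ) (x₁ x₂ : G) (L : Loc p P χ x₁ x₂) :
    ∃ θ' : IrrCharacter G, θ' ∈ Ov χ ∧ θ'.1 x₁ = χ x₂ ∧ θ'.1 x₂ = χ x₁ ∧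
      charDegree θ'.1 = charDegree χ ∧ (∀ y : G, ¬ p ∣ orderOf y → χ y = θ'.1 y) ∧
      ∀ ψ ∈ Ov χ, ψ.1 ≠ χ → ψ ≠ θ' →
        (ψ.1 x₁ = 0 ∧ ψ.1 x₂ = 0) ∨ (ψ.1 x₁ = 1 ∧ ψ.1 x₂ = 1) ∨
          (ψ.1 x₁ = -1 ∧ ψ.1 x₂ = -1) := by
  have hsum := L.sum
  have hne := loc_ne L
  obtain ⟨ε, θ, θ', hε, hθ, hθ', hθ1, hθ2, hθ'1, hθ'2, hdegs, hagree, hothers, -⟩ :=
    hP p P χ x₁ x₂ L ⟨χ, L.irr⟩
  have hχOv : (⟨χ, L.irr⟩ : IrrCharacter G) ∈ Ov χ := fun z _ => rfl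
  have hχθ : (⟨χ, L.irr⟩ : IrrCharacter G) = θ := by
    by_contra hne1
    by_cases h2 : (⟨χ, L.irr⟩ : IrrCharacter G) = θ'
    · subst h2
      have a1 : χ x₁ = ε * χ x₂ := hθ'1
      rcases hε with h | h
      · rw [h, one_mul] at a1
        exact hne a1
      · rw [h] at a1
        have h0 : χ x₁ + χ x₂ = 0 := by linear_combination a1
        rw [hsum] at h0
        norm_num at h0
    · rcases hothers _ hχOv hne1 h2 with ⟨a, b⟩ | ⟨a, b⟩ | ⟨a, b⟩
      · have a' : χ x₁ = 0 := a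
        have b' : χ x₂ = 0 := b
        rw [a', b'] at hsum
        norm_num at hsum
      · have a' : χ x₁ = 1 := a
        have b' : χ x₂ = 1 := b
        rw [a', b'] at hsum
        norm_num at hsum
      · have a' : χ x₁ = -1 := a
        have b' : χ x₂ = -1 := b
        rw [a', b'] at hsum
        norm_num at hsum
  subst hχθ
  have hε1 : ε = 1 := by
    have a1 : χ x₁ = ε * χ x₁ := hθ1
    have a2 : χ x₂ = ε * χ x₂ := hθ2
    rcases hε with h | h
    · exact h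
    · exfalso
      rw [h] at a1 a2
      have b1 : χ x₁ = 0 := by linear_combination (1 / 2 : ℂ) * a1
      have b2 : χ x₂ = 0 := by linear_combination (1 / 2 : ℂ) * a2
      rw [b1, b2] at hsum
      norm_num at hsum
  rw [hε1, one_mul] at hθ'1 hθ'2
  refine ⟨θ', hθ', hθ'1, hθ'2, hdegs.symm, hagree, ?_⟩
  intro ψ hψ hψχ hψθ'
  exact hothers ψ hψ (fun h => hψχ (by rw [h])) hψθ'

/-- A product `χ · θ` with `θ` trivial on the centre has the central character of `χ`. -/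
theorem mul_central {G : Type u} [Group G] [Finite G] (χ θ : IrrCharacter G)
    (hθ : θ ∈ Ov (1 : G → ℂ)) (z : G) (hz : z ∈ Subgroup.center G) (g : G) :
    χ.1 (z * g) * θ.1 (z * g) * χ.1 1 = χ.1 z * (χ.1 g * θ.1 g) := by
  have hz' : ∀ g : G, g * z = z * g := fun g => Subgroup.mem_center_iff.1 hz g
  obtain ⟨c, hc, -, -⟩ := Cfsg.Agent.H82.irr_central_scalar χ z hz'
  obtain ⟨c', hc', -, -⟩ := Cfsg.Agent.H82.irr_central_scalar θ z hz'
  have h1 := hc 1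
  have h2 := hc' 1
  rw [mul_one] at h1 h2
  have h3 := hθ z hz
  rw [Pi.one_apply, Pi.one_apply, mul_one, one_mul, h2] at h3
  have hθ1 : θ.1 1 ≠ 0 := Cfsg.Agent.H82.irr_one_ne_zero θ
  have hc1 : c' = 1 := by
    have h4 : (c' - 1) * θ.1 1 = 0 := by linear_combination h3
    rcases mul_eq_zero.1 h4 with h | h
    · exact sub_eq_zero.1 h
    · exact absurd h hθ1
  rw [hc g, hc' g, hc1, h1]
  ring

/-- Evaluating a decomposition into irreducible characters at a point. -/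
theorem eval_decomp {G : Type u} [Group G] [Fintype (IrrCharacter G)] (Ξ : G → ℂ)
    (m : IrrCharacter G → ℕ) (hm : Ξ = ∑ᶠ ψ : IrrCharacter G, (m ψ : ℂ) • ψ.1) (g : G) :
    Ξ g = ∑ ψ : IrrCharacter G, (m ψ : ℂ) * ψ.1 g := by
  have h := congrFun hm g
  rw [finsum_eq_sum_of_fintype, Finset.sum_apply] at h
  simpa [Pi.smul_apply, smul_eq_mul] using h

end Cfsg.Agent.H51.Br
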