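import Mathlib
import Cfsg.Agent.H79.BrDefs
import Cfsg.Agent.H82.Irr
import Cfsg.Agent.H4.Irr

/-!
# S4504-PAIR (helper51, for helper79): the two exceptional characters over a central character
-/

set_option autoImplicit false
set_option linter.style.haveILetI false

namespace Cfsg.Agent.H51.Br

open Cfsg Cfsg.Agent.H79.Br
open scoped ComplexConjugate

universe u

/-- **S4504-PAIR**. -/
theorem pair (hO : StOrth.{u}) (hA : StPairArith.{u}) : StPair.{u} := by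
  intro G _ _ p _ P χ x₁ x₂ L χ₀
  classical
  letI : Fintype (IrrCharacter G) := Cfsg.Agent.H4.fintypeIrr G
  letI : Fintype ↥(Ov χ₀.1) := Fintype.ofFinite _
  obtain ⟨hO1, hO2, hO3, hOy⟩ := hO p P (charDegree χ) x₁ x₂ L.grp χ₀
  have hdeg := L.deg
  have hfive := L.five
  have hf2 : 2 ≤ charDegree χ := by omega
  have hsum := L.sum
  have hsq := L.sq
  have hinv : ∀ g : G, χ g⁻¹ = conj (χ g) := fun g => Cfsg.Agent.H82.irr_inv ⟨χ, L.irr⟩ g
  have hcl : ∀ {g h : G}, IsConj g h → χ g = χ h :=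
    fun c => Cfsg.Agent.H82.irr_isConj ⟨χ, L.irr⟩ c
  have hreal : χ x₂ = conj (χ x₁) ∨ (conj (χ x₁) = χ x₁ ∧ conj (χ x₂) = χ x₂) := by
    have hp4 : p % 4 = 1 ∨ p % 4 = 3 := by omega
    rcases hp4 with h | h
    · right
      obtain ⟨c1, c2⟩ := L.grp.par1 h
      exact ⟨by rw [← hinv x₁]; exact hcl c1, by rw [← hinv x₂]; exact hcl c2⟩
    · left
      have c := L.grp.par3 h
      rw [← hinv x₁]
      exact (hcl c).symm
  -- `η ≠ η'`
  have hne : χ x₁ ≠ χ x₂ := by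
    intro h
    have h1 : χ x₁ = -1 / 2 := by linear_combination (1 / 2 : ℂ) * hsum + (1 / 2 : ℂ) * h
    have h2 : χ x₂ = -1 / 2 := by rw [← h]; exact h1
    rw [h1, h2] at hsq
    have h3 : conj (-1 / 2 : ℂ) = -1 / 2 := by
      rw [show (-1 / 2 : ℂ) = ((-1 / 2 : ℝ) : ℂ) by push_cast; ring, Complex.conj_ofReal]
    rw [h3] at hsq
    have h4 : ((2 * charDegree χ + 1 : ℕ) : ℂ) = 0 := by
      push_cast
      linear_combination (-2 : ℂ) * hsq
    have h5 : 2 * charDegree χ + 1 = 0 := by exact_mod_cast h4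
    omega
  -- conversion of the sums
  have conv : ∀ F : IrrCharacter G → ℂ, ∑ i : ↥(Ov χ₀.1), F i.1 = ∑ᶠ ψ ∈ Ov χ₀.1, F ψ := by
    intro F
    rw [← finsum_set_coe_eq_finsum_mem, finsum_eq_sum_of_fintype]
  have key := hA (ι := ↥(Ov χ₀.1)) (charDegree χ) p (χ x₁) (χ x₂)
    (fun i => i.1.1 x₁) (fun i => i.1.1 x₂) Fact.out hdeg hf2 hsum hsq hreal
    (fun i => L.type i.1)
    ((conv (fun ψ => ψ.1 x₁ * conj (ψ.1 x₁))).trans hO1)
    ((conv (fun ψ => ψ.1 x₂ * conj (ψ.1 x₂))).trans hO2)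
    ((conv (fun ψ => ψ.1 x₁ * conj (ψ.1 x₂))).trans hO3)
  obtain ⟨⟨i, hi⟩, huniq, ⟨j, hj⟩, huniq', hcount⟩ := key
  have hi' : ∃ ε : ℂ, (ε = 1 ∨ ε = -1) ∧ i.1.1 x₁ = ε * χ x₁ ∧ i.1.1 x₂ = ε * χ x₂ := by
    rcases hi with ⟨a, b⟩ | ⟨a, b⟩
    · exact ⟨1, Or.inl rfl, by rw [a, one_mul], by rw [b, one_mul]⟩
    · exact ⟨-1, Or.inr rfl, by rw [a]; ring, by rw [b]; ring⟩
  have hj' : ∃ ε' : ℂ, (ε' = 1 ∨ ε' = -1) ∧ j.1.1 x₁ = ε' * χ x₂ ∧ j.1.1 x₂ = ε' * χ x₁ := by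
    rcases hj with ⟨a, b⟩ | ⟨a, b⟩
    · exact ⟨1, Or.inl rfl, by rw [a, one_mul], by rw [b, one_mul]⟩
    · exact ⟨-1, Or.inr rfl, by rw [a]; ring, by rw [b]; ring⟩
  obtain ⟨ε, hε, hi1, hi2⟩ := hi'
  obtain ⟨ε', hε', hj1, hj2⟩ := hj'
  have hε0 : ε ≠ 0 := by
    rcases hε with h | h <;> rw [h] <;> norm_num
  -- `i ≠ j`
  have hij : i ≠ j := by
    intro h
    rw [← h, hi1] at hj1
    rcases hε with h1 | h1 <;> rcases hε' with h2 | h2
    · rw [h1, h2, one_mul, one_mul] at hj1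
      exact hne hj1
    · rw [h1, h2] at hj1
      have : χ x₁ + χ x₂ = 0 := by linear_combination hj1
      rw [hsum] at this
      norm_num at this
    · rw [h1, h2] at hj1
      have : χ x₁ + χ x₂ = 0 := by linear_combination -hj1
      rw [hsum] at this
      norm_num at this
    · rw [h1, h2] at hj1
      exact hne (by linear_combination -hj1)
  -- the other members have equal values at `x₁`, `x₂`
  have hother : ∀ k : ↥(Ov χ₀.1), k ≠ i → k ≠ j →
      (k.1.1 x₁ = 0 ∧ k.1.1 x₂ = 0) ∨ (k.1.1 x₁ = 1 ∧ k.1.1 x₂ = 1) ∨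
        (k.1.1 x₁ = -1 ∧ k.1.1 x₂ = -1) := by
    intro k hki hkj
    rcases L.type k.1 with h | h | h | h | h | h | h
    · exact Or.inl h
    · exact Or.inr (Or.inl h)
    · exact Or.inr (Or.inr h)
    · exact absurd (huniq k i (Or.inl h) hi) hki
    · exact absurd (huniq' k j (Or.inl h) hj) hkj
    · exact absurd (huniq k i (Or.inr h) hi) hki
    · exact absurd (huniq' k j (Or.inr h) hj) hkj
  -- the difference of the two orthogonality relations
  have hD : ∀ y : G, ¬ p ∣ orderOf y → ε * conj (i.1.1 y) = ε' * conj (j.1.1 y) := by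
    intro y hy
    obtain ⟨hy1, hy2⟩ := hOy y hy
    have e1 := (conv (fun ψ => ψ.1 x₁ * conj (ψ.1 y))).trans hy1
    have e2 := (conv (fun ψ => ψ.1 x₂ * conj (ψ.1 y))).trans hy2
    have e3 : ∑ k : ↥(Ov χ₀.1), (k.1.1 x₁ - k.1.1 x₂) * conj (k.1.1 y) = 0 := by
      have : ∀ k : ↥(Ov χ₀.1), (k.1.1 x₁ - k.1.1 x₂) * conj (k.1.1 y) =
          k.1.1 x₁ * conj (k.1.1 y) - k.1.1 x₂ * conj (k.1.1 y) := fun k => sub_mul _ _ _
      rw [Finset.sum_congr rfl (fun k _ => this k), Finset.sum_sub_distrib]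
      rw [show ∑ k : ↥(Ov χ₀.1), k.1.1 x₁ * conj (k.1.1 y) = 0 from e1,
        show ∑ k : ↥(Ov χ₀.1), k.1.1 x₂ * conj (k.1.1 y) = 0 from e2, sub_zero]
    rw [Fintype.sum_eq_add i j hij] at e3
    · rw [hi1, hi2, hj1, hj2] at e3
      have h0 : (χ x₁ - χ x₂) * (ε * conj (i.1.1 y) - ε' * conj (j.1.1 y)) = 0 := by
        linear_combination e3
      rcases mul_eq_zero.1 h0 with h | h
      · exact absurd (sub_eq_zero.1 h) hne
      · exact sub_eq_zero.1 h
    · intro k hk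
      rcases hother k hk.1 hk.2 with ⟨a, b⟩ | ⟨a, b⟩ | ⟨a, b⟩ <;> rw [a, b, sub_self, zero_mul]
  -- `y = 1`: same sign and same degree
  have h1reg : ¬ p ∣ orderOf (1 : G) := by
    rw [orderOf_one]
    intro h
    have := Nat.le_of_dvd one_pos h
    omega
  have hd := hD 1 h1reg
  rw [Cfsg.Agent.H82.irr_one_eq_charDegree i.1, Cfsg.Agent.H82.irr_one_eq_charDegree j.1,
    Complex.conj_natCast, Complex.conj_natCast] at hd
  have hpi := Cfsg.Agent.H82.charDegree_pos i.1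
  have hpj := Cfsg.Agent.H82.charDegree_pos j.1
  have hsame : ε = ε' ∧ charDegree i.1.1 = charDegree j.1.1 := by
    rcases hε with h1 | h1 <;> rcases hε' with h2 | h2
    · rw [h1, h2, one_mul, one_mul] at hd
      exact ⟨by rw [h1, h2], by exact_mod_cast hd⟩
    · exfalso
      rw [h1, h2] at hd
      have h4 : ((charDegree i.1.1 + charDegree j.1.1 : ℕ) : ℂ) = 0 := by
        push_cast
        linear_combination hd
      have h5 : charDegree i.1.1 + charDegree j.1.1 = 0 := by exact_mod_cast h4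
      omega
    · exfalso
      rw [h1, h2] at hd
      have h4 : ((charDegree i.1.1 + charDegree j.1.1 : ℕ) : ℂ) = 0 := by
        push_cast
        linear_combination -hd
      have h5 : charDegree i.1.1 + charDegree j.1.1 = 0 := by exact_mod_cast h4
      omega
    · rw [h1, h2] at hd
      refine ⟨by rw [h1, h2], ?_⟩
      have h4 : ((charDegree i.1.1 : ℕ) : ℂ) = ((charDegree j.1.1 : ℕ) : ℂ) := by
        linear_combination -hd
      exact_mod_cast h4
  obtain ⟨hεε, hdegs⟩ := hsame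
  rw [← hεε] at hj1 hj2 hD
  refine ⟨ε, i.1, j.1, hε, i.2, j.2, hi1, hi2, hj1, hj2, hdegs, ?_, ?_, ?_⟩
  · intro y hy
    have h := mul_left_cancel₀ hε0 (hD y hy)
    have h' := congrArg (starRingEnd ℂ) h
    rwa [Complex.conj_conj, Complex.conj_conj] at h'
  · intro ψ hψ hψi hψj
    exact hother ⟨ψ, hψ⟩ (fun h => hψi (congrArg Subtype.val h))
      (fun h => hψj (congrArg Subtype.val h))
  · rw [← hcount]
    exact Nat.card_congr (Equiv.subtypeSubtypeEquivSubtypeInter (fun ψ : IrrCharacter G =>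
      ψ ∈ Ov χ₀.1) (fun ψ : IrrCharacter G => ψ.1 x₁ = 1 ∨ ψ.1 x₁ = -1)).symm

end Cfsg.Agent.H51.Br
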