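import Mathlib
import Cfsg.Agent.H79.BrDefs
import Cfsg.Agent.H51.BrCommon

/-!
# S4504-PRODWA (helper51, for helper79): the constituents of `χ·θ₃`, case `p ≡ 1 (mod 4)`
-/

set_option autoImplicit false
set_option linter.style.haveILetI false

namespace Cfsg.Agent.H51.Br

open Cfsg Cfsg.Agent.H79.Br
open scoped ComplexConjugate

universe u

/-- **S4504-PRODWA**. -/
theorem prodWa (hC : StDecC.{u}) (hP : StPair.{u}) (hZ : StCentConst.{u}) : StProdWa.{u} := by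
  intro G _ _ p _ P χ x₁ x₂ L hp4 θ₃ θ₄ χ' E
  classical
  letI : Fintype (IrrCharacter G) := Cfsg.Agent.H4.fintypeIrr G
  have hsum := L.sum
  have hsq := L.sq
  have hχc : IsCharacter G χ := Cfsg.Agent.H4.isCharacter_of_isIrrCharacter L.irr
  have h1f := char_one_eq_deg hχc
  have hinv : ∀ g : G, χ g⁻¹ = conj (χ g) := fun g => Cfsg.Agent.H82.irr_inv ⟨χ, L.irr⟩ g
  have hcl : ∀ {g h : G}, IsConj g h → χ g = χ h :=
    fun c => Cfsg.Agent.H82.irr_isConj ⟨χ, L.irr⟩ c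
  obtain ⟨c1, c2⟩ := L.grp.par1 hp4
  have hr1 : conj (χ x₁) = χ x₁ := by
    rw [← hinv x₁]
    exact hcl c1
  have hr2 : conj (χ x₂) = χ x₂ := by
    rw [← hinv x₂]
    exact hcl c2
  have hsq' : χ x₁ * χ x₁ + χ x₂ * χ x₂ = (charDegree χ : ℂ) + 1 := by
    rw [hr1, hr2] at hsq
    exact hsq
  have hne := loc_ne L
  obtain ⟨θ', hθ'ov, hθ'1, hθ'2, hθ'deg, hθ'agree, hothers⟩ := pair_chi hP p P χ x₁ x₂ L
  -- `χ' = θ'`
  have hχ'ne : χ'.1 ≠ χ := by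
    intro h2
    have h3 := E.v'₁
    rw [h2] at h3
    exact hne h3
  have hχ'θ' : χ' = θ' := by
    by_contra h
    have v1 := E.v'₁
    have v2 := E.v'₂
    rcases hothers χ' E.ov' hχ'ne h with ⟨a, b⟩ | ⟨a, b⟩ | ⟨a, b⟩
    · rw [v1] at a
      rw [v2] at b
      rw [a, b] at hsum
      norm_num at hsum
    · rw [v1] at a
      rw [v2] at b
      rw [a, b] at hsum
      norm_num at hsum
    · rw [v1] at a
      rw [v2] at b
      rw [a, b] at hsum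
      norm_num at hsum
  subst hχ'θ'
  have hχχ' : (⟨χ, L.irr⟩ : IrrCharacter G) ≠ χ' := fun h => hχ'ne (by rw [← h])
  -- the character `Ξ = χ · θ₃`
  have hΞc : IsCharacter G (fun g => χ g * θ₃.1 g) :=
    Cfsg.Agent.H4.isCharacter_mul hχc (Cfsg.Agent.H4.isCharacter_of_isIrrCharacter θ₃.2)
  obtain ⟨m, hm⟩ := Cfsg.Agent.H4.isCharacter_iff.1 hΞc
  have hev := eval_decomp _ m hm
  have hc0 : χ 1 * θ₃.1 1 + (charDegree χ : ℂ) * (χ x₁ * θ₃.1 x₁) +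
      (charDegree χ : ℂ) * (χ x₂ * θ₃.1 x₂) = 0 := by
    rw [E.v₃₁, E.v₃₂, h1f, Cfsg.Agent.H82.irr_one_eq_charDegree θ₃, E.deg₃]
    push_cast
    linear_combination (-(charDegree χ : ℂ)) * hsq'
  have htypes := hC p P χ x₁ x₂ L m _ hm hc0
  have hcentral : ∀ z ∈ Subgroup.center G, ∀ g : G,
      (fun g => χ g * θ₃.1 g) (z * g) * (⟨χ, L.irr⟩ : IrrCharacter G).1 1 =
        (⟨χ, L.irr⟩ : IrrCharacter G).1 z * (fun g => χ g * θ₃.1 g) g :=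
    fun z hz g => mul_central ⟨χ, L.irr⟩ θ₃ E.ov₃ z hz g
  have hov : ∀ ψ : IrrCharacter G, m ψ ≠ 0 → ψ ∈ Ov χ :=
    fun ψ hψ => hZ ⟨χ, L.irr⟩ m _ hm hcentral ψ hψ
  refine ⟨m, hm, ?_, ?_⟩
  · intro χI hχI
    obtain rfl : χI = ⟨χ, L.irr⟩ := Subtype.ext hχI
    have e1 := hev x₁
    have e2 := hev x₂
    have e3 : ∑ ψ : IrrCharacter G, (m ψ : ℂ) * (ψ.1 x₁ - ψ.1 x₂) =
        χ x₁ * θ₃.1 x₁ - χ x₂ * θ₃.1 x₂ := by
      rw [show χ x₁ * θ₃.1 x₁ = ∑ ψ : IrrCharacter G, (m ψ : ℂ) * ψ.1 x₁ from e1,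
        show χ x₂ * θ₃.1 x₂ = ∑ ψ : IrrCharacter G, (m ψ : ℂ) * ψ.1 x₂ from e2,
        ← Finset.sum_sub_distrib]
      exact Finset.sum_congr rfl fun ψ _ => mul_sub _ _ _
    rw [Fintype.sum_eq_add (⟨χ, L.irr⟩ : IrrCharacter G) χ' hχχ'] at e3
    · rw [E.v'₁, E.v'₂, E.v₃₁, E.v₃₂] at e3
      have e3' : (m ⟨χ, L.irr⟩ : ℂ) * (χ x₁ - χ x₂) + (m χ' : ℂ) * (χ x₂ - χ x₁) =
          χ x₁ * -χ x₁ - χ x₂ * -χ x₂ := e3
      have h0 : (χ x₁ - χ x₂) * ((m ⟨χ, L.irr⟩ : ℂ) - (m χ' : ℂ) - 1) = 0 := by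
        linear_combination e3' - (χ x₁ - χ x₂) * hsum
      rcases mul_eq_zero.1 h0 with h | h
      · exact absurd (sub_eq_zero.1 h) hne
      · have h5 : (m ⟨χ, L.irr⟩ : ℂ) = ((m χ' + 1 : ℕ) : ℂ) := by
          push_cast
          linear_combination h
        exact_mod_cast h5
    · intro ψ hψ
      by_cases hmψ : m ψ = 0
      · rw [hmψ]
        simp
      · have hψχ : ψ.1 ≠ χ := fun h => hψ.1 (Subtype.ext h)
        rcases hothers ψ (hov ψ hmψ) hψχ hψ.2 with ⟨a, b⟩ | ⟨a, b⟩ | ⟨a, b⟩ <;>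
          rw [a, b, sub_self, mul_zero]
  · intro ψ hmψ hψχ hψχ'
    have ho := hothers ψ (hov ψ hmψ) hψχ hψχ'
    rcases htypes ψ hmψ with ⟨a, b, d⟩ | ⟨t, -⟩
    · exact ⟨⟨hov ψ hmψ, a, b⟩, d⟩
    · exfalso
      have hs : ψ.1 x₁ + ψ.1 x₂ = -1 := by
        rcases t with ⟨a, b⟩ | ⟨a, b⟩
        · rw [a, b]
          exact hsum
        · rw [a, b, add_comm]
          exact hsum
      rcases ho with ⟨a, b⟩ | ⟨a, b⟩ | ⟨a, b⟩ <;> rw [a, b] at hs <;> norm_num at hs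

end Cfsg.Agent.H51.Br
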