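import Mathlib
import Cfsg.Agent.H79.BrDefs
import Cfsg.Agent.H51.BrCommon

/-!
# S4504-PRODWB (helper51, for helper79): the constituents of `χ·θ₄`, case `p ≡ 1 (mod 4)`
-/

set_option autoImplicit false
set_option linter.style.haveILetI false

namespace Cfsg.Agent.H51.Br

open Cfsg Cfsg.Agent.H79.Br
open scoped ComplexConjugate

universe u

/-- **S4504-PRODWB**. -/
theorem prodWb (hL : StDecL.{u}) (hP : StPair.{u}) (hZ : StCentConst.{u}) : StProdWb.{u} := by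
  intro G _ _ p _ P χ x₁ x₂ L hp4 θ₃ θ₄ χ' E
  classical
  letI : Fintype (IrrCharacter G) := Cfsg.Agent.H4.fintypeIrr G
  letI : Fintype G := Fintype.ofFinite G
  have hsum := L.sum
  have hsq := L.sq
  have hχc : IsCharacter G χ := Cfsg.Agent.H4.isCharacter_of_isIrrCharacter L.irr
  have h1f := char_one_eq_deg hχc
  have hinv : ∀ g : G, χ g⁻¹ = conj (χ g) := fun g => Cfsg.Agent.H82.irr_inv ⟨χ, L.irr⟩ g
  have hcl : ∀ {g h : G}, IsConj g h → χ g = χ h :=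
    fun c => Cfsg.Agent.H82.irr_isConj ⟨χ, L.irr⟩ c
  obtain ⟨c1, c2⟩ := L.grp.par1 hp4
  have hr1 : conj (χ x₁) = χ x₁ := by
    rw [← hinv x₁]
    exact hcl c1
  have hr2 : conj (χ x₂) = χ x₂ := by
    rw [← hinv x₂]
    exact hcl c2
  have hsq' : χ x₁ * χ x₁ + χ x₂ * χ x₂ = (charDegree χ : ℂ) + 1 := by
    rw [hr1, hr2] at hsq
    exact hsq
  have hprod2 : 2 * (χ x₁ * χ x₂) = -(charDegree χ : ℂ) := by
    linear_combination (χ x₁ + χ x₂ - 1) * hsum - hsq'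
  obtain ⟨θ', hθ'ov, hθ'1, hθ'2, hθ'deg, hθ'agree, hothers⟩ := pair_chi hP p P χ x₁ x₂ L
  -- the character `Ξ = χ · θ₄`
  have hΞc : IsCharacter G (fun g => χ g * θ₄.1 g) :=
    Cfsg.Agent.H4.isCharacter_mul hχc (Cfsg.Agent.H4.isCharacter_of_isIrrCharacter θ₄.2)
  obtain ⟨m, hm⟩ := Cfsg.Agent.H4.isCharacter_iff.1 hΞc
  obtain ⟨triv, htriv⟩ := exists_triv G
  -- the trivial character is not a constituent
  have hχbar : IsIrrCharacter G (fun g => conj (χ g)) := Cfsg.Agent.H4.isIrrCharacter_conj L.irr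
  have hθ₄ne : θ₄ ≠ ⟨fun g => conj (χ g), hχbar⟩ := by
    intro h
    have hd := E.deg₄
    rw [h] at hd
    have hd' : charDegree (fun g => conj (χ g)) = charDegree χ + 1 := hd
    have hd'' : charDegree (fun g => conj (χ g)) = charDegree χ := by
      show ⌊(conj (χ 1)).re⌋₊ = ⌊(χ 1).re⌋₊
      rw [Complex.conj_re]
    omega
  have hmt : m triv = 0 := by
    have h1 : classInner (∑ᶠ ψ : IrrCharacter G, (m ψ : ℂ) • ψ.1) triv.1 = (m triv : ℂ) :=
      Cfsg.Agent.H4.classInner_finsum_irr (fun ψ => (m ψ : ℂ)) triv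
    rw [← hm] at h1
    have h2 := Cfsg.Agent.H4.irr_inner_ne hθ₄ne
    unfold classInner at h1 h2
    have h3 : (m triv : ℂ) = 0 := by
      rw [← h1, ← h2]
      congr 1
      refine Finset.sum_congr rfl fun g _ => ?_
      rw [htriv]
      show χ g * θ₄.1 g * conj ((1 : G → ℂ) g) = θ₄.1 g * conj (conj (χ g))
      rw [Pi.one_apply, map_one, mul_one, Complex.conj_conj, mul_comm]
    exact_mod_cast h3
  have hL0 : ((charDegree χ : ℂ) + 1) * (χ x₁ * θ₄.1 x₁ + χ x₂ * θ₄.1 x₂) - χ 1 * θ₄.1 1 =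
      (p : ℂ) * (m triv : ℂ) := by
    rw [hmt, E.v₄₁, E.v₄₂, h1f, Cfsg.Agent.H82.irr_one_eq_charDegree θ₄, E.deg₄]
    push_cast
    linear_combination (-((charDegree χ : ℂ) + 1)) * hprod2
  have htypes := hL p P χ x₁ x₂ L m _ hm triv htriv hL0
  have hcentral : ∀ z ∈ Subgroup.center G, ∀ g : G,
      (fun g => χ g * θ₄.1 g) (z * g) * (⟨χ, L.irr⟩ : IrrCharacter G).1 1 =
        (⟨χ, L.irr⟩ : IrrCharacter G).1 z * (fun g => χ g * θ₄.1 g) g :=
    fun z hz g => mul_central ⟨χ, L.irr⟩ θ₄ E.ov₄ z hz g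
  have hov : ∀ ψ : IrrCharacter G, m ψ ≠ 0 → ψ ∈ Ov χ :=
    fun ψ hψ => hZ ⟨χ, L.irr⟩ m _ hm hcentral ψ hψ
  refine ⟨m, hm, ?_⟩
  intro ψ hmψ
  have hψt : ψ ≠ triv := fun h => hmψ (by rw [h]; exact hmt)
  have hψov := hov ψ hmψ
  rcases htypes ψ hmψ hψt with ⟨a, b, d⟩ | ⟨t, -⟩
  · refine ⟨⟨hψov, a, b, ?_⟩, d⟩
    intro h1
    exact hψt (Subtype.ext (h1.trans htriv.symm))
  · exfalso
    have hs : ψ.1 x₁ + ψ.1 x₂ = 1 := by
      rcases t with ⟨a, b⟩ | ⟨a, b⟩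
      · rw [a, b]
        linear_combination -hsum
      · rw [a, b]
        linear_combination -hsum
    by_cases h1 : ψ.1 = χ
    · rw [h1, hsum] at hs
      norm_num at hs
    · by_cases h2 : ψ = θ'
      · rw [h2, hθ'1, hθ'2, add_comm, hsum] at hs
        norm_num at hs
      · rcases hothers ψ hψov h1 h2 with ⟨a, b⟩ | ⟨a, b⟩ | ⟨a, b⟩ <;> rw [a, b] at hs <;>
          norm_num at hs

end Cfsg.Agent.H51.Br
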