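import Mathlib
import Cfsg.Agent.H95.FHDefs

/-!
# S1142-DIH (helper51, for helper95): a finite group generated by two distinct involutions
-/

set_option autoImplicit false

namespace Cfsg.Agent.H51.FH

open Cfsg.Agent.H95.FH

universe u

section AltMonoid

variable {R : Type*} [Monoid R]

theorem dih_alt_succ (x y : R) (k : ℕ) : alt x y (k + 1) = x * alt y x k := rfl

theorem dih_alt_one (x y : R) : alt x y 1 = x := by
  rw [dih_alt_succ]
  exact mul_one x

theorem dih_alt_add (x y : R) (m j : ℕ) :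
    alt x y (m + j) = alt x y m * (if Even m then alt x y j else alt y x j) := by
  induction m generalizing x y with
  | zero =>
    rw [Nat.zero_add, if_pos Even.zero]
    exact (one_mul _).symm
  | succ m ih =>
    have h : m + 1 + j = (m + j) + 1 := by ring
    rw [h, dih_alt_succ, ih y x, dih_alt_succ]
    by_cases hm : Even m
    · have hm1 : ¬ Even (m + 1) := by
        rw [Nat.even_add_one]
        exact not_not.mpr hm
      rw [if_pos hm, if_neg hm1, mul_assoc]
    · have hm1 : Even (m + 1) := by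
        rw [Nat.even_add_one]
        exact hm
      rw [if_neg hm, if_pos hm1, mul_assoc]

theorem dih_alt_two_mul (x y : R) (j : ℕ) :
    alt x y (2 * j) = (x * y) ^ j ∧ alt x y (2 * j + 1) = (x * y) ^ j * x := by
  induction j with
  | zero =>
    refine ⟨by simp [alt], ?_⟩
    rw [Nat.mul_zero, Nat.zero_add, dih_alt_one, pow_zero, one_mul]
  | succ j ih =>
    have h1 : 2 * (j + 1) = 2 * j + 1 + 1 := by ring
    have h2 : 2 * (j + 1) + 1 = (2 * j + 1) + 1 + 1 := by ring
    constructor
    · rw [h1, dih_alt_succ, dih_alt_succ, ih.1, pow_succ']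
      simp only [mul_assoc]
    · rw [h2, dih_alt_succ, dih_alt_succ, ih.2, pow_succ']
      simp only [mul_assoc]

end AltMonoid

section AltGroup

variable {G : Type*} [Group G]

theorem dih_alt_inv (x y : G) (hx : x * x = 1) (hy : y * y = 1) (m : ℕ) :
    (alt x y m)⁻¹ = if Even m then alt y x m else alt x y m := by
  induction m with
  | zero =>
    rw [if_pos Even.zero]
    simp [alt]
  | succ m ih =>
    have hadd := dih_alt_add x y m 1
    by_cases hm : Even m
    · have hm1 : ¬ Even (m + 1) := by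
        rw [Nat.even_add_one]
        exact not_not.mpr hm
      rw [if_pos hm, dih_alt_one] at hadd
      rw [if_pos hm] at ih
      rw [if_neg hm1]
      calc (alt x y (m + 1))⁻¹ = (alt x y m * x)⁻¹ := by rw [hadd]
        _ = x * alt y x m := by rw [mul_inv_rev, ih, inv_eq_of_mul_eq_one_left hx]
        _ = alt x y (m + 1) := rfl
    · have hm1 : Even (m + 1) := by
        rw [Nat.even_add_one]
        exact hm
      rw [if_neg hm, dih_alt_one] at hadd
      rw [if_neg hm] at ih
      rw [if_pos hm1]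
      calc (alt x y (m + 1))⁻¹ = (alt x y m * y)⁻¹ := by rw [hadd]
        _ = y * alt x y m := by rw [mul_inv_rev, ih, inv_eq_of_mul_eq_one_left hy]
        _ = alt y x (m + 1) := rfl

theorem dih_alt_inv_mul (x y : G) (hx : x * x = 1) (hy : y * y = 1) (m k : ℕ) :
    (alt y x m)⁻¹ * alt x y k = if Even m then alt x y (m + k) else alt y x (m + k) := by
  rw [dih_alt_inv y x hy hx m]
  by_cases hm : Even m
  · rw [if_pos hm, if_pos hm, dih_alt_add x y m k, if_pos hm]
  · rw [if_neg hm, if_neg hm, dih_alt_add y x m k, if_neg hm]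

/-- Distinctness of alternating words of different lengths, from "no short alternating word is
trivial". -/
theorem dih_dist (x y : G) (hx : x * x = 1) (hy : y * y = 1) (n : ℕ)
    (hK : ∀ j, 1 ≤ j → j < 2 * n → alt x y j ≠ 1 ∧ alt y x j ≠ 1) (m k : ℕ) (hmk : m < k)
    (hkn : k ≤ n) : alt x y k ≠ alt x y m ∧ alt x y k ≠ alt y x m := by
  constructor
  · intro h
    obtain ⟨d, rfl⟩ := Nat.exists_eq_add_of_lt hmk
    have hadd := dih_alt_add x y m (d + 1)
    rw [← Nat.add_assoc] at hadd
    rw [hadd] at h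
    have hZ : (if Even m then alt x y (d + 1) else alt y x (d + 1)) = 1 :=
      mul_left_cancel (a := alt x y m) (by rw [mul_one]; exact h)
    have hb := hK (d + 1) (by omega) (by omega)
    by_cases hm : Even m
    · rw [if_pos hm] at hZ
      exact hb.1 hZ
    · rw [if_neg hm] at hZ
      exact hb.2 hZ
  · intro h
    have e := dih_alt_inv_mul x y hx hy m k
    rw [h, inv_mul_cancel] at e
    have hb := hK (m + k) (by omega) (by omega)
    by_cases hm : Even m
    · rw [if_pos hm] at e
      exact hb.1 e.symm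
    · rw [if_neg hm] at e
      exact hb.2 e.symm

variable [Finite G]

/-- The structure facts about two distinct involutions `σ`, `τ` with `ρ = σ τ` of order `n`. -/
theorem dih_core (σ τ ρ : G) (hρ : ρ = σ * τ) (h0 : σ * σ = 1) (h1 : τ * τ = 1) (hne0 : σ ≠ 1)
    (hne1 : τ ≠ 1) (hne : σ ≠ τ) :
    2 ≤ orderOf ρ ∧ τ * σ = ρ⁻¹ ∧ σ ∉ Subgroup.zpowers ρ ∧ τ ∉ Subgroup.zpowers ρ := by
  have hn_pos : 0 < orderOf ρ := orderOf_pos _
  have hρ1 : ρ ≠ 1 := by
    intro h
    apply hne
    rw [hρ] at h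
    have : σ = τ⁻¹ := eq_inv_of_mul_eq_one_left h
    rw [this, inv_eq_of_mul_eq_one_left h1]
  have hn2 : 2 ≤ orderOf ρ := by
    have : orderOf ρ ≠ 1 := fun h => hρ1 (orderOf_eq_one_iff.mp h)
    omega
  have hτσ : τ * σ = ρ⁻¹ := by
    rw [hρ, mul_inv_rev, inv_eq_of_mul_eq_one_left h0, inv_eq_of_mul_eq_one_left h1]
  have hσC : σ ∉ Subgroup.zpowers ρ := by
    intro h
    obtain ⟨j, hj⟩ := Subgroup.mem_zpowers_iff.mp h
    have hcomm : σ * ρ = ρ * σ := by
      calc σ * ρ = ρ ^ j * ρ := by rw [hj]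
        _ = ρ * ρ ^ j := by rw [← zpow_add_one, ← zpow_one_add, add_comm]
        _ = ρ * σ := by rw [hj]
    have e : τ = σ * τ * σ := by
      rw [hρ, ← mul_assoc, h0, one_mul] at hcomm
      exact hcomm
    have h2 : τ * σ = σ * τ := by
      calc τ * σ = σ * τ * σ * σ := by rw [← e]
        _ = σ * τ := by rw [mul_assoc, h0, mul_one]
    have hρ2 : ρ ^ 2 = 1 := by
      rw [pow_two, hρ]
      calc σ * τ * (σ * τ) = σ * (τ * σ) * τ := by group
        _ = σ * (σ * τ) * τ := by rw [h2]
        _ = (σ * σ) * (τ * τ) := by group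
        _ = 1 := by rw [h0, h1, one_mul]
    have hn2' : orderOf ρ = 2 := by
      have h3 := orderOf_dvd_of_pow_eq_one hρ2
      have h4 := Nat.le_of_dvd (by norm_num) h3
      omega
    have hj' : ρ ^ (j % 2) = σ := by
      have h3 := zpow_mod_orderOf ρ j
      rw [hn2', hj] at h3
      exact_mod_cast h3
    rcases Int.emod_two_eq_zero_or_one j with h | h
    · rw [h, zpow_zero] at hj'
      exact hne0 hj'.symm
    · rw [h, zpow_one, hρ] at hj'
      apply hne1
      have : σ * τ = σ * 1 := by rw [mul_one]; exact hj'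
      exact mul_left_cancel this
  refine ⟨hn2, hτσ, hσC, ?_⟩
  intro h
  apply hσC
  have : σ = ρ * τ := by rw [hρ, mul_assoc, h1, mul_one]
  rw [this]
  exact Subgroup.mul_mem _ (Subgroup.mem_zpowers _) h

/-- No nontrivial alternating word of length `< 2n` is trivial. -/
theorem dih_K (σ τ ρ : G) (hρ : ρ = σ * τ) (h0 : σ * σ = 1) (h1 : τ * τ = 1) (hne0 : σ ≠ 1)
    (hne1 : τ ≠ 1) (hne : σ ≠ τ) (j : ℕ) (hj1 : 1 ≤ j) (hj2 : j < 2 * orderOf ρ) :
    alt σ τ j ≠ 1 ∧ alt τ σ j ≠ 1 := by
  obtain ⟨hn2, hτσ, hσC, hτC⟩ := dih_core σ τ ρ hρ h0 h1 hne0 hne1 hne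
  rcases Nat.even_or_odd' j with ⟨i, rfl | rfl⟩
  · have hi1 : i ≠ 0 := by omega
    have hi2 : i < orderOf ρ := by omega
    have hpow : ρ ^ i ≠ 1 := pow_ne_one_of_lt_orderOf hi1 hi2
    constructor
    · rw [(dih_alt_two_mul σ τ i).1, ← hρ]
      exact hpow
    · rw [(dih_alt_two_mul τ σ i).1, hτσ, inv_pow]
      exact inv_ne_one.mpr hpow
  · constructor
    · rw [(dih_alt_two_mul σ τ i).2, ← hρ]
      intro h
      apply hσC
      have : σ = (ρ ^ i)⁻¹ := eq_inv_of_mul_eq_one_right h
      rw [this]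
      exact Subgroup.inv_mem _ (Subgroup.pow_mem _ (Subgroup.mem_zpowers _) i)
    · rw [(dih_alt_two_mul τ σ i).2, hτσ]
      intro h
      apply hτC
      have : τ = ((ρ⁻¹) ^ i)⁻¹ := eq_inv_of_mul_eq_one_right h
      rw [this]
      exact Subgroup.inv_mem _
        (Subgroup.pow_mem _ (Subgroup.inv_mem _ (Subgroup.mem_zpowers _)) i)

/-- The order of a group generated by two distinct involutions. -/
theorem dih_card (σ τ ρ : G) (hρ : ρ = σ * τ) (h0 : σ * σ = 1) (h1 : τ * τ = 1) (hne0 : σ ≠ 1)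
    (hne1 : τ ≠ 1) (hne : σ ≠ τ)
    (hind : ∀ P : G → Prop, P 1 → (∀ w, P w → P (σ * w)) → (∀ w, P w → P (τ * w)) → ∀ w, P w) :
    Nat.card G = 2 * orderOf ρ := by
  obtain ⟨hn2, hτσ, hσC, hτC⟩ := dih_core σ τ ρ hρ h0 h1 hne0 hne1 hne
  have hconj : ∀ c ∈ Subgroup.zpowers ρ, σ * c * σ ∈ Subgroup.zpowers ρ := by
    have hle : Subgroup.zpowers ρ ≤ (Subgroup.zpowers ρ).comap (MulAut.conj σ).toMonoidHom := by
      rw [Subgroup.zpowers_le, Subgroup.mem_comap]
      have : (MulAut.conj σ).toMonoidHom ρ = ρ⁻¹ := by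
        show σ * ρ * σ⁻¹ = ρ⁻¹
        rw [← hτσ, inv_eq_of_mul_eq_one_left h0, hρ, ← mul_assoc, h0, one_mul]
      rw [this]
      exact Subgroup.inv_mem _ (Subgroup.mem_zpowers _)
    intro c hc
    have := hle hc
    rw [Subgroup.mem_comap] at this
    have e : (MulAut.conj σ).toMonoidHom c = σ * c * σ := by
      show σ * c * σ⁻¹ = σ * c * σ
      rw [inv_eq_of_mul_eq_one_left h0]
    rw [e] at this
    exact this
  have hall : ∀ b : G, b ∈ Subgroup.zpowers ρ ∨ b * σ ∈ Subgroup.zpowers ρ := by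
    have hstepσ : ∀ w : G, (w ∈ Subgroup.zpowers ρ ∨ w * σ ∈ Subgroup.zpowers ρ) →
        (σ * w ∈ Subgroup.zpowers ρ ∨ σ * w * σ ∈ Subgroup.zpowers ρ) := by
      intro w hw
      rcases hw with hw | hw
      · right
        exact hconj w hw
      · left
        have := hconj _ hw
        rwa [mul_assoc, mul_assoc, h0, mul_one] at this
    apply hind
    · left
      exact Subgroup.one_mem _
    · exact hstepσ
    · intro w hw
      have hτ : τ * w = σ * (ρ * w) := by
        rw [hρ, ← mul_assoc, ← mul_assoc, h0, one_mul]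
      rw [hτ]
      apply hstepσ
      rcases hw with hw | hw
      · left
        exact Subgroup.mul_mem _ (Subgroup.mem_zpowers _) hw
      · right
        rw [mul_assoc]
        exact Subgroup.mul_mem _ (Subgroup.mem_zpowers _) hw
  have hidx : (Subgroup.zpowers ρ).index = 2 := by
    rw [Subgroup.index_eq_two_iff]
    refine ⟨σ, fun b => ?_⟩
    have hnot : ¬ (b * σ ∈ Subgroup.zpowers ρ ∧ b ∈ Subgroup.zpowers ρ) := by
      rintro ⟨hb1, hb2⟩
      apply hσC
      have := Subgroup.mul_mem _ (Subgroup.inv_mem _ hb2) hb1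
      rwa [inv_mul_cancel_left] at this
    rcases hall b with hb | hb
    · exact Or.inr ⟨hb, fun h => hnot ⟨h, hb⟩⟩
    · exact Or.inl ⟨hb, fun h => hnot ⟨hb, h⟩⟩
  rw [← Subgroup.index_mul_card (Subgroup.zpowers ρ), hidx, Nat.card_zpowers]

end AltGroup

section Final

/-- The alternating list `i, j, i, …` of length `k`. -/
def altList {ι : Type*} : ι → ι → ℕ → List ι
  | _, _, 0 => []
  | i, j, (k + 1) => i :: altList j i k

theorem altList_length {ι : Type*} (i j : ι) (k : ℕ) : (altList i j k).length = k := by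
  induction k generalizing i j with
  | zero => rfl
  | succ k ih =>
    show (i :: altList j i k).length = k + 1
    rw [List.length_cons, ih]

theorem wprod_altList {W : Type*} [Group W] {ι : Type*} (f : ι → W) (i j : ι) (k : ℕ) :
    Cfsg.H8Exch.wprod f (altList i j k) = alt (f i) (f j) k := by
  induction k generalizing i j with
  | zero => rfl
  | succ k ih =>
    show Cfsg.H8Exch.wprod f (i :: altList j i k) = f i * alt (f j) (f i) k
    rw [Cfsg.H8Exch.wprod_cons, ih]

/-- FH-DIH: a finite group generated by two distinct involutions. -/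
theorem dih : DihStmt.{u} := by
  intro W _ _ ι f i₀ i₁ hι h0 h1 hne0 hne1 hne hgen
  have hf2 : ∀ i, f i * f i = 1 := by
    intro i
    rcases hι i with rfl | rfl
    · exact h0
    · exact h1
  obtain ⟨hn2, hτσ, hσC, hτC⟩ := dih_core (f i₀) (f i₁) _ rfl h0 h1 hne0 hne1 hne
  have hK := dih_K (f i₀) (f i₁) _ rfl h0 h1 hne0 hne1 hne
  have hK' : ∀ j, 1 ≤ j → j < 2 * orderOf (f i₀ * f i₁) →
      alt (f i₁) (f i₀) j ≠ 1 ∧ alt (f i₀) (f i₁) j ≠ 1 := fun j a b => (hK j a b).symm
  -- word induction principle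
  have hind : ∀ P : W → Prop, P 1 → (∀ w, P w → P (f i₀ * w)) → (∀ w, P w → P (f i₁ * w)) →
      ∀ w, P w := by
    intro P hP1 hPσ hPτ w
    obtain ⟨l, rfl⟩ := Cfsg.H8Exch.exists_word f hf2 hgen w
    induction l with
    | nil => exact hP1
    | cons i l ih =>
      rw [Cfsg.H8Exch.wprod_cons]
      rcases hι i with rfl | rfl
      · exact hPσ _ ih
      · exact hPτ _ ih
  have hcard := dih_card (f i₀) (f i₁) _ rfl h0 h1 hne0 hne1 hne hind
  -- every word is an alternating word of at most its length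
  have hword : ∀ l : List ι, ∃ m, m ≤ l.length ∧
      (Cfsg.H8Exch.wprod f l = alt (f i₀) (f i₁) m ∨
        Cfsg.H8Exch.wprod f l = alt (f i₁) (f i₀) m) := by
    intro l
    induction l with
    | nil => exact ⟨0, le_rfl, Or.inl rfl⟩
    | cons i l ih =>
      obtain ⟨m, hm, hw⟩ := ih
      rw [Cfsg.H8Exch.wprod_cons, List.length_cons]
      rcases hι i with rfl | rfl
      · rcases hw with hw | hw
        · rw [hw]
          cases m with
          | zero =>
            refine ⟨1, by omega, Or.inl ?_⟩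
            rw [dih_alt_one]
            exact mul_one _
          | succ m' =>
            refine ⟨m', by omega, Or.inr ?_⟩
            rw [dih_alt_succ, ← mul_assoc, h0, one_mul]
        · rw [hw]
          exact ⟨m + 1, by omega, Or.inl rfl⟩
      · rcases hw with hw | hw
        · rw [hw]
          exact ⟨m + 1, by omega, Or.inr rfl⟩
        · rw [hw]
          cases m with
          | zero =>
            refine ⟨1, by omega, Or.inr ?_⟩
            rw [dih_alt_one]
            exact mul_one _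
          | succ m' =>
            refine ⟨m', by omega, Or.inl ?_⟩
            rw [dih_alt_succ, ← mul_assoc, h1, one_mul]
  -- lengths
  have hlen : ∀ (a b : ι), (∀ j, 1 ≤ j → j < 2 * orderOf (f i₀ * f i₁) →
      alt (f a) (f b) j ≠ 1 ∧ alt (f b) (f a) j ≠ 1) → f a * f a = 1 → f b * f b = 1 →
      (∀ l : List ι, ∃ m, m ≤ l.length ∧ (Cfsg.H8Exch.wprod f l = alt (f a) (f b) m ∨
        Cfsg.H8Exch.wprod f l = alt (f b) (f a) m)) →
      ∀ k, k ≤ orderOf (f i₀ * f i₁) → Cfsg.H8Exch.len f (alt (f a) (f b) k) = k := by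
    intro a b hKab ha hb hwordab k hk
    apply le_antisymm
    · have := Cfsg.H8Exch.len_le f (altList a b k)
      rwa [wprod_altList, altList_length] at this
    · by_contra hlt
      push_neg at hlt
      obtain ⟨l, hl1, hl2⟩ := Cfsg.H8Exch.exists_reduced f hf2 hgen (alt (f a) (f b) k)
      obtain ⟨m, hm, hw⟩ := hwordab l
      rw [hl2] at hw
      have hmk : m < k := by omega
      have hd := dih_dist (f a) (f b) ha hb _ hKab m k hmk hk
      rcases hw with hw | hw
      · exact hd.1 hw
      · exact hd.2 hw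
  refine ⟨orderOf (f i₀ * f i₁), hn2, hcard, ?_, ?_, ?_, ?_⟩
  · -- braid relation
    have e := dih_alt_inv_mul (f i₀) (f i₁) h0 h1 (orderOf (f i₀ * f i₁)) (orderOf (f i₀ * f i₁))
    have e1 : alt (f i₀) (f i₁) (orderOf (f i₀ * f i₁) + orderOf (f i₀ * f i₁)) = 1 := by
      rw [← two_mul, (dih_alt_two_mul (f i₀) (f i₁) _).1, pow_orderOf_eq_one]
    have e2 : alt (f i₁) (f i₀) (orderOf (f i₀ * f i₁) + orderOf (f i₀ * f i₁)) = 1 := by
      rw [← two_mul, (dih_alt_two_mul (f i₁) (f i₀) _).1, hτσ, inv_pow, pow_orderOf_eq_one,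
        inv_one]
    rw [e1, e2, ite_self, inv_mul_eq_one] at e
    exact e.symm
  · exact hlen i₀ i₁ hK h0 h1 hword
  · refine hlen i₁ i₀ hK' h1 h0 ?_
    intro l
    obtain ⟨m, hm, hw⟩ := hword l
    exact ⟨m, hm, hw.symm⟩
  · intro k hk1 hkn h
    have e := dih_alt_inv_mul (f i₀) (f i₁) h0 h1 k k
    rw [h, inv_mul_cancel] at e
    have hb := hK (k + k) (by omega) (by omega)
    by_cases hm : Even k
    · rw [if_pos hm] at e
      exact hb.1 e.symm
    · rw [if_neg hm] at e
      exact hb.2 e.symm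

end Final

end Cfsg.Agent.H51.FH
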