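import Mathlib
import Cfsg.Agent.H95.FHDefs

/-!
# S1142-NT2 (helper51, for helper95): `φ(m) ≤ 4 ⇒ m ∈ {1,2,3,4,5,6,8,10,12}`
-/

set_option autoImplicit false

namespace Cfsg.Agent.H51.FH

open Cfsg.Agent.H95.FH

theorem totient_small_aux : ∀ m ∈ Nat.divisors 120, Nat.totient m ≤ 4 →
    m = 1 ∨ m = 2 ∨ m = 3 ∨ m = 4 ∨ m = 5 ∨ m = 6 ∨ m = 8 ∨ m = 10 ∨ m = 12 := by
  decide

theorem dvd_120_of_totient_le (m : ℕ) (hm : 0 < m) (h : Nat.totient m ≤ 4) : m ∣ 120 := by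
  rw [Nat.dvd_iff_prime_pow_dvd_dvd]
  intro p k hp hpk
  rcases Nat.eq_zero_or_pos k with rfl | hk
  · simp
  have h1 : Nat.totient (p ^ k) ∣ Nat.totient m := Nat.totient_dvd_of_dvd hpk
  have h2 : Nat.totient (p ^ k) ≤ 4 :=
    (Nat.le_of_dvd (Nat.totient_pos.mpr hm) h1).trans h
  rw [Nat.totient_prime_pow hp hk] at h2
  have hp2 := hp.two_le
  have hpow : 1 ≤ p ^ (k - 1) := Nat.one_le_pow _ _ hp.pos
  have hp5 : p ≤ 5 := by
    by_contra hlt
    push_neg at hlt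
    have : 5 ≤ p - 1 := by omega
    have : 5 ≤ p ^ (k - 1) * (p - 1) := by nlinarith
    omega
  interval_cases p
  · -- p = 2
    have hk3 : k ≤ 3 := by
      by_contra hlt
      push_neg at hlt
      have : 2 ^ 3 ≤ 2 ^ (k - 1) := Nat.pow_le_pow_right (by norm_num) (by omega)
      omega
    exact (pow_dvd_pow 2 hk3).trans (by norm_num)
  · -- p = 3
    have hk1 : k = 1 := by
      by_contra hne
      have : 3 ^ 1 ≤ 3 ^ (k - 1) := Nat.pow_le_pow_right (by norm_num) (by omega)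
      omega
    subst hk1
    norm_num
  · exact absurd hp (by norm_num)
  · -- p = 5
    have hk1 : k = 1 := by
      by_contra hne
      have : 5 ^ 1 ≤ 5 ^ (k - 1) := Nat.pow_le_pow_right (by norm_num) (by omega)
      omega
    subst hk1
    norm_num

/-- FH-NT2 -/
theorem nt2 : NT2Stmt := by
  intro m hm h
  exact totient_small_aux m (Nat.mem_divisors.mpr ⟨dvd_120_of_totient_le m hm h, by norm_num⟩) h

end Cfsg.Agent.H51.FH
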