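import Mathlib
import Cfsg.Prelude.Def_GeometricClasses

/-!
# S5876-BA (helper51, for helper17): the Clifford assembly, with the three inputs
(B2 Fitting trichotomy, B3 nilpotents vanish, P2 idempotents trivial) as hypotheses
-/

set_option autoImplicit false

namespace Cfsg.Agent.H51.Fp

open Matrix

/-- Clifford assembly with the three inputs as hypotheses: a nontrivial element of a commutative
set `A` normalized by `G` has no nonzero fixed vector. -/
theorem clifford_fpf_of {F : Type*} [Field F] {n : ℕ} (G : Subgroup (GL (Fin n) F))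
    (hB2 : ∀ b : Matrix (Fin n) (Fin n) F, LinearMap.ker (Matrix.toLin' b) = ⊥ ∨ IsNilpotent b ∨
      ∃ e : Matrix (Fin n) (Fin n) F, e * e = e ∧ e ≠ 0 ∧ e ≠ 1 ∧
        ∀ m : Matrix (Fin n) (Fin n) F, m * b = b * m → m * e = e * m)
    (hB3 : ∀ (Z : Set (Matrix (Fin n) (Fin n) F)),
      (∀ x ∈ Z, ∀ y ∈ Z, x * y = y * x) →
      (∀ g ∈ G, ∀ x ∈ Z, (g : Matrix (Fin n) (Fin n) F) * x *
        ((g⁻¹ : GL (Fin n) F) : Matrix (Fin n) (Fin n) F) ∈ Z) →
      ∀ b : Matrix (Fin n) (Fin n) F, b ∈ Z → IsNilpotent b → b = 0)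
    (hP2 : ∀ (Z : Set (Matrix (Fin n) (Fin n) F)),
      (∀ x ∈ Z, ∀ y ∈ Z, x * y = y * x) → (∀ x ∈ Z, ∀ y ∈ Z, x * y ∈ Z) →
      (∀ g ∈ G, ∀ x ∈ Z, (g : Matrix (Fin n) (Fin n) F) * x *
        ((g⁻¹ : GL (Fin n) F) : Matrix (Fin n) (Fin n) F) ∈ Z) →
      ∀ e : Matrix (Fin n) (Fin n) F, e ∈ Z → e * e = e → e = 0 ∨ e = 1)
    (A : Set (GL (Fin n) F))
    (hAcomm : ∀ a ∈ A, ∀ b ∈ A, a * b = b * a)
    (hAnorm : ∀ g ∈ G, ∀ a ∈ A, g * a * g⁻¹ ∈ A)
    (a : GL (Fin n) F) (ha : a ∈ A) (ha1 : a ≠ 1) :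
    Module.End.eigenspace (Matrix.toLin' (a : Matrix (Fin n) (Fin n) F)) 1 = ⊥ := by
  -- the double centralizer of `A`
  obtain ⟨Z, hZ⟩ : ∃ Z : Set (Matrix (Fin n) (Fin n) F), ∀ k, k ∈ Z ↔
      ∀ m : Matrix (Fin n) (Fin n) F,
        (∀ a' ∈ A, m * (a' : Matrix (Fin n) (Fin n) F) = (a' : Matrix (Fin n) (Fin n) F) * m) →
        k * m = m * k :=
    ⟨{k | ∀ m : Matrix (Fin n) (Fin n) F,
        (∀ a' ∈ A, m * (a' : Matrix (Fin n) (Fin n) F) = (a' : Matrix (Fin n) (Fin n) F) * m) →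
        k * m = m * k}, fun _ => Iff.rfl⟩
  have hAmat : ∀ a' ∈ A, ∀ b' ∈ A, (a' : Matrix (Fin n) (Fin n) F) *
      (b' : Matrix (Fin n) (Fin n) F) = (b' : Matrix (Fin n) (Fin n) F) * a' := by
    intro a' ha' b' hb'
    have h := congrArg Units.val (hAcomm a' ha' b' hb')
    rwa [Units.val_mul, Units.val_mul] at h
  have hi : ∀ k ∈ Z, ∀ a' ∈ A, k * (a' : Matrix (Fin n) (Fin n) F) = a' * k := by
    intro k hk a' ha'
    exact (hZ k).1 hk _ (fun b' hb' => hAmat a' ha' b' hb')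
  have hcomm : ∀ x ∈ Z, ∀ y ∈ Z, x * y = y * x := by
    intro x hx y hy
    exact (hZ x).1 hx y (fun a' ha' => hi y hy a' ha')
  have hmul : ∀ x ∈ Z, ∀ y ∈ Z, x * y ∈ Z := by
    intro x hx y hy
    rw [hZ]
    intro m hm
    rw [Matrix.mul_assoc, (hZ y).1 hy m hm, ← Matrix.mul_assoc, (hZ x).1 hx m hm,
      Matrix.mul_assoc]
  have hconj : ∀ g ∈ G, ∀ x ∈ Z, (g : Matrix (Fin n) (Fin n) F) * x *
      ((g⁻¹ : GL (Fin n) F) : Matrix (Fin n) (Fin n) F) ∈ Z := by
    intro g hg x hx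
    rw [hZ]
    intro m hm
    have hgg : (g : Matrix (Fin n) (Fin n) F) *
        ((g⁻¹ : GL (Fin n) F) : Matrix (Fin n) (Fin n) F) = 1 := Units.mul_inv g
    have hgg' : ((g⁻¹ : GL (Fin n) F) : Matrix (Fin n) (Fin n) F) *
        (g : Matrix (Fin n) (Fin n) F) = 1 := Units.inv_mul g
    have hm' : ∀ a' ∈ A, (((g⁻¹ : GL (Fin n) F) : Matrix (Fin n) (Fin n) F) * m *
        (g : Matrix (Fin n) (Fin n) F)) * (a' : Matrix (Fin n) (Fin n) F) =
        (a' : Matrix (Fin n) (Fin n) F) * (((g⁻¹ : GL (Fin n) F) : Matrix (Fin n) (Fin n) F) * m *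
        (g : Matrix (Fin n) (Fin n) F)) := by
      intro a' ha'
      have h1 := hm (g * a' * g⁻¹) (hAnorm g hg a' ha')
      rw [Units.val_mul, Units.val_mul] at h1
      calc ((g⁻¹ : GL (Fin n) F) : Matrix (Fin n) (Fin n) F) * m *
            (g : Matrix (Fin n) (Fin n) F) * (a' : Matrix (Fin n) (Fin n) F)
          = ((g⁻¹ : GL (Fin n) F) : Matrix (Fin n) (Fin n) F) *
              (m * ((g : Matrix (Fin n) (Fin n) F) * (a' : Matrix (Fin n) (Fin n) F) *
                ((g⁻¹ : GL (Fin n) F) : Matrix (Fin n) (Fin n) F))) *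
              (g : Matrix (Fin n) (Fin n) F) := by
            simp only [Matrix.mul_assoc, hgg', Matrix.mul_one]
        _ = ((g⁻¹ : GL (Fin n) F) : Matrix (Fin n) (Fin n) F) *
              (((g : Matrix (Fin n) (Fin n) F) * (a' : Matrix (Fin n) (Fin n) F) *
                ((g⁻¹ : GL (Fin n) F) : Matrix (Fin n) (Fin n) F)) * m) *
              (g : Matrix (Fin n) (Fin n) F) := by rw [h1]
        _ = (a' : Matrix (Fin n) (Fin n) F) *
              (((g⁻¹ : GL (Fin n) F) : Matrix (Fin n) (Fin n) F) * m *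
                (g : Matrix (Fin n) (Fin n) F)) := by
            simp only [← Matrix.mul_assoc, hgg', Matrix.one_mul]
    have h2 := (hZ x).1 hx _ hm'
    calc (g : Matrix (Fin n) (Fin n) F) * x *
          ((g⁻¹ : GL (Fin n) F) : Matrix (Fin n) (Fin n) F) * m
        = (g : Matrix (Fin n) (Fin n) F) *
            (x * (((g⁻¹ : GL (Fin n) F) : Matrix (Fin n) (Fin n) F) * m *
              (g : Matrix (Fin n) (Fin n) F))) *
            ((g⁻¹ : GL (Fin n) F) : Matrix (Fin n) (Fin n) F) := by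
          simp only [Matrix.mul_assoc, hgg, Matrix.mul_one]
      _ = (g : Matrix (Fin n) (Fin n) F) *
            ((((g⁻¹ : GL (Fin n) F) : Matrix (Fin n) (Fin n) F) * m *
              (g : Matrix (Fin n) (Fin n) F)) * x) *
            ((g⁻¹ : GL (Fin n) F) : Matrix (Fin n) (Fin n) F) := by rw [h2]
      _ = m * ((g : Matrix (Fin n) (Fin n) F) * x *
            ((g⁻¹ : GL (Fin n) F) : Matrix (Fin n) (Fin n) F)) := by
          simp only [← Matrix.mul_assoc, hgg, Matrix.one_mul]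
  -- `b = a - 1`
  obtain ⟨b, hb⟩ : ∃ b : Matrix (Fin n) (Fin n) F, b = (a : Matrix (Fin n) (Fin n) F) - 1 :=
    ⟨_, rfl⟩
  have hadm : ∀ m : Matrix (Fin n) (Fin n) F,
      (∀ a' ∈ A, m * (a' : Matrix (Fin n) (Fin n) F) = (a' : Matrix (Fin n) (Fin n) F) * m) →
      m * b = b * m := by
    intro m hm
    rw [hb, Matrix.mul_sub, Matrix.sub_mul, hm a ha, Matrix.mul_one, Matrix.one_mul]
  have hbZ : b ∈ Z := by
    rw [hZ]
    intro m hm
    exact (hadm m hm).symm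
  rcases hB2 b with h1 | h1 | ⟨e, hee, he0, he1, hec⟩
  · rw [Submodule.eq_bot_iff]
    intro v hv
    rw [Module.End.mem_eigenspace_iff, one_smul] at hv
    have hk : v ∈ LinearMap.ker (Matrix.toLin' b) := by
      rw [LinearMap.mem_ker, hb, map_sub, LinearMap.sub_apply, hv, Matrix.toLin'_one]
      simp
    rw [h1] at hk
    exact (Submodule.mem_bot F).1 hk
  · exfalso
    have h0 := hB3 Z hcomm hconj b hbZ h1
    rw [hb] at h0
    exact ha1 (Units.ext (sub_eq_zero.1 h0))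
  · exfalso
    have heZ : e ∈ Z := by
      rw [hZ]
      intro m hm
      exact (hec m (hadm m hm)).symm
    rcases hP2 Z hcomm hmul hconj e heZ hee with h | h
    · exact he0 h
    · exact he1 h

end Cfsg.Agent.H51.Fp
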