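import Mathlib
import Cfsg.Agent.H77.FxDefs
import Cfsg.Agent.H45.IsoSp
import Cfsg.Agent.H42.ElusSpA

/-!
# S5975-CONJ2 (helper51, for helper77)

Two symplectic matrices `x`, `y` with `x * x = -1 = y * y` over a finite field of odd
characteristic are conjugate in the symplectic group.

The characteristic polynomial of such a matrix is `(X ^ 2 + 1) ^ d`:
`charpoly(x)(X) * charpoly(x)(-X) = det (X ^ 2 - x ^ 2) = (X ^ 2 + 1) ^ (2 d)` and
`charpoly(x)(-X) = charpoly(-x) = charpoly(x⁻¹) = charpoly(xᵀ) = charpoly(x)` by symplecticity.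
Then `Cfsg.Agent.H45.sp_conj` with `m = 4`.
-/

set_option autoImplicit false

namespace Cfsg.Agent.H51.Fx

open Polynomial Matrix

universe u

section Charpoly

variable {F : Type u} [Field F] {n : Type} [Fintype n] [DecidableEq n]

/-- `charpoly(A)(-X) = (-1)^|n| * det (X + A)`. -/
theorem charpoly_comp_neg_X (A : Matrix n n F) :
    A.charpoly.comp (-X) =
      (-1) ^ Fintype.card n * (Matrix.scalar n (X : F[X]) + A.map C).det := by
  have h0 : A.charpoly.comp (-X) = ((charmatrix A).map (Polynomial.compRingHom (-X))).det := by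
    exact RingHom.map_det (Polynomial.compRingHom (-X)) (charmatrix A)
  have h2 : (charmatrix A).map (Polynomial.compRingHom (-X)) =
      -(Matrix.scalar n (X : F[X]) + A.map C) := by
    ext i j
    by_cases hij : i = j
    · subst hij
      simp [Matrix.scalar_apply]
      ring
    · simp [Matrix.scalar_apply, hij]
  rw [h0, h2, Matrix.det_neg]

/-- `charpoly(A)(X) * det (X + A) = (X ^ 2 + 1) ^ |n|` when `A * A = -1`. -/
theorem charpoly_mul_det_add (A : Matrix n n F) (hA : A * A = -1) :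
    A.charpoly * (Matrix.scalar n (X : F[X]) + A.map C).det =
      (X ^ 2 + 1) ^ Fintype.card n := by
  have hM : A.map C * A.map C = (-1 : Matrix n n F[X]) := by
    have : (A * A).map (C : F → F[X]) = A.map C * A.map C := Matrix.map_mul
    rw [← this, hA]
    ext i j
    by_cases hij : i = j
    · subst hij; simp
    · simp [hij]
  have hcomm : Matrix.scalar n (X : F[X]) * A.map C = A.map C * Matrix.scalar n (X : F[X]) :=
    (Matrix.scalar_commute (X : F[X]) (fun r => Commute.all _ r) (A.map C)).eq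
  have h3 : charmatrix A * (Matrix.scalar n (X : F[X]) + A.map C) =
      Matrix.scalar n (X ^ 2 + 1 : F[X]) := by
    have hc : charmatrix A = Matrix.scalar n (X : F[X]) - A.map C := rfl
    rw [hc, sub_mul, mul_add, mul_add, hM, hcomm, map_add, map_pow, map_one]
    noncomm_ring
  rw [Matrix.charpoly, ← Matrix.det_mul, h3, Matrix.scalar_apply, Matrix.det_diagonal,
    Finset.prod_const, Finset.card_univ]

/-- The characteristic polynomial of `-A`. -/
theorem charpoly_neg_eq (A : Matrix n n F) :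
    (-A).charpoly = (Matrix.scalar n (X : F[X]) + A.map C).det := by
  rw [Matrix.charpoly]
  congr 1
  ext i j
  by_cases hij : i = j
  · subst hij
    simp [Matrix.scalar_apply]
  · simp [Matrix.scalar_apply, hij]

end Charpoly

section Symp

variable {F : Type u} [Field F] {d : ℕ}

/-- For a symplectic `A` with `A * A = -1`, `-A` is conjugate to `Aᵀ`, so they have the same
characteristic polynomial. -/
theorem charpoly_neg_of_symp (A : Matrix (Fin d ⊕ Fin d) (Fin d ⊕ Fin d) F)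
    (hA : A ∈ Matrix.symplecticGroup (Fin d) F) (hAA : A * A = -1) :
    (-A).charpoly = A.charpoly := by
  have hJ := (SymplecticGroup.mem_iff).1 hA
  -- `A * J * Aᵀ = J`
  have hJJ : Matrix.J (Fin d) F * Matrix.J (Fin d) F = -1 := Matrix.J_squared (Fin d) F
  let Ju : (Matrix (Fin d ⊕ Fin d) (Fin d ⊕ Fin d) F)ˣ :=
    ⟨Matrix.J (Fin d) F, -Matrix.J (Fin d) F, by rw [mul_neg, hJJ, neg_neg],
      by rw [neg_mul, hJJ, neg_neg]⟩
  have h1 : -A = Matrix.J (Fin d) F * Aᵀ * (-Matrix.J (Fin d) F) := by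
    have h2 : (-A) * (A * Matrix.J (Fin d) F * Aᵀ) = Matrix.J (Fin d) F * Aᵀ := by
      rw [← mul_assoc, ← mul_assoc, neg_mul, hAA, neg_neg, one_mul]
    rw [hJ] at h2
    rw [← h2, mul_assoc, mul_neg, hJJ, neg_neg, mul_one]
  have h3 : (Ju.val * Aᵀ * Ju⁻¹.val).charpoly = Aᵀ.charpoly := by
    rw [Matrix.coe_units_inv]
    exact Matrix.charpoly_units_conj Ju Aᵀ
  rw [h1]
  rw [Matrix.charpoly_transpose] at h3
  exact h3

/-- The characteristic polynomial of a symplectic matrix with square `-1`. -/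
theorem charpoly_of_sq_neg_one (h2 : (2 : F) ≠ 0)
    (A : Matrix (Fin d ⊕ Fin d) (Fin d ⊕ Fin d) F)
    (hA : A ∈ Matrix.symplecticGroup (Fin d) F) (hAA : A * A = -1) :
    A.charpoly = (X ^ 2 + 1) ^ d := by
  have hcard : Fintype.card (Fin d ⊕ Fin d) = d + d := by simp
  have h1 := charpoly_mul_det_add A hAA
  rw [← charpoly_neg_eq, charpoly_neg_of_symp A hA hAA, hcard, pow_add] at h1
  rcases mul_self_eq_mul_self_iff.1 h1 with h | h
  · exact h
  · exfalso
    have hm1 : A.charpoly.Monic := Matrix.charpoly_monic A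
    have hm2 : ((X ^ 2 + 1 : F[X]) ^ d).Monic := by
      apply Polynomial.Monic.pow
      simpa using Polynomial.monic_X_pow_add_C (1 : F) (two_ne_zero : (2 : ℕ) ≠ 0)
    have hl : (A.charpoly).leadingCoeff = (-(X ^ 2 + 1 : F[X]) ^ d).leadingCoeff := by rw [h]
    rw [Polynomial.leadingCoeff_neg, hm1.leadingCoeff, hm2.leadingCoeff] at hl
    apply h2
    have : (1 : F) + 1 = 0 := by
      nth_rewrite 1 [hl]
      ring
    rw [← this]
    norm_num

end Symp

/-- **S5975-CONJ2**: symplectic matrices with square `-1` (odd characteristic) are conjugate in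
the symplectic group. -/
theorem conj2 : Cfsg.Agent.H77.Fx.StConj2.{u} := by
  intro F _ _ d h2 x y hx hy hxx hyy
  classical
  obtain ⟨p, hp⟩ := CharP.exists F
  have : CharP F p := hp
  have : Fact p.Prime := ⟨CharP.char_is_prime F p⟩
  have hp2 : ¬ p ∣ 4 := by
    intro h
    have h22 : p ∣ 2 := by
      have : p ∣ 2 * 2 := by simpa using h
      rcases (Nat.Prime.dvd_mul (Fact.out : p.Prime)).1 this with h' | h' <;> exact h'
    apply h2
    have := (CharP.cast_eq_zero_iff F p 2).2 h22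
    simpa using this
  have hxS : (x : Cfsg.Agent.H77.Fx.Mat d F) ∈ Matrix.symplecticGroup (Fin d) F :=
    (Cfsg.Agent.H17.mem_symplecticGroup_iff_form d _).2 ((Cfsg.Agent.H42.mem_spGL_iff' x).1 hx)
  have hyS : (y : Cfsg.Agent.H77.Fx.Mat d F) ∈ Matrix.symplecticGroup (Fin d) F :=
    (Cfsg.Agent.H17.mem_symplecticGroup_iff_form d _).2 ((Cfsg.Agent.H42.mem_spGL_iff' y).1 hy)
  have hx4 : (x : Cfsg.Agent.H77.Fx.Mat d F) ^ 4 = 1 := by
    have : (x : Cfsg.Agent.H77.Fx.Mat d F) ^ 4 =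
        ((x : Cfsg.Agent.H77.Fx.Mat d F) * (x : Cfsg.Agent.H77.Fx.Mat d F)) *
          ((x : Cfsg.Agent.H77.Fx.Mat d F) * (x : Cfsg.Agent.H77.Fx.Mat d F)) := by
      noncomm_ring
    rw [this, hxx]
    simp
  have hy4 : (y : Cfsg.Agent.H77.Fx.Mat d F) ^ 4 = 1 := by
    have : (y : Cfsg.Agent.H77.Fx.Mat d F) ^ 4 =
        ((y : Cfsg.Agent.H77.Fx.Mat d F) * (y : Cfsg.Agent.H77.Fx.Mat d F)) *
          ((y : Cfsg.Agent.H77.Fx.Mat d F) * (y : Cfsg.Agent.H77.Fx.Mat d F)) := by
      noncomm_ring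
    rw [this, hyy]
    simp
  have hc : (y : Cfsg.Agent.H77.Fx.Mat d F).charpoly = (x : Cfsg.Agent.H77.Fx.Mat d F).charpoly := by
    rw [charpoly_of_sq_neg_one h2 _ hyS hyy, charpoly_of_sq_neg_one h2 _ hxS hxx]
  obtain ⟨P, hP, hPc⟩ := Cfsg.Agent.H45.sp_conj p _ _ hyS hxS 4 4 hp2 hy4 hp2 hx4 hc
  -- `P * y = x * P`
  refine ⟨((Cfsg.Agent.H42.spGLEquiv.symm ⟨P, hP⟩ : ↥(Cfsg.spGL d F)) :
    Matrix.GeneralLinearGroup (Fin d ⊕ Fin d) F), Subtype.coe_prop _, ?_⟩
  have hg : (((Cfsg.Agent.H42.spGLEquiv.symm ⟨P, hP⟩ : ↥(Cfsg.spGL d F)) :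
      Matrix.GeneralLinearGroup (Fin d ⊕ Fin d) F) : Cfsg.Agent.H77.Fx.Mat d F) = P := rfl
  rw [mul_assoc, inv_mul_eq_iff_eq_mul]
  apply Units.ext
  rw [Units.val_mul, Units.val_mul, hg]
  exact hPc.symm

example : Cfsg.Agent.H77.Fx.StConj2.{u} := conj2

end Cfsg.Agent.H51.Fx
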