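import Mathlib

set_option autoImplicit false

/-!
# S3779, piece L1b (helper51 for helper66): the associated Lie ring of a filtration

`L` is the quotient of the free abelian group on `ℕ × G` by the relations
`(i, x * y) = (i, x) + (i, y)` (`x y ∈ γ i`), `(i, x) = 0` (`x ∈ γ (i + 1)` or `x ∉ γ i`).
-/

universe u

namespace Cfsg.Agent.H51.HKK

open scoped commutatorElement
open FreeAbelianGroup

noncomputable section

open Classical

variable {G : Type u} [Group G]

/-! ### Commutator identities -/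

theorem comm_mul_left (x x' y : G) : ⁅x * x', y⁆ = ⁅x, ⁅x', y⁆⁆ * ⁅x', y⁆ * ⁅x, y⁆ := by
  simp only [commutatorElement_def]; group

theorem comm_mul_right (x y y' : G) : ⁅x, y * y'⁆ = ⁅x, y⁆ * ⁅y, ⁅x, y'⁆⁆ * ⁅x, y'⁆ := by
  simp only [commutatorElement_def]; group

/-- the hypotheses on the filtration. -/
structure Filt (γ : ℕ → Subgroup G) : Prop where
  anti : ∀ i, γ (i + 1) ≤ γ i
  comm : ∀ i j x y, x ∈ γ i → y ∈ γ j → ⁅x, y⁆ ∈ γ (i + j + 1)

theorem Filt.anti_le {γ : ℕ → Subgroup G} (hF : Filt γ) {i j : ℕ} (h : i ≤ j) : γ j ≤ γ i :=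
  antitone_nat_of_succ_le hF.anti h

/-- the free abelian group on the homogeneous symbols. -/
abbrev FF (G : Type u) := FreeAbelianGroup (ℕ × G)

/-- the relations. -/
def rel (γ : ℕ → Subgroup G) : Set (FF G) :=
  {r | (∃ i x y, x ∈ γ i ∧ y ∈ γ i ∧ r = of (i, x * y) - of (i, x) - of (i, y)) ∨
       (∃ i x, x ∈ γ (i + 1) ∧ r = of (i, x)) ∨ (∃ i x, x ∉ γ i ∧ r = of (i, x))}

/-- the subgroup of relations. -/
def KK (γ : ℕ → Subgroup G) : AddSubgroup (FF G) := AddSubgroup.closure (rel γ)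

/-- the associated graded group. -/
abbrev LL (γ : ℕ → Subgroup G) := FF G ⧸ KK γ

/-- the projection. -/
def pr (γ : ℕ → Subgroup G) : FF G →+ LL γ := QuotientAddGroup.mk' (KK γ)

theorem pr_eq_zero (γ : ℕ → Subgroup G) {a : FF G} : pr γ a = 0 ↔ a ∈ KK γ :=
  QuotientAddGroup.eq_zero_iff a

/-- the class of `x` in degree `i`. -/
def cls (γ : ℕ → Subgroup G) (i : ℕ) (x : G) : LL γ := pr γ (of (i, x))

section cls

variable {γ : ℕ → Subgroup G}

theorem cls_mul {i : ℕ} {x y : G} (hx : x ∈ γ i) (hy : y ∈ γ i) :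
    cls γ i (x * y) = cls γ i x + cls γ i y := by
  have h : of (i, x * y) - of (i, x) - of (i, y) ∈ KK γ :=
    AddSubgroup.subset_closure (Or.inl ⟨i, x, y, hx, hy, rfl⟩)
  rw [← pr_eq_zero, map_sub, map_sub] at h
  unfold cls
  rw [← sub_eq_zero, ← h]
  abel

theorem cls_deep {i : ℕ} {x : G} (hx : x ∈ γ (i + 1)) : cls γ i x = 0 :=
  (pr_eq_zero γ).2 (AddSubgroup.subset_closure (Or.inr (Or.inl ⟨i, x, hx, rfl⟩)))

theorem cls_junk {i : ℕ} {x : G} (hx : x ∉ γ i) : cls γ i x = 0 :=
  (pr_eq_zero γ).2 (AddSubgroup.subset_closure (Or.inr (Or.inr ⟨i, x, hx, rfl⟩)))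

theorem cls_one (i : ℕ) : cls γ i (1 : G) = 0 := by
  have h := cls_mul (γ := γ) (i := i) (one_mem _) (one_mem _)
  rw [mul_one] at h
  exact left_eq_add.1 h

theorem cls_inv {i : ℕ} {x : G} (hx : x ∈ γ i) : cls γ i x⁻¹ = -cls γ i x := by
  have h := cls_mul (γ := γ) hx (inv_mem hx)
  rw [mul_inv_cancel, cls_one] at h
  exact eq_neg_of_add_eq_zero_right h.symm

theorem cls_deep_mul (hF : Filt γ) {i : ℕ} {x z : G} (hx : x ∈ γ i) (hz : z ∈ γ (i + 1)) :
    cls γ i (z * x) = cls γ i x := by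
  rw [cls_mul (hF.anti i hz) hx, cls_deep hz, zero_add]

/-- left additivity of the commutator modulo deeper terms. -/
theorem cls_comm_mul_left (hF : Filt γ) {i j : ℕ} {x x' y : G} (hx : x ∈ γ i) (hx' : x' ∈ γ i)
    (hy : y ∈ γ j) :
    cls γ (i + j + 1) ⁅x * x', y⁆ = cls γ (i + j + 1) ⁅x, y⁆ + cls γ (i + j + 1) ⁅x', y⁆ := by
  have h1 := hF.comm i j x y hx hy
  have h2 := hF.comm i j x' y hx' hy
  have h3 : ⁅x, ⁅x', y⁆⁆ ∈ γ (i + j + 1 + 1) :=
    hF.anti_le (by omega) (hF.comm i (i + j + 1) x _ hx h2)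
  rw [comm_mul_left, cls_mul (mul_mem (hF.anti _ h3) h2) h1, cls_deep_mul hF h2 h3, add_comm]

/-- right additivity of the commutator modulo deeper terms. -/
theorem cls_comm_mul_right (hF : Filt γ) {i j : ℕ} {x y y' : G} (hx : x ∈ γ i) (hy : y ∈ γ j)
    (hy' : y' ∈ γ j) :
    cls γ (i + j + 1) ⁅x, y * y'⁆ = cls γ (i + j + 1) ⁅x, y⁆ + cls γ (i + j + 1) ⁅x, y'⁆ := by
  have h1 := hF.comm i j x y hx hy
  have h2 := hF.comm i j x y' hx hy'
  have h3 : ⁅y, ⁅x, y'⁆⁆ ∈ γ (i + j + 1 + 1) :=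
    hF.anti_le (by omega) (hF.comm j (i + j + 1) y _ hy h2)
  rw [comm_mul_right, cls_mul (mul_mem h1 (hF.anti _ h3)) h2, cls_mul h1 (hF.anti _ h3),
    cls_deep h3, add_zero]

theorem cls_comm_inv_right (hF : Filt γ) {i j : ℕ} {x y : G} (hx : x ∈ γ i) (hy : y ∈ γ j) :
    cls γ (i + j + 1) ⁅x, y⁻¹⁆ = -cls γ (i + j + 1) ⁅x, y⁆ := by
  have h := cls_comm_mul_right hF hx hy (inv_mem hy)
  rw [mul_inv_cancel, commutatorElement_one_right, cls_one] at h
  exact eq_neg_of_add_eq_zero_right h.symm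

end cls

/-! ### The bracket on the free group -/

/-- the bracket on symbols. -/
def br (γ : ℕ → Subgroup G) : FF G →+ FF G →+ FF G :=
  lift (fun p => lift (fun q =>
    if p.2 ∈ γ p.1 ∧ q.2 ∈ γ q.1 then of (p.1 + q.1 + 1, ⁅p.2, q.2⁆) else 0))

theorem br_of_of (γ : ℕ → Subgroup G) (i j : ℕ) (x y : G) :
    br γ (of (i, x)) (of (j, y)) =
      if x ∈ γ i ∧ y ∈ γ j then of (i + j + 1, ⁅x, y⁆) else 0 := by
  unfold br
  rw [lift_apply_of, lift_apply_of]

theorem br_of_left_junk (γ : ℕ → Subgroup G) {i : ℕ} {x : G} (hx : x ∉ γ i) (b : FF G) :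
    br γ (of (i, x)) b = 0 := by
  induction b using FreeAbelianGroup.induction_on with
  | zero => rw [map_zero]
  | of q => rw [br_of_of, if_neg (fun h => hx h.1)]
  | neg q h => rw [map_neg, h, neg_zero]
  | add p q hp hq => rw [map_add, hp, hq, add_zero]

theorem br_of_right_junk (γ : ℕ → Subgroup G) {j : ℕ} {y : G} (hy : y ∉ γ j) (a : FF G) :
    br γ a (of (j, y)) = 0 := by
  induction a using FreeAbelianGroup.induction_on with
  | zero => rw [map_zero, AddMonoidHom.zero_apply]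
  | of p => rw [br_of_of, if_neg (fun h => hy h.2)]
  | neg p h => rw [map_neg, AddMonoidHom.neg_apply, h, neg_zero]
  | add p q hp hq => rw [map_add, AddMonoidHom.add_apply, hp, hq, add_zero]

theorem pr_br_of_of (γ : ℕ → Subgroup G) {i j : ℕ} {x y : G} (hx : x ∈ γ i) (hy : y ∈ γ j) :
    pr γ (br γ (of (i, x)) (of (j, y))) = cls γ (i + j + 1) ⁅x, y⁆ := by
  rw [br_of_of, if_pos ⟨hx, hy⟩]
  rfl

/-! ### The bracket respects the relations -/

theorem pr_br_rel_of {γ : ℕ → Subgroup G} (hF : Filt γ) (r : FF G) (hr : r ∈ rel γ) (j : ℕ)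
    (y : G) : pr γ (br γ r (of (j, y))) = 0 := by
  by_cases hy : y ∈ γ j
  · rcases hr with ⟨i, x, x', hx, hx', rfl⟩ | ⟨i, x, hx, rfl⟩ | ⟨i, x, hx, rfl⟩
    · rw [map_sub, map_sub, AddMonoidHom.sub_apply, AddMonoidHom.sub_apply, map_sub, map_sub,
        pr_br_of_of γ (mul_mem hx hx') hy, pr_br_of_of γ hx hy, pr_br_of_of γ hx' hy,
        cls_comm_mul_left hF hx hx' hy]
      abel
    · rw [pr_br_of_of γ (hF.anti i hx) hy]
      exact cls_deep (hF.anti_le (by omega) (hF.comm (i + 1) j x y hx hy))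
    · rw [br_of_left_junk γ hx, map_zero]
  · rw [br_of_right_junk γ hy, map_zero]

theorem pr_br_K_of {γ : ℕ → Subgroup G} (hF : Filt γ) (k : FF G) (hk : k ∈ KK γ) (j : ℕ)
    (y : G) : pr γ (br γ k (of (j, y))) = 0 := by
  have h : KK γ ≤ ((pr γ).comp ((br γ).flip (of (j, y)))).ker :=
    (AddSubgroup.closure_le _).2 (fun r hr => pr_br_rel_of hF r hr j y)
  exact h hk

/-- the bracket kills the relations in the first argument. -/
theorem pr_br_K_left {γ : ℕ → Subgroup G} (hF : Filt γ) (k : FF G) (hk : k ∈ KK γ) (b : FF G) :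
    pr γ (br γ k b) = 0 := by
  induction b using FreeAbelianGroup.induction_on with
  | zero => rw [map_zero, map_zero]
  | of q => exact pr_br_K_of hF k hk q.1 q.2
  | neg q h => rw [map_neg, map_neg, h, neg_zero]
  | add p q hp hq => rw [map_add, map_add, hp, hq, add_zero]

/-- antisymmetry modulo the relations. -/
theorem pr_br_antisymm {γ : ℕ → Subgroup G} (hF : Filt γ) (a b : FF G) :
    pr γ (br γ a b) + pr γ (br γ b a) = 0 := by
  have e : ∀ s t u v : LL γ, s + t + (u + v) = (s + u) + (t + v) := fun s t u v => by abel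
  induction a using FreeAbelianGroup.induction_on with
  | zero => simp only [map_zero, AddMonoidHom.zero_apply, add_zero]
  | of p =>
    induction b using FreeAbelianGroup.induction_on with
    | zero => simp only [map_zero, AddMonoidHom.zero_apply, add_zero]
    | of q =>
      obtain ⟨i, x⟩ := p
      obtain ⟨j, y⟩ := q
      by_cases hx : x ∈ γ i
      · by_cases hy : y ∈ γ j
        · rw [pr_br_of_of γ hx hy, pr_br_of_of γ hy hx, ← commutatorElement_inv x y,
            cls_inv (hF.anti_le (by omega) (hF.comm i j x y hx hy)), Nat.add_comm j i,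
            add_neg_cancel]
        · rw [br_of_right_junk γ hy, br_of_left_junk γ hy, map_zero, add_zero]
      · rw [br_of_right_junk γ hx, br_of_left_junk γ hx, map_zero, add_zero]
    | neg q h =>
      simp only [map_neg, AddMonoidHom.neg_apply]
      rw [← neg_add, h, neg_zero]
    | add q q' hq hq' =>
      simp only [map_add, AddMonoidHom.add_apply]
      rw [e, hq, hq', add_zero]
  | neg p h =>
    simp only [map_neg, AddMonoidHom.neg_apply]
    rw [← neg_add, h, neg_zero]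
  | add p p' hp hp' =>
    simp only [map_add, AddMonoidHom.add_apply]
    rw [e, hp, hp', add_zero]

/-- the bracket kills the relations in the second argument. -/
theorem pr_br_K_right {γ : ℕ → Subgroup G} (hF : Filt γ) (k : FF G) (hk : k ∈ KK γ) (a : FF G) :
    pr γ (br γ a k) = 0 := by
  have h := pr_br_antisymm hF a k
  rw [pr_br_K_left hF k hk a, add_zero] at h
  exact h

/-- the bracket vanishes on the diagonal modulo the relations. -/
theorem pr_br_self {γ : ℕ → Subgroup G} (hF : Filt γ) (a : FF G) : pr γ (br γ a a) = 0 := by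
  induction a using FreeAbelianGroup.induction_on with
  | zero => simp only [map_zero, AddMonoidHom.zero_apply]
  | of p =>
    obtain ⟨i, x⟩ := p
    by_cases hx : x ∈ γ i
    · rw [pr_br_of_of γ hx hx, commutatorElement_self, cls_one]
    · rw [br_of_left_junk γ hx, map_zero]
  | neg p h =>
    simp only [map_neg, AddMonoidHom.neg_apply, neg_neg]
    exact h
  | add p q hp hq =>
    simp only [map_add, AddMonoidHom.add_apply]
    rw [hp, hq, zero_add, add_zero, add_comm]
    exact pr_br_antisymm hF p q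

/-! ### The Leibniz identity -/

/-- the Jacobi hypothesis. -/
def Jac (γ : ℕ → Subgroup G) : Prop :=
  ∀ i j k x y z, x ∈ γ i → y ∈ γ j → z ∈ γ k →
    ⁅⁅x, y⁆, z⁆ * ⁅⁅y, z⁆, x⁆ * ⁅⁅z, x⁆, y⁆ ∈ γ (i + j + k + 3)

theorem leib_gen {γ : ℕ → Subgroup G} (hF : Filt γ) (hJ : Jac γ) (i j k : ℕ) (x y z : G) :
    pr γ (br γ (of (i, x)) (br γ (of (j, y)) (of (k, z)))) =
      pr γ (br γ (br γ (of (i, x)) (of (j, y))) (of (k, z))) +
        pr γ (br γ (of (j, y)) (br γ (of (i, x)) (of (k, z)))) := by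
  by_cases hx : x ∈ γ i
  · by_cases hy : y ∈ γ j
    · by_cases hz : z ∈ γ k
      · have hyz := hF.comm j k y z hy hz
        have hxy := hF.comm i j x y hx hy
        have hxz := hF.comm i k x z hx hz
        rw [br_of_of γ j k, if_pos ⟨hy, hz⟩, br_of_of γ i j, if_pos ⟨hx, hy⟩, br_of_of γ i k,
          if_pos ⟨hx, hz⟩, pr_br_of_of γ hx hyz, pr_br_of_of γ hxy hz, pr_br_of_of γ hy hxz]
        have e1 : i + (j + k + 1) + 1 = i + j + k + 2 := by omega
        have e2 : i + j + 1 + k + 1 = i + j + k + 2 := by omega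
        have e3 : j + (i + k + 1) + 1 = i + j + k + 2 := by omega
        have m1 : ⁅x, ⁅y, z⁆⁆ ∈ γ (i + j + k + 2) := by
          have := hF.comm i (j + k + 1) x _ hx hyz
          rwa [e1] at this
        have m2 : ⁅⁅x, y⁆, z⁆ ∈ γ (i + j + k + 2) := by
          have := hF.comm (i + j + 1) k _ z hxy hz
          rwa [e2] at this
        have m3' : ⁅y, ⁅x, z⁆⁻¹⁆ ∈ γ (i + j + k + 2) := by
          have := hF.comm j (i + k + 1) y _ hy (inv_mem hxz)
          rwa [e3] at this
        have c0 : cls γ (i + j + k + 2) (⁅⁅x, y⁆, z⁆ * ⁅⁅y, z⁆, x⁆ * ⁅⁅z, x⁆, y⁆) = 0 :=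
          cls_deep (hJ i j k x y z hx hy hz)
        have t2 : ⁅⁅y, z⁆, x⁆ = ⁅x, ⁅y, z⁆⁆⁻¹ := (commutatorElement_inv _ _).symm
        have t3 : ⁅⁅z, x⁆, y⁆ = ⁅y, ⁅x, z⁆⁻¹⁆⁻¹ := by
          rw [commutatorElement_inv x z, commutatorElement_inv]
        have c1 := cls_comm_inv_right hF hy hxz
        rw [e3] at c1
        rw [t2, t3, cls_mul (mul_mem m2 (inv_mem m1)) (inv_mem m3'), cls_mul m2 (inv_mem m1),
          cls_inv m1, cls_inv m3', c1, neg_neg] at c0
        have e4 : ∀ X A B : LL γ, X - (A + B) = -(A + -X + B) := fun X A B => by abel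
        rw [e1, e2, e3, ← sub_eq_zero, e4, c0, neg_zero]
      · simp only [br_of_right_junk γ hz, map_zero, AddMonoidHom.zero_apply, add_zero]
    · simp only [br_of_left_junk γ hy, br_of_right_junk γ hy, map_zero, AddMonoidHom.zero_apply,
        add_zero]
  · simp only [br_of_left_junk γ hx, map_zero, AddMonoidHom.zero_apply, add_zero]

theorem leib {γ : ℕ → Subgroup G} (hF : Filt γ) (hJ : Jac γ) (a b c : FF G) :
    pr γ (br γ a (br γ b c)) = pr γ (br γ (br γ a b) c) + pr γ (br γ b (br γ a c)) := by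
  induction a using FreeAbelianGroup.induction_on with
  | zero => simp only [map_zero, AddMonoidHom.zero_apply, add_zero]
  | of p =>
    induction b using FreeAbelianGroup.induction_on with
    | zero => simp only [map_zero, AddMonoidHom.zero_apply, add_zero]
    | of q =>
      induction c using FreeAbelianGroup.induction_on with
      | zero => simp only [map_zero, AddMonoidHom.zero_apply, add_zero]
      | of r => exact leib_gen hF hJ p.1 q.1 r.1 p.2 q.2 r.2
      | neg r h =>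
        simp only [map_neg, AddMonoidHom.neg_apply]
        rw [h, neg_add]
      | add r r' h h' =>
        simp only [map_add, AddMonoidHom.add_apply]
        rw [h, h']
        abel
    | neg q h =>
      simp only [map_neg, AddMonoidHom.neg_apply]
      rw [h, neg_add]
    | add q q' h h' =>
      simp only [map_add, AddMonoidHom.add_apply]
      rw [h, h']
      abel
  | neg p h =>
    simp only [map_neg, AddMonoidHom.neg_apply]
    rw [h, neg_add]
  | add p p' h h' =>
    simp only [map_add, AddMonoidHom.add_apply]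
    rw [h, h']
    abel

/-! ### The Lie ring -/

/-- the bracket on the quotient. -/
def brk {γ : ℕ → Subgroup G} (hF : Filt γ) (p q : LL γ) : LL γ :=
  Quotient.liftOn₂' p q (fun a b => pr γ (br γ a b)) (by
    intro a₁ a₂ b₁ b₂ h1 h2
    have h1' : -a₁ + b₁ ∈ KK γ := QuotientAddGroup.leftRel_apply.1 h1
    have h2' : -a₂ + b₂ ∈ KK γ := QuotientAddGroup.leftRel_apply.1 h2
    have e1 := pr_br_K_left hF _ h1' b₂
    have e2 := pr_br_K_right hF _ h2' a₁
    simp only [map_add, map_neg, AddMonoidHom.add_apply, AddMonoidHom.neg_apply] at e1 e2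
    show pr γ (br γ a₁ a₂) = pr γ (br γ b₁ b₂)
    rw [neg_add_eq_zero.1 e2, neg_add_eq_zero.1 e1])

theorem brk_mk {γ : ℕ → Subgroup G} (hF : Filt γ) (a b : FF G) :
    brk hF (pr γ a) (pr γ b) = pr γ (br γ a b) := rfl

/-- the Lie ring structure. -/
def lieRingLL {γ : ℕ → Subgroup G} (hF : Filt γ) (hJ : Jac γ) : LieRing (LL γ) where
  toAddCommGroup := inferInstance
  bracket := brk hF
  add_lie := by
    intro x y z
    induction x using QuotientAddGroup.induction_on with | _ a => ?_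
    induction y using QuotientAddGroup.induction_on with | _ b => ?_
    induction z using QuotientAddGroup.induction_on with | _ c => ?_
    show brk hF (pr γ a + pr γ b) (pr γ c) = brk hF (pr γ a) (pr γ c) + brk hF (pr γ b) (pr γ c)
    rw [← map_add, brk_mk, brk_mk, brk_mk, map_add, AddMonoidHom.add_apply, map_add]
  lie_add := by
    intro x y z
    induction x using QuotientAddGroup.induction_on with | _ a => ?_
    induction y using QuotientAddGroup.induction_on with | _ b => ?_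
    induction z using QuotientAddGroup.induction_on with | _ c => ?_
    show brk hF (pr γ a) (pr γ b + pr γ c) = brk hF (pr γ a) (pr γ b) + brk hF (pr γ a) (pr γ c)
    rw [← map_add, brk_mk, brk_mk, brk_mk, map_add, map_add]
  lie_self := by
    intro x
    induction x using QuotientAddGroup.induction_on with | _ a => ?_
    show brk hF (pr γ a) (pr γ a) = 0
    rw [brk_mk]
    exact pr_br_self hF a
  leibniz_lie := by
    intro x y z
    induction x using QuotientAddGroup.induction_on with | _ a => ?_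
    induction y using QuotientAddGroup.induction_on with | _ b => ?_
    induction z using QuotientAddGroup.induction_on with | _ c => ?_
    show brk hF (pr γ a) (brk hF (pr γ b) (pr γ c)) =
      brk hF (brk hF (pr γ a) (pr γ b)) (pr γ c) + brk hF (pr γ b) (brk hF (pr γ a) (pr γ c))
    rw [brk_mk, brk_mk, brk_mk, brk_mk, brk_mk, brk_mk]
    exact leib hF hJ a b c


/-! ### Faithfulness -/

theorem faithful {γ : ℕ → Subgroup G} (hF : Filt γ) (i : ℕ) (x : G) (hx : x ∈ γ i)
    (h : of (i, x) ∈ KK γ) : x ∈ γ (i + 1) := by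
  set N : Subgroup ↥(γ i) := (γ (i + 1)).subgroupOf (γ i) with hN
  have hNn : N.Normal := by
    constructor
    intro n hn g
    rw [hN, Subgroup.mem_subgroupOf] at hn ⊢
    have h1 : ((g * n * g⁻¹ : ↥(γ i)) : G) = ⁅(g : G), (n : G)⁆ * (n : G) := by
      simp only [Subgroup.coe_mul, Subgroup.coe_inv, commutatorElement_def]; group
    rw [h1]
    exact mul_mem (hF.anti_le (by omega) (hF.comm i (i + 1) _ _ g.2 hn)) hn
  letI : Group (↥(γ i) ⧸ N) := QuotientGroup.Quotient.group N
  have hcomm : ∀ a b : ↥(γ i) ⧸ N, a * b = b * a := by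
    intro a b
    induction a using QuotientGroup.induction_on with | _ a => ?_
    induction b using QuotientGroup.induction_on with | _ b => ?_
    rw [← QuotientGroup.mk_mul, ← QuotientGroup.mk_mul]
    apply QuotientGroup.eq.2
    rw [hN, Subgroup.mem_subgroupOf]
    have h1 : (((a * b)⁻¹ * (b * a) : ↥(γ i)) : G) = ⁅(b : G)⁻¹, (a : G)⁻¹⁆ := by
      simp only [Subgroup.coe_mul, Subgroup.coe_inv, commutatorElement_def]; group
    rw [h1]
    exact hF.anti_le (by omega) (hF.comm i i _ _ (inv_mem b.2) (inv_mem a.2))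
  letI : CommGroup (↥(γ i) ⧸ N) := { (inferInstance : Group (↥(γ i) ⧸ N)) with mul_comm := hcomm }
  let ψ : FF G →+ Additive (↥(γ i) ⧸ N) :=
    lift (fun p => if hp : p.1 = i ∧ p.2 ∈ γ i then
      Additive.ofMul (QuotientGroup.mk (⟨p.2, hp.2⟩ : ↥(γ i))) else 0)
  have hψ : ∀ (j : ℕ) (y : G), ψ (of (j, y)) = if hp : j = i ∧ y ∈ γ i then
      Additive.ofMul (QuotientGroup.mk (⟨y, hp.2⟩ : ↥(γ i))) else 0 := by
    intro j y
    exact lift_apply_of _ _
  have hker : KK γ ≤ ψ.ker := by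
    unfold KK
    rw [AddSubgroup.closure_le]
    intro r hr
    rw [SetLike.mem_coe, AddMonoidHom.mem_ker]
    rcases hr with ⟨j, a, b, ha, hb, rfl⟩ | ⟨j, a, ha, rfl⟩ | ⟨j, a, ha, rfl⟩
    · rw [map_sub, map_sub, hψ, hψ, hψ]
      by_cases hj : j = i
      · subst hj
        rw [dif_pos ⟨rfl, mul_mem ha hb⟩, dif_pos ⟨rfl, ha⟩, dif_pos ⟨rfl, hb⟩]
        rw [sub_sub, sub_eq_zero, ← ofMul_mul, ← QuotientGroup.mk_mul]
        rfl
      · rw [dif_neg (fun h => hj h.1), dif_neg (fun h => hj h.1), dif_neg (fun h => hj h.1)]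
        simp
    · rw [hψ]
      by_cases hj : j = i
      · subst hj
        rw [dif_pos ⟨rfl, hF.anti _ ha⟩]
        have : (QuotientGroup.mk (⟨a, hF.anti _ ha⟩ : ↥(γ j)) : ↥(γ j) ⧸ N) = 1 := by
          rw [QuotientGroup.eq_one_iff, hN, Subgroup.mem_subgroupOf]
          exact ha
        rw [this]
        rfl
      · rw [dif_neg (fun h => hj h.1)]
    · rw [hψ]
      by_cases hj : j = i
      · subst hj
        rw [dif_neg (fun h => ha h.2)]
      · rw [dif_neg (fun h => hj h.1)]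
  have h0 : ψ (of (i, x)) = 0 := hker h
  rw [hψ, dif_pos ⟨rfl, hx⟩] at h0
  have h1 : (QuotientGroup.mk (⟨x, hx⟩ : ↥(γ i)) : ↥(γ i) ⧸ N) = 1 := h0
  rw [QuotientGroup.eq_one_iff, hN, Subgroup.mem_subgroupOf] at h1
  exact h1

/-! ### Functoriality -/

/-- the map induced on symbols. -/
def phiF (γ : ℕ → Subgroup G) (α : G →* G) : FF G →+ FF G :=
  lift (fun p => if p.2 ∈ γ p.1 then of (p.1, α p.2) else 0)

theorem phiF_of (γ : ℕ → Subgroup G) (α : G →* G) (i : ℕ) (x : G) :
    phiF γ α (of (i, x)) = if x ∈ γ i then of (i, α x) else 0 := by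
  unfold phiF
  rw [lift_apply_of]

theorem phiF_K {γ : ℕ → Subgroup G} (α : G →* G) (hα : ∀ i x, x ∈ γ i → α x ∈ γ i) :
    KK γ ≤ (KK γ).comap (phiF γ α) := by
  unfold KK
  rw [AddSubgroup.closure_le]
  intro r hr
  rw [SetLike.mem_coe, AddSubgroup.mem_comap]
  rcases hr with ⟨j, a, b, ha, hb, rfl⟩ | ⟨j, a, ha, rfl⟩ | ⟨j, a, ha, rfl⟩
  · rw [map_sub, map_sub, phiF_of, phiF_of, phiF_of, if_pos (mul_mem ha hb), if_pos ha, if_pos hb,
      map_mul]
    exact AddSubgroup.subset_closure (Or.inl ⟨j, α a, α b, hα _ _ ha, hα _ _ hb, rfl⟩)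
  · by_cases h : a ∈ γ j
    · rw [phiF_of, if_pos h]
      exact AddSubgroup.subset_closure (Or.inr (Or.inl ⟨j, α a, hα _ _ ha, rfl⟩))
    · rw [phiF_of, if_neg h]
      exact zero_mem _
  · rw [phiF_of, if_neg ha]
    exact zero_mem _

/-- the induced endomorphism. -/
def phiL {γ : ℕ → Subgroup G} (α : G →* G) (hα : ∀ i x, x ∈ γ i → α x ∈ γ i) : LL γ →+ LL γ :=
  QuotientAddGroup.map (KK γ) (KK γ) (phiF γ α) (phiF_K α hα)

theorem phiL_pr {γ : ℕ → Subgroup G} (α : G →* G) (hα : ∀ i x, x ∈ γ i → α x ∈ γ i) (a : FF G) :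
    phiL α hα (pr γ a) = pr γ (phiF γ α a) := rfl

theorem phiF_br {γ : ℕ → Subgroup G} (hF : Filt γ) (α : G →* G)
    (hα : ∀ i x, x ∈ γ i → α x ∈ γ i)
    (a b : FF G) : phiF γ α (br γ a b) = br γ (phiF γ α a) (phiF γ α b) := by
  induction a using FreeAbelianGroup.induction_on with
  | zero => simp only [map_zero, AddMonoidHom.zero_apply]
  | of p =>
    obtain ⟨i, x⟩ := p
    induction b using FreeAbelianGroup.induction_on with
    | zero => simp only [map_zero]
    | of q =>
      obtain ⟨j, y⟩ := q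
      by_cases hx : x ∈ γ i
      · by_cases hy : y ∈ γ j
        · rw [br_of_of, if_pos ⟨hx, hy⟩, phiF_of, phiF_of, phiF_of, if_pos hx, if_pos hy,
            if_pos (hF.comm i j x y hx hy), br_of_of, if_pos ⟨hα _ _ hx, hα _ _ hy⟩,
            map_commutatorElement]
        · rw [br_of_right_junk γ hy, map_zero, phiF_of γ α j y, if_neg hy, map_zero]
      · rw [br_of_left_junk γ hx, map_zero, phiF_of γ α i x, if_neg hx, map_zero,
          AddMonoidHom.zero_apply]
    | neg q h =>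
      simp only [map_neg] at h ⊢
      rw [h]
    | add q q' h h' =>
      simp only [map_add] at h h' ⊢
      rw [h, h']
  | neg p h =>
    simp only [map_neg, AddMonoidHom.neg_apply] at h ⊢
    rw [h]
  | add p p' h h' =>
    simp only [map_add, AddMonoidHom.add_apply] at h h' ⊢
    rw [h, h']

theorem phiL_lie {γ : ℕ → Subgroup G} (hF : Filt γ) (α : G →* G)
    (hα : ∀ i x, x ∈ γ i → α x ∈ γ i) (a b : LL γ) :
    phiL α hα (brk hF a b) = brk hF (phiL α hα a) (phiL α hα b) := by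
  induction a using QuotientAddGroup.induction_on with | _ a => ?_
  induction b using QuotientAddGroup.induction_on with | _ b => ?_
  show phiL α hα (brk hF (pr γ a) (pr γ b)) = brk hF (phiL α hα (pr γ a)) (phiL α hα (pr γ b))
  rw [brk_mk, phiL_pr, phiL_pr, phiL_pr, brk_mk, phiF_br hF α hα]

theorem phiL_cls {γ : ℕ → Subgroup G} (α : G →* G) (hα : ∀ i x, x ∈ γ i → α x ∈ γ i) {i : ℕ}
    {x : G} (hx : x ∈ γ i) : phiL α hα (cls γ i x) = cls γ i (α x) := by
  unfold cls
  rw [phiL_pr, phiF_of, if_pos hx]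

/-! ### Spanning -/

theorem span_cls (γ : ℕ → Subgroup G) (z : LL γ) :
    z ∈ AddSubgroup.closure {w | ∃ i x, x ∈ γ i ∧ w = cls γ i x} := by
  induction z using QuotientAddGroup.induction_on with | _ a => ?_
  show pr γ a ∈ _
  induction a using FreeAbelianGroup.induction_on with
  | zero => rw [map_zero]; exact zero_mem _
  | of p =>
    obtain ⟨i, x⟩ := p
    by_cases hx : x ∈ γ i
    · exact AddSubgroup.subset_closure ⟨i, x, hx, rfl⟩
    · have h : pr γ (of (i, x)) = 0 := cls_junk hx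
      rw [h]
      exact zero_mem _
  | neg p h => rw [map_neg]; exact neg_mem h
  | add p q hp hq => rw [map_add]; exact add_mem hp hq

end

/-- **S3779, piece L1b**: the associated graded Lie ring of a filtration. -/
theorem exists_lieRing_of_filtration {G : Type u} [Group G] (γ : ℕ → Subgroup G)
    (hanti : ∀ i, γ (i + 1) ≤ γ i)
    (hcomm : ∀ i j x y, x ∈ γ i → y ∈ γ j → ⁅x, y⁆ ∈ γ (i + j + 1))
    (hJac : ∀ i j k x y z, x ∈ γ i → y ∈ γ j → z ∈ γ k →
      ⁅⁅x, y⁆, z⁆ * ⁅⁅y, z⁆, x⁆ * ⁅⁅z, x⁆, y⁆ ∈ γ (i + j + k + 3))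
    (α : G →* G) (hα : ∀ i x, x ∈ γ i → α x ∈ γ i) :
    ∃ (L : Type u) (_ : LieRing L) (e : ℕ → G → L) (φ : L →+ L),
      (∀ i x y, x ∈ γ i → y ∈ γ i → e i (x * y) = e i x + e i y) ∧
      (∀ i x, x ∈ γ i → (e i x = 0 ↔ x ∈ γ (i + 1))) ∧
      (∀ i j x y, x ∈ γ i → y ∈ γ j → ⁅e i x, e j y⁆ = e (i + j + 1) ⁅x, y⁆) ∧
      (∀ z : L, z ∈ AddSubgroup.closure {w | ∃ i x, x ∈ γ i ∧ w = e i x}) ∧
      (∀ a b, φ ⁅a, b⁆ = ⁅φ a, φ b⁆) ∧ (∀ i x, x ∈ γ i → φ (e i x) = e i (α x)) := by
  have hF : Filt γ := ⟨hanti, hcomm⟩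
  refine ⟨LL γ, lieRingLL hF hJac, cls γ, phiL α hα, ?_, ?_, ?_, ?_, ?_, ?_⟩
  · intro i x y hx hy
    exact cls_mul hx hy
  · intro i x hx
    exact ⟨fun h => faithful hF i x hx ((pr_eq_zero γ).1 h), cls_deep⟩
  · intro i j x y hx hy
    show brk hF (pr γ (of (i, x))) (pr γ (of (j, y))) = _
    rw [brk_mk]
    exact pr_br_of_of γ hx hy
  · exact span_cls γ
  · intro a b
    exact phiL_lie hF α hα a b
  · intro i x hx
    exact phiL_cls α hα hx

end Cfsg.Agent.H51.HKK
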