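import Cfsg.Agent.H59.JzKillDefs
import Cfsg.Agent.H52.SrMain
import Cfsg.Agent.S2948
import Cfsg.Agent.S2950
import Cfsg.Agent.H63.SnIfV
import Cfsg.Agent.Helper55.J48
import Cfsg.Agent.H51.JzKH1Abs

/-!
# JZ-KILL piece K-CENT (S2951 / S2952): `C_G(u) ≤ N_G(V)` for `1 ≠ u ∈ V = Ω₁Z(O₂(L))`

Route (helper64's (K2)): the `S₃^r` picture of `V` (helper52's `struct`, with `T = S`; its
fixed-point hypothesis follows from `|Ω₁Z(S)| = 2`), the transitivity of each component on the
nontrivial elements of its four-group, S2946 (`Z₀ ∩ W_i ≠ 1`) and the hypothesis that every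
2-local subgroup over `J(S)` lies in `L`.  S2946 enters as the hypothesis `St46` (its first
conjunct), because of the import clash of its closure with the S2950 chain.
-/

set_option autoImplicit false
open Cfsg

namespace Cfsg.Agent.H51.Jk

open Cfsg.Agent.H64.Jz Cfsg.Agent.H59.JzK

universe u

/-- The first conjunct of the statement S2946. -/
def St46 : Prop := ∀ {G : Type u} [Group G] [Finite G], IsCharacteristicTwoType G →
  (∀ N : Subgroup G, IsTwoLocal N → Group.IsSolvable ↥N) →
  (∀ S : Sylow 2 G, Subgroup.centralizer (omegaCenterOf (S : Subgroup G) : Set G) ≤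
      Subgroup.normalizer ((S : Subgroup G) : Set G)) →
  ∀ (T : Subgroup G), IsPGroup 2 ↥T → T ≠ ⊥ → ∀ (K : Subgroup G), IsJComponent T K →
  Nat.card ↥(omegaCenterOf (thompsonSubgroupOf 2 T) ⊓ wOf K) = 2

/-- in a subgroup of order 2 two non-identity elements are equal -/
theorem eq_of_card_two51 {G : Type u} [Group G] (H : Subgroup G) (h : Nat.card ↥H = 2) {a b : G}
    (ha : a ∈ H) (hb : b ∈ H) (ha1 : a ≠ 1) (hb1 : b ≠ 1) : a = b := by
  obtain ⟨y, -, hy⟩ := (Nat.card_eq_two_iff' (1 : ↥H)).mp h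
  have h1 : (⟨a, ha⟩ : ↥H) = y := hy _ (fun h0 => ha1 (congrArg Subtype.val h0))
  have h2 : (⟨b, hb⟩ : ↥H) = y := hy _ (fun h0 => hb1 (congrArg Subtype.val h0))
  exact congrArg Subtype.val (h1.trans h2.symm)

/-- The centralizer of an involution is a 2-local subgroup. -/
theorem centralizer_involution_twoLocal {G : Type u} [Group G] [Finite G] {y : G}
    (hy2 : y * y = 1) (hy1 : y ≠ 1) : IsTwoLocal (Subgroup.centralizer ({y} : Set G)) := by
  haveI : Fact (Nat.Prime 2) := ⟨Nat.prime_two⟩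
  have hord : orderOf y = 2 := orderOf_eq_prime (by rw [pow_two]; exact hy2) hy1
  have hpow : ∀ h ∈ Subgroup.zpowers y, h = 1 ∨ h = y := by
    rintro h ⟨k, rfl⟩
    rcases Int.even_or_odd' k with ⟨m, rfl | rfl⟩
    · left
      show y ^ (2 * m) = 1
      rw [zpow_mul, zpow_ofNat, pow_two, hy2, one_zpow]
    · right
      show y ^ (2 * m + 1) = y
      rw [zpow_add, zpow_mul, zpow_ofNat, pow_two, hy2, one_zpow, one_mul, zpow_one]
  refine ⟨Subgroup.zpowers y, ?_, ?_, ?_⟩
  · exact IsPGroup.of_card (n := 1) (by rw [Nat.card_zpowers, hord, pow_one])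
  · intro h
    apply hy1
    have : y ∈ (⊥ : Subgroup G) := h ▸ Subgroup.mem_zpowers y
    simpa using this
  · ext g
    rw [Subgroup.mem_centralizer_iff, Subgroup.mem_normalizer_iff]
    constructor
    · intro hg h
      have hgy : y * g = g * y := hg y (Set.mem_singleton y)
      have hcomm : ∀ x ∈ Subgroup.zpowers y, g * x * g⁻¹ = x := by
        intro x hx
        rcases hpow x hx with rfl | rfl
        · group
        · rw [← hgy]; group
      constructor
      · intro hh
        rw [hcomm h hh]; exact hh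
      · intro hh
        have h2 : g⁻¹ * (g * h * g⁻¹) * g⁻¹⁻¹ ∈ Subgroup.zpowers y := by
          rcases hpow _ hh with h1 | h1
          · rw [h1]
            have : g⁻¹ * 1 * g⁻¹⁻¹ = 1 := by group
            rw [this]; exact Subgroup.one_mem _
          · rw [h1]
            have : g⁻¹ * y * g⁻¹⁻¹ = y := by
              have e : g⁻¹ * y * g⁻¹⁻¹ = g⁻¹ * (y * g) := by group
              rw [e, hgy]; group
            rw [this]; exact Subgroup.mem_zpowers y
        have e : g⁻¹ * (g * h * g⁻¹) * g⁻¹⁻¹ = h := by group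
        rwa [e] at h2
    · intro hg x hx
      rw [Set.mem_singleton_iff] at hx
      subst hx
      have h1 : g * x * g⁻¹ ∈ Subgroup.zpowers x := (hg x).mp (Subgroup.mem_zpowers x)
      rcases hpow _ h1 with h2 | h2
      · exfalso
        apply hy1
        have : x = g⁻¹ * (g * x * g⁻¹) * g := by group
        rw [this, h2]; group
      · calc x * g = (g * x * g⁻¹) * g := by rw [h2]
          _ = g * x := by group

/-- K-CENT from S2946 (first conjunct) and JZ-Z2. -/
theorem kCent_of (h46 : St46.{u}) (hZ2 : StZ2.{u}) : StKCent.{u} := by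
  intro G _ _ S M K L T' K' L' hR _ha u hu hu1
  haveI : Fact (Nat.Prime 2) := ⟨Nat.prime_two⟩
  obtain ⟨hB, hX, hB', hne⟩ := hR
  have hcardZ : Nat.card ↥(omegaCenterOf (S : Subgroup G)) = 2 := hZ2 S L T' K' L' hB' hne
  obtain ⟨hZN, hO, hM, hMJ, hT, -, hK, hLmax, hKL⟩ := hB
  obtain ⟨hc2, hsolv, hZ⟩ := hZN
  have hS2 : IsPGroup 2 ↥(S : Subgroup G) := S.isPGroup'
  have hSne : (S : Subgroup G) ≠ ⊥ := hT.1.2.1
  have hJle : thompsonSubgroupOf 2 (S : Subgroup G) ≤ (S : Subgroup G) :=
    Subgroup.map_subtype_le _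
  obtain ⟨L₀, hL₀max, hKL₀, huniq, -, hSyl₀⟩ :=
    Cfsg.Agent.S2950.result hc2 hsolv hZ hO S M hM hMJ (S : Subgroup G) hT K hK
  have hLL₀ : L = L₀ := huniq L hLmax hKL
  have hSyl : IsSylowTwoIn (S : Subgroup G) L := by rw [hLL₀]; exact hSyl₀
  have hL2 : IsTwoLocal L := hLmax.1
  have hLM : ¬ L ≤ M := fun h => hK.2.1 ((le_sup_left.trans hKL).trans h)
  have h48 := Cfsg.Agent.S2948.result hc2 hsolv hZ hO S M hM hMJ (S : Subgroup G) hT L hL2 hLM
    (S : Subgroup G) hSyl hJle
  have hLS : L ∈ jOvergroups (S : Subgroup G) := h48.2.2.1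
  have hKc : IsJComponent (S : Subgroup G) K := hK.1.1
  have hKleL : K ≤ L := le_sup_left.trans hKL
  have hQS : pCoreOf 2 L ≤ (S : Subgroup G) :=
    Cfsg.Agent.Helper55.J48.pCoreOf_le_of_sylowIn hSyl
  -- the fixed-point hypothesis of the structure theorem
  have hfix : ∀ v ∈ omegaCenterOf (pCoreOf 2 L),
      v ∈ Subgroup.centralizer ((S : Subgroup G) : Set G) →
      v ∈ Subgroup.centralizer (K : Set G) → v = 1 := by
    intro v hv hvS hvK
    by_contra hv1
    obtain ⟨hvQ, -, hv2⟩ := Cfsg.Agent.H63.Sn.mem_omegaCenterOf _ hv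
    have hvZ : v ∈ omegaCenterOf (S : Subgroup G) :=
      Cfsg.Agent.H63.Sn.omegaCenterOf_mem _ (hQS hvQ) hvS hv2
    have hKC : K ≤ Subgroup.centralizer (omegaCenterOf (S : Subgroup G) : Set G) := by
      intro k hk
      rw [Subgroup.mem_centralizer_iff]
      intro z hz
      by_cases hz1 : z = 1
      · rw [hz1]; simp
      · have hzv : z = v := eq_of_card_two51 _ hcardZ hz hvZ hz1 hv1
        rw [hzv]
        exact ((Subgroup.mem_centralizer_iff.mp hvK) k hk).symm
    have hKN : K ≤ Subgroup.normalizer ((S : Subgroup G) : Set G) := hKC.trans (hZ S)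
    have hKS : K ≤ (S : Subgroup G) := by
      rw [← hKc.2.1, Subgroup.commutator_le]
      intro k hk j hj
      have hjS := hJle hj
      have h1 : k * j * k⁻¹ ∈ (S : Subgroup G) :=
        (Subgroup.mem_normalizer_iff.mp (hKN hk) j).mp hjS
      rw [commutatorElement_def]
      exact mul_mem h1 (inv_mem hjS)
    have hKbot : K = ⊥ := by
      rw [← hKc.1, Subgroup.closure_eq_bot_iff]
      rintro g ⟨hgK, hgo⟩
      obtain ⟨n, hn⟩ := (IsPGroup.iff_orderOf.mp hS2) ⟨g, hKS hgK⟩
      rw [Subgroup.orderOf_mk] at hn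
      have hn0 : n = 0 := by
        rcases n with _ | n
        · rfl
        · exfalso
          rw [hn, pow_succ] at hgo
          obtain ⟨m, hm⟩ := hgo
          omega
      rw [hn0, pow_zero, orderOf_eq_one_iff] at hn
      exact hn
    have h3 := hKc.2.2.1
    rw [hKbot] at h3
    simp at h3
  obtain ⟨hsup, -, hmem, -, hcent, hfixW⟩ :=
    Cfsg.Agent.H52.Sr.struct hc2 hsolv hZ (S : Subgroup G) hS2 hSne L hLS K hKc hKleL hfix
  have hWV : ∀ i : Cfsg.Agent.H52.Sr.Orb (S : Subgroup G) K,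
      wOf i.1 ≤ omegaCenterOf (pCoreOf 2 L) := by
    intro i
    rw [← hsup]
    exact le_iSup (fun i : Cfsg.Agent.H52.Sr.Orb (S : Subgroup G) K => wOf i.1) i
  have hmain := Cfsg.Agent.H51.JzK.kh1_abs
    (ι := Cfsg.Agent.H52.Sr.Orb (S : Subgroup G) K) L
    (omegaCenterOf (thompsonSubgroupOf 2 (S : Subgroup G)))
    (fun i => wOf i.1) (fun i => i.1)
    (fun i => (hmem i).2.2)
    (fun i => (hmem i).2.1)
    (by
      intro i k hk
      have h := Cfsg.Agent.H52.Sr.normG_local hc2 hsolv hZ (S : Subgroup G) hS2 hSne L hLS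
        i.1 i.1 (hmem i).1 (hmem i).2.1 (hmem i).1 (hmem i).2.1 1 L.one_mem
      exact h ⟨k, hk, by simp⟩)
    (fun i => (hmem i).1.1)
    hcent hfixW
    (by
      intro i j a ha b hb
      obtain ⟨-, haC, -⟩ := Cfsg.Agent.H63.Sn.mem_omegaCenterOf _ (hWV i ha)
      obtain ⟨hbQ, -, -⟩ := Cfsg.Agent.H63.Sn.mem_omegaCenterOf _ (hWV j hb)
      exact ((Subgroup.mem_centralizer_iff.mp haC) b hbQ).symm)
    (by
      intro i h
      have h2 := h46 hc2 hsolv hZ (S : Subgroup G) hS2 hSne i.1 (hmem i).1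
      rw [h] at h2
      simp at h2)
    (by
      intro y hy hy1
      obtain ⟨-, hyC, hy2⟩ := Cfsg.Agent.H63.Sn.mem_omegaCenterOf _ hy
      refine hX _ (centralizer_involution_twoLocal (by rw [← pow_two]; exact hy2) hy1) ?_
      intro j hj
      rw [Subgroup.mem_centralizer_iff]
      intro x hx
      rw [Set.mem_singleton_iff] at hx
      subst hx
      exact ((Subgroup.mem_centralizer_iff.mp hyC) j hj).symm)
  have hfin := hmain u (by rw [hsup]; exact hu) hu1
  exact hfin.trans (Cfsg.Agent.H32.Sr.vng L).1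

end Cfsg.Agent.H51.Jk

#print axioms Cfsg.Agent.H51.Jk.kCent_of
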