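import Cfsg.Agent.H51.JkCent
import Cfsg.Agent.H51.JzKConjAbs
import Cfsg.Agent.H34.JkTI

/-!
# JZ-KILL: the conjugation step `StKConj` of helper34's K-TI (S2951 / S2952)

Every `u ∈ V = Ω₁Z(O₂(L))` is `L`-conjugate into `Z₀ = Ω₁Z(J(S))`; same glue as `kCent_of`
(S2946 enters as the hypothesis `St46`).  Also the closed forms of K-TI.
-/

set_option autoImplicit false
set_option linter.unusedVariables false
open Cfsg

namespace Cfsg.Agent.H51.Jk

open Cfsg.Agent.H64.Jz Cfsg.Agent.H59.JzK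

universe u

/-- K-CONJ (helper34's `StKConj`) from S2946 (first conjunct) and JZ-Z2. -/
theorem kConj_of (h46 : St46.{u}) (hZ2 : StZ2.{u}) : Cfsg.Agent.H34.Jk.StKConj.{u} := by
  intro G _ _ S M K L T' K' L' hR u hu
  haveI : Fact (Nat.Prime 2) := ⟨Nat.prime_two⟩
  obtain ⟨hB, hX, hB', hne⟩ := hR
  have hcardZ : Nat.card ↥(omegaCenterOf (S : Subgroup G)) = 2 := hZ2 S L T' K' L' hB' hne
  obtain ⟨hZN, hO, hM, hMJ, hT, -, hK, hLmax, hKL⟩ := hB
  obtain ⟨hc2, hsolv, hZ⟩ := hZN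
  have hS2 : IsPGroup 2 ↥(S : Subgroup G) := S.isPGroup'
  have hSne : (S : Subgroup G) ≠ ⊥ := hT.1.2.1
  have hJle : thompsonSubgroupOf 2 (S : Subgroup G) ≤ (S : Subgroup G) :=
    Subgroup.map_subtype_le _
  obtain ⟨L₀, hL₀max, hKL₀, huniq, -, hSyl₀⟩ :=
    Cfsg.Agent.S2950.result hc2 hsolv hZ hO S M hM hMJ (S : Subgroup G) hT K hK
  have hLL₀ : L = L₀ := huniq L hLmax hKL
  have hSyl : IsSylowTwoIn (S : Subgroup G) L := by rw [hLL₀]; exact hSyl₀
  have hL2 : IsTwoLocal L := hLmax.1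
  have hLM : ¬ L ≤ M := fun h => hK.2.1 ((le_sup_left.trans hKL).trans h)
  have h48 := Cfsg.Agent.S2948.result hc2 hsolv hZ hO S M hM hMJ (S : Subgroup G) hT L hL2 hLM
    (S : Subgroup G) hSyl hJle
  have hLS : L ∈ jOvergroups (S : Subgroup G) := h48.2.2.1
  have hKc : IsJComponent (S : Subgroup G) K := hK.1.1
  have hKleL : K ≤ L := le_sup_left.trans hKL
  have hQS : pCoreOf 2 L ≤ (S : Subgroup G) :=
    Cfsg.Agent.Helper55.J48.pCoreOf_le_of_sylowIn hSyl
  -- the fixed-point hypothesis of the structure theorem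
  have hfix : ∀ v ∈ omegaCenterOf (pCoreOf 2 L),
      v ∈ Subgroup.centralizer ((S : Subgroup G) : Set G) →
      v ∈ Subgroup.centralizer (K : Set G) → v = 1 := by
    intro v hv hvS hvK
    by_contra hv1
    obtain ⟨hvQ, -, hv2⟩ := Cfsg.Agent.H63.Sn.mem_omegaCenterOf _ hv
    have hvZ : v ∈ omegaCenterOf (S : Subgroup G) :=
      Cfsg.Agent.H63.Sn.omegaCenterOf_mem _ (hQS hvQ) hvS hv2
    have hKC : K ≤ Subgroup.centralizer (omegaCenterOf (S : Subgroup G) : Set G) := by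
      intro k hk
      rw [Subgroup.mem_centralizer_iff]
      intro z hz
      by_cases hz1 : z = 1
      · rw [hz1]; simp
      · have hzv : z = v := eq_of_card_two51 _ hcardZ hz hvZ hz1 hv1
        rw [hzv]
        exact ((Subgroup.mem_centralizer_iff.mp hvK) k hk).symm
    have hKN : K ≤ Subgroup.normalizer ((S : Subgroup G) : Set G) := hKC.trans (hZ S)
    have hKS : K ≤ (S : Subgroup G) := by
      rw [← hKc.2.1, Subgroup.commutator_le]
      intro k hk j hj
      have hjS := hJle hj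
      have h1 : k * j * k⁻¹ ∈ (S : Subgroup G) :=
        (Subgroup.mem_normalizer_iff.mp (hKN hk) j).mp hjS
      rw [commutatorElement_def]
      exact mul_mem h1 (inv_mem hjS)
    have hKbot : K = ⊥ := by
      rw [← hKc.1, Subgroup.closure_eq_bot_iff]
      rintro g ⟨hgK, hgo⟩
      obtain ⟨n, hn⟩ := (IsPGroup.iff_orderOf.mp hS2) ⟨g, hKS hgK⟩
      rw [Subgroup.orderOf_mk] at hn
      have hn0 : n = 0 := by
        rcases n with _ | n
        · rfl
        · exfalso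
          rw [hn, pow_succ] at hgo
          obtain ⟨m, hm⟩ := hgo
          omega
      rw [hn0, pow_zero, orderOf_eq_one_iff] at hn
      exact hn
    have h3 := hKc.2.2.1
    rw [hKbot] at h3
    simp at h3
  obtain ⟨hsup, -, hmem, -, hcent, hfixW⟩ :=
    Cfsg.Agent.H52.Sr.struct hc2 hsolv hZ (S : Subgroup G) hS2 hSne L hLS K hKc hKleL hfix
  have hWV : ∀ i : Cfsg.Agent.H52.Sr.Orb (S : Subgroup G) K,
      wOf i.1 ≤ omegaCenterOf (pCoreOf 2 L) := by
    intro i
    rw [← hsup]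
    exact le_iSup (fun i : Cfsg.Agent.H52.Sr.Orb (S : Subgroup G) K => wOf i.1) i
  have hmain := Cfsg.Agent.H51.JzK.kconj_abs
    (ι := Cfsg.Agent.H52.Sr.Orb (S : Subgroup G) K) L
    (omegaCenterOf (thompsonSubgroupOf 2 (S : Subgroup G)))
    (fun i => wOf i.1) (fun i => i.1)
    (fun i => (hmem i).2.2)
    (fun i => (hmem i).2.1)
    (by
      intro i k hk
      have h := Cfsg.Agent.H52.Sr.normG_local hc2 hsolv hZ (S : Subgroup G) hS2 hSne L hLS
        i.1 i.1 (hmem i).1 (hmem i).2.1 (hmem i).1 (hmem i).2.1 1 L.one_mem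
      exact h ⟨k, hk, by simp⟩)
    (fun i => (hmem i).1.1)
    hcent hfixW
    (by
      intro i j a ha b hb
      obtain ⟨-, haC, -⟩ := Cfsg.Agent.H63.Sn.mem_omegaCenterOf _ (hWV i ha)
      obtain ⟨hbQ, -, -⟩ := Cfsg.Agent.H63.Sn.mem_omegaCenterOf _ (hWV j hb)
      exact ((Subgroup.mem_centralizer_iff.mp haC) b hbQ).symm)
    (by
      intro i h
      have h2 := h46 hc2 hsolv hZ (S : Subgroup G) hS2 hSne i.1 (hmem i).1
      rw [h] at h2
      simp at h2)
  exact hmain u (by rw [hsup]; exact hu)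


example (h46 : St46.{u}) (hZ2 : StZ2.{u}) : Cfsg.Agent.H34.Jk.StKConj.{u} := kConj_of h46 hZ2

/-- K-TI from S2946 (first conjunct), JZ-Z2 and K-NV (via helper34's `kTI`). -/
theorem kTI_of (h46 : St46.{u}) (hZ2 : StZ2.{u}) (hNV : StKNV.{u}) : StKTI.{u} :=
  Cfsg.Agent.H34.Jk.kTI (kConj_of h46 hZ2) (kCent_of h46 hZ2) hNV

end Cfsg.Agent.H51.Jk

#print axioms Cfsg.Agent.H51.Jk.kConj_of
#print axioms Cfsg.Agent.H51.Jk.kTI_of
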