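import Mathlib
import Cfsg.Agent.H21.TwoCounts
import Cfsg.Agent.H21.Counting
import Cfsg.Agent.H51.PSL8Basic

/-! Tools for groups with a prescribed set of numbers of elements of each order (helper51):
divisibility by the totient, cyclic Sylow subgroups, free conjugation actions. -/

set_option autoImplicit false

namespace Cfsg.Agent.H51.Nse

open Cfsg.Agent.H21.TwoCounts

variable {G : Type*} [Group G] [Finite G]

theorem exists_of_cnt_ne_zero {k : ℕ} (h : cnt G k ≠ 0) : ∃ g : G, orderOf g = k := by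
  by_contra hcon
  push Not at hcon
  exact h (cnt_eq_zero k hcon)

theorem cnt_orderOf_ne_zero (g : G) : cnt G (orderOf g) ≠ 0 := (cnt_pos g).ne'

theorem cnt_ne_zero_of_dvd {k j : ℕ} (h : cnt G k ≠ 0) (hj : j ∣ k) : cnt G j ≠ 0 := by
  obtain ⟨g, hg⟩ := exists_of_cnt_ne_zero h
  have h2 : orderOf (g ^ (orderOf g / j)) = j :=
    orderOf_pow_orderOf_div (orderOf_pos g).ne' (hg ▸ hj)
  rw [← h2]
  exact cnt_orderOf_ne_zero _

theorem cnt_prime_ne_zero {p : ℕ} (hp : p.Prime) (h : p ∣ Nat.card G) : cnt G p ≠ 0 := by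
  have : Fact p.Prime := ⟨hp⟩
  obtain ⟨g, hg⟩ := exists_prime_orderOf_dvd_card' (G := G) p h
  rw [← hg]
  exact cnt_orderOf_ne_zero g

/-- The number of elements of order `k` is divisible by `φ(k)`. -/
theorem totient_dvd_cnt (k : ℕ) : Nat.totient k ∣ cnt G k := by
  classical
  have := Fintype.ofFinite G
  have h2 : cnt G k = (Finset.univ.filter (fun x : G => orderOf x = k)).card := by
    rw [cnt, Nat.card_eq_fintype_card, Fintype.card_subtype]
  rw [h2]
  have hfib := Finset.card_eq_sum_card_fiberwise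
    (s := Finset.univ.filter (fun x : G => orderOf x = k))
    (t := (Finset.univ.filter (fun x : G => orderOf x = k)).image
      (fun x : G => Subgroup.zpowers x))
    (f := fun x : G => Subgroup.zpowers x) (fun x hx => Finset.mem_image_of_mem _ hx)
  rw [hfib]
  apply Finset.dvd_sum
  intro C hC
  obtain ⟨g0, hg0, rfl⟩ := Finset.mem_image.mp hC
  have hg0k : orderOf g0 = k := (Finset.mem_filter.mp hg0).2
  have hcyc : IsCyclic (Subgroup.zpowers g0) := inferInstance
  have hcard : Fintype.card (Subgroup.zpowers g0) = k := by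
    rw [← Nat.card_eq_fintype_card, Nat.card_zpowers, hg0k]
  have htot := IsCyclic.card_orderOf_eq_totient (α := Subgroup.zpowers g0) (d := k)
    (by rw [hcard])
  rw [← htot]
  apply dvd_of_eq
  refine Finset.card_bij (fun a _ => (a : G)) ?_ ?_ ?_
  · intro a ha
    have hak : orderOf a = k := (Finset.mem_filter.mp ha).2
    have hak' : orderOf (a : G) = k := by rw [Subgroup.orderOf_coe]; exact hak
    rw [Finset.mem_filter, Finset.mem_filter]
    refine ⟨⟨Finset.mem_univ _, hak'⟩, ?_⟩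
    have hle : Subgroup.zpowers (a : G) ≤ Subgroup.zpowers g0 :=
      (Subgroup.zpowers_le).mpr a.2
    exact Subgroup.eq_of_le_of_card_ge hle (by rw [Nat.card_zpowers, Nat.card_zpowers, hak', hg0k])
  · intro a _ b _ hab
    exact Subtype.ext hab
  · intro x hx
    rw [Finset.mem_filter, Finset.mem_filter] at hx
    obtain ⟨⟨-, hxk⟩, hxz⟩ := hx
    have hxmem : x ∈ Subgroup.zpowers g0 := hxz ▸ Subgroup.mem_zpowers x
    refine ⟨⟨x, hxmem⟩, ?_, rfl⟩
    rw [Finset.mem_filter]
    refine ⟨Finset.mem_univ _, ?_⟩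
    rw [← Subgroup.orderOf_coe]
    exact hxk

/-- If all element orders lie in `T`, the group order is the sum of the counts over `T`. -/
theorem card_eq_sum_cnt (T : Finset ℕ) (h : ∀ g : G, orderOf g ∈ T) :
    Nat.card G = ∑ k ∈ T, cnt G k := by
  classical
  haveI := Fintype.ofFinite G
  have h2 : ∀ k, cnt G k = (Finset.univ.filter (fun x : G => orderOf x = k)).card := by
    intro k
    rw [cnt, Nat.card_eq_fintype_card, Fintype.card_subtype]
  rw [Nat.card_eq_fintype_card, ← Finset.card_univ,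
    Finset.card_eq_sum_card_fiberwise (f := fun g : G => orderOf g) (t := T) (fun g _ => h g)]
  exact Finset.sum_congr rfl fun k _ => (h2 k).symm

theorem sum_cnt_le (T : Finset ℕ) : ∑ k ∈ T, cnt G k ≤ Nat.card G :=
  Cfsg.Agent.H21.sum_card_orderOf_le T

/-- The number of solutions of `g ^ p = 1` for a prime `p`. -/
theorem card_pow_prime {p : ℕ} (hp : p.Prime) :
    Nat.card {g : G // g ^ p = 1} = 1 + cnt G p := by
  rw [card_pow_eq_one p hp.ne_zero, hp.divisors, Finset.sum_pair hp.one_lt.ne, cnt_one]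

/-- Frobenius for a prime. -/
theorem frob_prime {p : ℕ} (hp : p.Prime) (h : p ∣ Nat.card G) : p ∣ 1 + cnt G p := by
  have := frob (G := G) p h
  rwa [hp.divisors, Finset.sum_pair hp.one_lt.ne, cnt_one] at this

/-- An element whose order is prime to the index of a normal subgroup lies in it. -/
theorem mem_of_coprime_index (K : Subgroup G) [K.Normal] (g : G)
    (h : Nat.Coprime (orderOf g) K.index) : g ∈ K := by
  have h1 : orderOf (QuotientGroup.mk' K g) ∣ orderOf g := orderOf_map_dvd (QuotientGroup.mk' K) g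
  have h2 : orderOf (QuotientGroup.mk' K g) ∣ K.index := orderOf_dvd_natCard _
  have h3 : orderOf (QuotientGroup.mk' K g) ∣ Nat.gcd (orderOf g) K.index := Nat.dvd_gcd h1 h2
  rw [Nat.Coprime.gcd_eq_one h] at h3
  have h4 := orderOf_eq_one_iff.mp (Nat.dvd_one.mp h3)
  exact (QuotientGroup.eq_one_iff g).mp h4

/-- An element of prime order acting by conjugation on a stable set of size prime to its order
centralises one of its elements. -/
theorem exists_commute_of_not_dvd (q : ℕ) [Fact q.Prime] (y : G) (hy : orderOf y = q) (T : Set G)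
    (hT : ∀ c : G, ∀ v ∈ T, c * v * c⁻¹ ∈ T) (hc : ¬ q ∣ Nat.card T) :
    ∃ w ∈ T, w * y = y * w := by
  have hP : IsPGroup q (Subgroup.zpowers y) :=
    IsPGroup.of_card (n := 1) (by rw [Nat.card_zpowers, hy, pow_one])
  obtain ⟨v, hv, hfix⟩ := PSL8.exists_fixed_of_not_dvd q (Subgroup.zpowers y) hP T
    (fun x _ v hv => hT x v hv) hc
  refine ⟨v, hv, ?_⟩
  have h1 := hfix y (Subgroup.mem_zpowers y)
  calc v * y = (y * v * y⁻¹) * y := by rw [h1]
    _ = y * v := by group

/-- If no element has order `p r`, a Sylow `p`-subgroup acts freely on the elements of order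
`r`. -/
theorem sylow_card_dvd_cnt (p r : ℕ) [Fact p.Prime] (hr : r.Prime) (hpr : p ≠ r) (P : Sylow p G)
    (hno : cnt G (p * r) = 0) : Nat.card (P : Subgroup G) ∣ cnt G r := by
  have hp : p.Prime := Fact.out
  have key := PSL8.card_dvd_of_free (P : Subgroup G) {v : G | orderOf v = r}
    (fun x _ v hv => by
      have hv' : orderOf v = r := hv
      show orderOf (x * v * x⁻¹) = r
      rw [← hv']
      exact (MulAut.conj x).orderOf_eq v)
    (fun x hx v hv hfix => by
      have hv' : orderOf v = r := hv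
      by_contra hx1
      obtain ⟨k, hk⟩ := P.2 ⟨x, hx⟩
      have hk' : x ^ p ^ k = 1 := by
        have := congrArg Subtype.val hk
        simpa using this
      obtain ⟨j, -, hj⟩ := (Nat.dvd_prime_pow hp).mp (orderOf_dvd_of_pow_eq_one hk')
      have hj0 : j ≠ 0 := by
        rintro rfl
        rw [pow_zero] at hj
        exact hx1 (orderOf_eq_one_iff.mp hj)
      have hpd : p ∣ orderOf x := by
        rw [hj]; exact dvd_pow_self p hj0
      have ho : orderOf (x ^ (orderOf x / p)) = p :=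
        orderOf_pow_orderOf_div (orderOf_pos x).ne' hpd
      have hcomm : Commute x v := by
        show x * v = v * x
        calc x * v = (x * v * x⁻¹) * x := by group
          _ = v * x := by rw [hfix]
      have hcomm' : Commute (x ^ (orderOf x / p)) v := hcomm.pow_left _
      have hord : orderOf (x ^ (orderOf x / p) * v) = p * r := by
        rw [hcomm'.orderOf_mul_eq_mul_orderOf_of_coprime
          (by rw [ho, hv']; exact (Nat.coprime_primes hp hr).mpr hpr), ho, hv']
      have := cnt_orderOf_ne_zero (x ^ (orderOf x / p) * v)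
      rw [hord] at this
      exact this hno)
  exact key

/-- Cyclic Sylow subgroups of order `p ^ a`, `a ≥ 2`: there are at least `p` times as many elements
of order `p ^ a` as of order `p ^ (a - 1)`. -/
theorem cyclic_sylow_count (p a : ℕ) [Fact p.Prime] (ha : 2 ≤ a) (P : Sylow p G)
    (hP : Nat.card (P : Subgroup G) = p ^ a) (h : cnt G (p ^ a) ≠ 0) :
    p * cnt G (p ^ (a - 1)) ≤ cnt G (p ^ a) := by
  have hp : p.Prime := Fact.out
  obtain ⟨b, rfl⟩ : ∃ b, a = b + 1 := ⟨a - 1, by omega⟩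
  have hb : 1 ≤ b := by omega
  rw [Nat.add_sub_cancel]
  have hq : p ^ (b + 1) = p * p ^ b := pow_succ' p b
  have hpb : p ∣ p ^ b := dvd_pow_self p (by omega)
  have hqpos : 0 < p ^ b := pow_pos hp.pos b
  -- a generator of a Sylow subgroup
  obtain ⟨w0, hw0⟩ := exists_of_cnt_ne_zero h
  have hcardS : ∀ Q : Sylow p G, Nat.card (Q : Subgroup G) = p ^ (b + 1) := by
    intro Q
    have h1 : Nat.card (Q : Subgroup G) = Nat.card (P : Subgroup G) := by
      rw [Sylow.card_eq_multiplicity, Sylow.card_eq_multiplicity]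
    exact h1.trans hP
  have hpg0 : IsPGroup p (Subgroup.zpowers w0) :=
    IsPGroup.of_card (n := b + 1) (by rw [Nat.card_zpowers, hw0])
  obtain ⟨Q0, hQ0⟩ := hpg0.exists_le_sylow
  have hQ0eq : Subgroup.zpowers w0 = (Q0 : Subgroup G) :=
    Subgroup.eq_of_le_of_card_ge hQ0 (by rw [hcardS, Nat.card_zpowers, hw0])
  -- every element of order `p ^ b` is a `p`-th power of an element of order `p ^ (b + 1)`
  have hroot : ∀ z : G, orderOf z = p ^ b → ∃ g : G, orderOf g = p ^ (b + 1) ∧ g ^ p = z := by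
    intro z hz
    have hpgz : IsPGroup p (Subgroup.zpowers z) :=
      IsPGroup.of_card (n := b) (by rw [Nat.card_zpowers, hz])
    obtain ⟨Q, hQ⟩ := hpgz.exists_le_sylow
    obtain ⟨c, hc⟩ := MulAction.exists_smul_eq G Q Q0
    have hzQ : z ∈ (Q : Subgroup G) := hQ (Subgroup.mem_zpowers z)
    have hz' : c * z * c⁻¹ ∈ Subgroup.zpowers w0 := by
      rw [hQ0eq, ← hc]
      have h1 := Subgroup.smul_mem_pointwise_smul z (MulAut.conj c) (Q : Subgroup G) hzQ
      rw [Sylow.smul_def, Sylow.pointwise_smul_def]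
      simpa [MulAut.smul_def] using h1
    have hz'o : orderOf (c * z * c⁻¹) = p ^ b := by
      rw [← hz]; exact (MulAut.conj c).orderOf_eq z
    obtain ⟨k, hk⟩ := (mem_powers_iff_mem_zpowers.mpr hz')
    have hk' : w0 ^ k = c * z * c⁻¹ := hk
    have hord : orderOf (w0 ^ k) = p ^ b := by rw [hk']; exact hz'o
    rw [orderOf_pow, hw0] at hord
    -- gcd (p^(b+1)) k = p
    have hgpos : 0 < Nat.gcd (p ^ (b + 1)) k := Nat.gcd_pos_of_pos_left _ (pow_pos hp.pos _)
    have hgdvd : Nat.gcd (p ^ (b + 1)) k ∣ p ^ (b + 1) := Nat.gcd_dvd_left _ _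
    have hg : Nat.gcd (p ^ (b + 1)) k = p := by
      have h1 : p ^ (b + 1) / Nat.gcd (p ^ (b + 1)) k * Nat.gcd (p ^ (b + 1)) k = p ^ (b + 1) :=
        Nat.div_mul_cancel hgdvd
      rw [hord] at h1
      have h2 : p ^ b * Nat.gcd (p ^ (b + 1)) k = p ^ b * p := by rw [h1, hq]; ring
      exact Nat.eq_of_mul_eq_mul_left hqpos h2
    have hpk : p ∣ k := hg ▸ Nat.gcd_dvd_right _ _
    obtain ⟨u, hu⟩ := hpk
    have hpu : ¬ p ∣ u := by
      intro hpu
      obtain ⟨u', hu'⟩ := hpu
      have h1 : p * p ∣ Nat.gcd (p ^ (b + 1)) k := by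
        apply Nat.dvd_gcd
        · rw [hq]
          exact Nat.mul_dvd_mul_left p hpb
        · rw [hu, hu']
          exact ⟨u', by ring⟩
      rw [hg] at h1
      have := Nat.le_of_dvd hp.pos h1
      have := hp.two_le
      nlinarith
    have hcop : Nat.Coprime (p ^ (b + 1)) u :=
      Nat.Coprime.pow_left _ ((Nat.Prime.coprime_iff_not_dvd hp).mpr hpu)
    have hordu : orderOf (w0 ^ u) = p ^ (b + 1) := by
      rw [orderOf_pow, hw0, Nat.Coprime.gcd_eq_one hcop, Nat.div_one]
    refine ⟨c⁻¹ * w0 ^ u * c, ?_, ?_⟩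
    · have := (MulAut.conj c⁻¹).orderOf_eq (w0 ^ u)
      rw [MulAut.conj_apply, inv_inv] at this
      rw [this, hordu]
    · have e1 : (c⁻¹ * w0 ^ u * c) ^ p = c⁻¹ * (w0 ^ u) ^ p * c := by
        have := conj_pow (a := c⁻¹) (b := w0 ^ u) (i := p)
        rw [inv_inv] at this
        exact this
      rw [e1, ← pow_mul, mul_comm u p, ← hu, hk']
      group
  choose r hr1 hr2 using hroot
  -- the injection
  have hstep : ∀ (z : G) (hz : orderOf z = p ^ b) (i : ℕ),
      orderOf (r z hz ^ (1 + p ^ b * i)) = p ^ (b + 1) := by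
    intro z hz i
    have hcop : Nat.Coprime (p ^ (b + 1)) (1 + p ^ b * i) := by
      apply Nat.Coprime.pow_left
      rw [Nat.Prime.coprime_iff_not_dvd hp]
      intro hd
      have h1 : p ∣ p ^ b * i := Dvd.dvd.mul_right hpb i
      have h2 : p ∣ 1 := (Nat.dvd_add_left h1).mp hd
      exact hp.one_lt.ne' (Nat.dvd_one.mp h2)
    rw [orderOf_pow, hr1 z hz, Nat.Coprime.gcd_eq_one hcop, Nat.div_one]
  let F : {z : G // orderOf z = p ^ b} × Fin p → {g : G // orderOf g = p ^ (b + 1)} :=
    fun zi => ⟨r zi.1.1 zi.1.2 ^ (1 + p ^ b * (zi.2 : ℕ)), hstep zi.1.1 zi.1.2 zi.2⟩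
  have hpow : ∀ (z : G) (hz : orderOf z = p ^ b) (i : ℕ),
      (r z hz ^ (1 + p ^ b * i)) ^ p = z := by
    intro z hz i
    rw [← pow_mul, mul_comm, pow_mul, hr2 z hz, pow_add, pow_one, pow_mul]
    have : z ^ p ^ b = 1 := by rw [← hz]; exact pow_orderOf_eq_one z
    rw [this, one_pow, mul_one]
  have hF : Function.Injective F := by
    rintro ⟨⟨z, hz⟩, i⟩ ⟨⟨z', hz'⟩, j⟩ hzz
    have h1 : r z hz ^ (1 + p ^ b * (i : ℕ)) = r z' hz' ^ (1 + p ^ b * (j : ℕ)) :=
      congrArg Subtype.val hzz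
    have h2 : z = z' := by
      have := congrArg (fun t : G => t ^ p) h1
      simp only [hpow] at this
      exact this
    subst h2
    have h3 : 1 + p ^ b * (i : ℕ) ≡ 1 + p ^ b * (j : ℕ) [MOD p ^ (b + 1)] := by
      have := (pow_eq_pow_iff_modEq (x := r z hz)).mp h1
      rwa [hr1 z hz] at this
    have h4 : p ^ b * (i : ℕ) ≡ p ^ b * (j : ℕ) [MOD p ^ b * p] := by
      have := Nat.ModEq.add_left_cancel' 1 h3
      rwa [hq, mul_comm p (p ^ b)] at this
    have h5 : (i : ℕ) ≡ (j : ℕ) [MOD p] := Nat.ModEq.mul_left_cancel' hqpos.ne' h4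
    have h6 : (i : ℕ) = j := by
      have := Nat.ModEq.eq_of_lt_of_lt h5 i.2 j.2
      exact this
    have h7 : i = j := Fin.ext h6
    rw [h7]
  have hcard := Nat.card_le_card_of_injective F hF
  rw [Nat.card_prod, Nat.card_fin] at hcard
  have e1 : cnt G (p ^ b) = Nat.card {z : G // orderOf z = p ^ b} := rfl
  have e2 : cnt G (p ^ (b + 1)) = Nat.card {g : G // orderOf g = p ^ (b + 1)} := rfl
  rw [e1, e2, mul_comm]
  exact hcard

/-- A natural number whose prime factors are among `2`, `3`, `5`. -/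
theorem eq_pow_two_three_five {N : ℕ} (hN : N ≠ 0)
    (h : ∀ p, p.Prime → p ∣ N → p = 2 ∨ p = 3 ∨ p = 5) :
    ∃ a b c, N = 2 ^ a * 3 ^ b * 5 ^ c := by
  obtain ⟨a, n1, h2, e1⟩ := Nat.exists_eq_pow_mul_and_not_dvd hN 2 (by norm_num)
  have hn1 : n1 ≠ 0 := by rintro rfl; exact h2 (dvd_zero 2)
  obtain ⟨b, n2, h3, e2⟩ := Nat.exists_eq_pow_mul_and_not_dvd hn1 3 (by norm_num)
  have hn2 : n2 ≠ 0 := by rintro rfl; exact h3 (dvd_zero 3)
  obtain ⟨c, n3, h5, e3⟩ := Nat.exists_eq_pow_mul_and_not_dvd hn2 5 (by norm_num)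
  have h1 : n3 = 1 := by
    by_contra hne
    obtain ⟨p, hp, hpd⟩ := Nat.exists_prime_and_dvd hne
    have hp2 : p ∣ n2 := by rw [e3]; exact Dvd.dvd.mul_left hpd _
    have hp1 : p ∣ n1 := by rw [e2]; exact Dvd.dvd.mul_left hp2 _
    have hpN : p ∣ N := by rw [e1]; exact Dvd.dvd.mul_left hp1 _
    rcases h p hp hpN with rfl | rfl | rfl
    · exact h2 hp1
    · exact h3 hp2
    · exact h5 hpd
  refine ⟨a, b, c, ?_⟩
  rw [e1, e2, e3, h1]
  ring

/-- The set of counts is contained in the prescribed set. -/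
theorem nse_mem {S : Set ℕ}
    (h : ((fun m : ℕ => Nat.card {g : G // orderOf g = m}) '' Set.range (orderOf : G → ℕ)) = S)
    (g : G) : cnt G (orderOf g) ∈ S := by
  rw [← h]
  exact ⟨orderOf g, ⟨g, rfl⟩, rfl⟩

/-- Every prescribed count is attained. -/
theorem nse_exists {S : Set ℕ}
    (h : ((fun m : ℕ => Nat.card {g : G // orderOf g = m}) '' Set.range (orderOf : G → ℕ)) = S)
    {v : ℕ} (hv : v ∈ S) : ∃ g : G, cnt G (orderOf g) = v := by
  rw [← h] at hv
  obtain ⟨m, ⟨g, rfl⟩, hm⟩ := hv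
  exact ⟨g, hm⟩

/-- The count of any order is zero or one of the prescribed values. -/
theorem cnt_zero_or_mem {S : Set ℕ} (h : ∀ g : G, cnt G (orderOf g) ∈ S) (k : ℕ) :
    cnt G k = 0 ∨ cnt G k ∈ S := by
  by_cases h0 : cnt G k = 0
  · exact Or.inl h0
  · obtain ⟨g, rfl⟩ := exists_of_cnt_ne_zero h0
    exact Or.inr (h g)

end Cfsg.Agent.H51.Nse
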