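import Mathlib
import Cfsg.Agent.H51.NseBasic
import Cfsg.Agent.H51.PSL9Sylow

/-! Further tools for groups with prescribed numbers of elements of each order: list versions of
Frobenius' theorem, normal subgroups, recognition of alternating groups (helper51). -/

set_option autoImplicit false

namespace Cfsg.Agent.H51.Nse

open Cfsg.Agent.H21.TwoCounts

variable {G : Type*} [Group G] [Finite G]

/-- Frobenius' theorem with the divisors given as a list. -/
theorem frob_list (d : ℕ) (hd : d ∣ Nat.card G) (l : List ℕ) (hl : l.Nodup)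
    (hdiv : d.divisors = l.toFinset) : d ∣ (l.map (cnt G)).sum := by
  have := frob (G := G) d hd
  rw [hdiv, List.sum_toFinset _ hl] at this
  exact this

/-- The class equation by element orders, with the divisors of the group order given as a list. -/
theorem card_eq_sum_list (N : ℕ) (hN : Nat.card G = N) (l : List ℕ) (hl : l.Nodup)
    (hdiv : N.divisors = l.toFinset) : N = (l.map (cnt G)).sum := by
  have h0 : N ≠ 0 := by rw [← hN]; exact Nat.card_pos.ne'
  have := card_eq_sum_cnt (G := G) N.divisors (fun g => by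
    rw [Nat.mem_divisors]
    exact ⟨hN ▸ orderOf_dvd_natCard g, h0⟩)
  rw [hN, hdiv, List.sum_toFinset _ hl] at this
  exact this

/-- The counts over a list of distinct orders add up to at most the group order. -/
theorem sum_list_le (l : List ℕ) (hl : l.Nodup) : (l.map (cnt G)).sum ≤ Nat.card G := by
  have := sum_cnt_le (G := G) l.toFinset
  rw [List.sum_toFinset _ hl] at this
  exact this

/-- A normal subgroup contains all solutions of `g ^ d = 1` when `d` is prime to its index. -/
theorem card_pow_le_of_coprime (K : Subgroup G) [K.Normal] (d : ℕ) (hd : Nat.Coprime d K.index) :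
    Nat.card {g : G // g ^ d = 1} ≤ Nat.card K := by
  refine Nat.card_le_card_of_injective
    (fun g => (⟨g.1, mem_of_coprime_index K g.1
      (Nat.Coprime.coprime_dvd_left (orderOf_dvd_of_pow_eq_one g.2) hd)⟩ : K)) ?_
  intro a b hab
  exact Subtype.ext (congrArg (fun t : K => (t : G)) hab)

/-- An element of prime order `q` and a normal subgroup whose order is prime to `q` and not
congruent to `1` modulo `q`: some product has order `q` times the order of a non-identity element
of the subgroup. -/
theorem exists_order_mul (q : ℕ) [Fact q.Prime] (y : G) (hy : orderOf y = q) (K : Subgroup G)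
    [K.Normal] (hK : ¬ q ∣ Nat.card K) (hK1 : ¬ q ∣ Nat.card K - 1) :
    ∃ w : G, w ∈ K ∧ w ≠ 1 ∧ cnt G (orderOf w * q) ≠ 0 := by
  have hq : q.Prime := Fact.out
  have hcard : Nat.card ({g : G | g ∈ K ∧ g ≠ 1} : Set G) = Nat.card K - 1 :=
    Cfsg.Agent.H21.card_mem_ne_one K
  obtain ⟨w, hw, hcomm⟩ := exists_commute_of_not_dvd q y hy {g : G | g ∈ K ∧ g ≠ 1}
    (fun c v hv => ⟨Subgroup.Normal.conj_mem inferInstance v hv.1 c, fun h => hv.2 (by
      have : v = c⁻¹ * (c * v * c⁻¹) * c := by group
      rw [this, h]; group)⟩)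
    (by rw [hcard]; exact hK1)
  refine ⟨w, hw.1, hw.2, ?_⟩
  have hwo : orderOf w ∣ Nat.card K := by
    have := orderOf_dvd_natCard (⟨w, hw.1⟩ : K)
    rwa [← Subgroup.orderOf_coe] at this
  have hcop : Nat.Coprime (orderOf w) q := by
    rw [Nat.coprime_comm, Nat.Prime.coprime_iff_not_dvd hq]
    exact fun h => hK (dvd_trans h hwo)
  have hc : Commute w y := hcomm
  have := cnt_orderOf_ne_zero (w * y)
  rw [hc.orderOf_mul_eq_mul_orderOf_of_coprime (by rw [hy]; exact hcop), hy] at this
  exact this

/-- A group of order `d!/2` acting faithfully on the cosets of a subgroup of index `d` is the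
alternating group of degree `d`. -/
theorem iso_alt_of_injective (H : Subgroup G) (d : ℕ) (hd : H.index = d)
    (hcard : 2 * Nat.card G = d.factorial)
    (hinj : Function.Injective (MulAction.toPermHom G (G ⧸ H))) :
    Nonempty (G ≃* alternatingGroup (Fin d)) := by
  classical
  let _ : Fintype (G ⧸ H) := Fintype.ofFinite _
  have hcardrange : Nat.card (MulAction.toPermHom G (G ⧸ H)).range = Nat.card G :=
    (Nat.card_congr (MonoidHom.ofInjective hinj).toEquiv).symm
  have hperm : Nat.card (Equiv.Perm (G ⧸ H)) = d.factorial := by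
    rw [Nat.card_perm, ← hd]; rfl
  have hidx : (MulAction.toPermHom G (G ⧸ H)).range.index = 2 := by
    have h1 := Subgroup.card_mul_index (MulAction.toPermHom G (G ⧸ H)).range
    rw [hcardrange, hperm, ← hcard, mul_comm 2] at h1
    exact Nat.eq_of_mul_eq_mul_left Nat.card_pos h1
  have hrange : (MulAction.toPermHom G (G ⧸ H)).range = alternatingGroup (G ⧸ H) :=
    Equiv.Perm.eq_alternatingGroup_of_index_eq_two hidx
  have e1 : G ≃* (MulAction.toPermHom G (G ⧸ H)).range := MonoidHom.ofInjective hinj
  have e2 : (MulAction.toPermHom G (G ⧸ H)).range ≃* alternatingGroup (G ⧸ H) :=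
    MulEquiv.subgroupCongr hrange
  have e : G ⧸ H ≃ Fin d := Finite.equivFinOfCardEq (by rw [← hd]; rfl)
  exact ⟨(e1.trans e2).trans (Equiv.altCongrHom e)⟩

/-- The number of Sylow `p`-subgroups when they have prime order. -/
theorem card_sylow_mul (p : ℕ) [Fact p.Prime] (P : Sylow p G)
    (hP : Nat.card (P : Subgroup G) = p) : cnt G p = Nat.card (Sylow p G) * (p - 1) :=
  Cfsg.Agent.H21.card_orderOf_eq_prime p P hP

/-- The number of Sylow subgroups divides the group order. -/
theorem card_sylow_dvd (p : ℕ) [Fact p.Prime] : Nat.card (Sylow p G) ∣ Nat.card G := by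
  obtain ⟨P⟩ : Nonempty (Sylow p G) := inferInstance
  exact dvd_trans P.card_dvd_index (Subgroup.index_dvd_card _)

/-- The number of solutions of `g ^ d = 1`, with the divisors of `d` given as a list. -/
theorem card_pow_list (d : ℕ) (hd : d ≠ 0) (l : List ℕ) (hl : l.Nodup)
    (hdiv : d.divisors = l.toFinset) :
    Nat.card {g : G // g ^ d = 1} = (l.map (cnt G)).sum := by
  rw [card_pow_eq_one d hd, hdiv, List.sum_toFinset _ hl]

/-- Orders that occur divide the group order. -/
theorem dvd_card_of_cnt_ne_zero {k : ℕ} (h : cnt G k ≠ 0) : k ∣ Nat.card G := by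
  obtain ⟨g, rfl⟩ := exists_of_cnt_ne_zero h
  exact orderOf_dvd_natCard g

/-- The order of an element of a subgroup divides the order of the subgroup. -/
theorem orderOf_dvd_card_of_mem (K : Subgroup G) {w : G} (hw : w ∈ K) :
    orderOf w ∣ Nat.card K := by
  have := orderOf_dvd_natCard (⟨w, hw⟩ : K)
  rwa [Subgroup.orderOf_mk] at this

omit [Finite G] in
/-- A non-identity element has order different from `1`. -/
theorem orderOf_ne_one_of_ne {w : G} (hw : w ≠ 1) : orderOf w ≠ 1 :=
  fun h => hw (orderOf_eq_one_iff.mp h)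

theorem dvd_four_cases {n : ℕ} (h : n ∣ 4) : n = 1 ∨ n = 2 ∨ n = 4 := by
  have h1 := Nat.le_of_dvd (by norm_num) h
  have h2 := Nat.pos_of_dvd_of_pos h (by norm_num)
  interval_cases n <;> omega

theorem dvd_eight_cases {n : ℕ} (h : n ∣ 8) : n = 1 ∨ n = 2 ∨ n = 4 ∨ n = 8 := by
  have h1 := Nat.le_of_dvd (by norm_num) h
  have h2 := Nat.pos_of_dvd_of_pos h (by norm_num)
  interval_cases n <;> omega

/-- A normal subgroup whose order is divisible by a prime `p` with `p²` not dividing the group
order contains all elements of order `p`. -/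
theorem normal_card_ge_prime (K : Subgroup G) [K.Normal] (p : ℕ) (hp : p.Prime)
    (hpk : p ∣ Nat.card K) (hp2 : ¬ p * p ∣ Nat.card G) : 1 + cnt G p ≤ Nat.card K := by
  have hcop : Nat.Coprime p K.index := by
    rw [Nat.Prime.coprime_iff_not_dvd hp]
    intro hi
    apply hp2
    rw [← Subgroup.card_mul_index K]
    exact Nat.mul_dvd_mul hpk hi
  have := card_pow_le_of_coprime K p hcop
  rwa [card_pow_prime hp] at this

/-- In a subgroup containing a non-identity element whose order is not `r`, there are at most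
`|K| - 2` elements of order `r`. -/
theorem card_order_le (K : Subgroup G) (r : ℕ) (hr : r ≠ 1) (z : G) (hz : z ∈ K) (hz1 : z ≠ 1)
    (hzr : orderOf z ≠ r) :
    Nat.card ({w : G | w ∈ K ∧ orderOf w = r} : Set G) ≤ Nat.card K - 2 := by
  have hsub : {w : G | w ∈ K ∧ orderOf w = r} ⊆ ((K : Set G) \ {1}) \ {z} := by
    intro w hw
    refine ⟨⟨hw.1, ?_⟩, ?_⟩
    · rintro (rfl : w = 1)
      exact hr (hw.2.symm.trans orderOf_one)
    · rintro (rfl : w = z)
      exact hzr hw.2
  have h1 := Set.ncard_le_ncard hsub (Set.toFinite _)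
  have hz' : z ∈ (K : Set G) \ {1} := ⟨hz, hz1⟩
  have h1' : (1 : G) ∈ (K : Set G) := K.one_mem
  rw [Set.ncard_sdiff_singleton_of_mem hz', Set.ncard_sdiff_singleton_of_mem h1'] at h1
  rw [Nat.card_coe_set_eq]
  have h2 : (K : Set G).ncard = Nat.card K := (Nat.card_coe_set_eq (K : Set G)).symm
  omega

/-- An element of prime order `q` and a conjugation-stable set of elements of order `r` prime to
`q`, of size not divisible by `q`: there is an element of order `r q`. -/
theorem cnt_mul_ne_zero (q : ℕ) [Fact q.Prime] (y : G) (hy : orderOf y = q) (T : Set G)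
    (hT : ∀ c : G, ∀ v ∈ T, c * v * c⁻¹ ∈ T) (hc : ¬ q ∣ Nat.card T) (r : ℕ)
    (hr : ∀ w ∈ T, orderOf w = r) (hcop : Nat.Coprime r q) : cnt G (r * q) ≠ 0 := by
  obtain ⟨w, hw, hcomm⟩ := exists_commute_of_not_dvd q y hy T hT hc
  have hc' : Commute w y := hcomm
  have := cnt_orderOf_ne_zero (w * y)
  rwa [hc'.orderOf_mul_eq_mul_orderOf_of_coprime (by rw [hy, hr w hw]; exact hcop), hy,
    hr w hw] at this

end Cfsg.Agent.H51.Nse
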