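import Mathlib
import Cfsg.Agent.H51.NseTools

/-! Groups whose numbers of elements of each order take at most three values (helper51):
divisor sums and congruence tools for Frobenius' theorem. -/

set_option autoImplicit false

namespace Cfsg.Agent.H51.Nse3

open Cfsg.Agent.H21.TwoCounts Cfsg.Agent.H51.Nse

/-- Divisor sums over `n * p` for a prime `p` not dividing `n`. -/
theorem sum_divisors_mul_prime (f : ℕ → ℕ) (n p : ℕ) (hp : p.Prime) (hn : ¬ p ∣ n) :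
    ∑ d ∈ (n * p).divisors, f d = ∑ d ∈ n.divisors, f d + ∑ d ∈ n.divisors, f (d * p) := by
  have hn0 : n ≠ 0 := by rintro rfl; exact hn (dvd_zero p)
  have hunion : (n * p).divisors = n.divisors ∪ n.divisors.image (· * p) := by
    ext d
    simp only [Nat.mem_divisors, Finset.mem_union, Finset.mem_image]
    constructor
    · rintro ⟨hd, -⟩
      by_cases hpd : p ∣ d
      · right
        obtain ⟨d', rfl⟩ := hpd
        refine ⟨d', ⟨?_, hn0⟩, mul_comm _ _⟩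
        rw [mul_comm n p] at hd
        exact (Nat.mul_dvd_mul_iff_left hp.pos).mp hd
      · left
        refine ⟨?_, hn0⟩
        exact Nat.Coprime.dvd_of_dvd_mul_right
          ((Nat.Prime.coprime_iff_not_dvd hp).mpr hpd).symm hd
    · rintro (⟨hd, -⟩ | ⟨d', ⟨hd', -⟩, rfl⟩)
      · exact ⟨Dvd.dvd.mul_right hd p, Nat.mul_ne_zero hn0 hp.ne_zero⟩
      · exact ⟨Nat.mul_dvd_mul_right hd' p, Nat.mul_ne_zero hn0 hp.ne_zero⟩
  have hdisj : Disjoint n.divisors (n.divisors.image (· * p)) := by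
    rw [Finset.disjoint_left]
    intro d hd hd'
    obtain ⟨d', -, rfl⟩ := Finset.mem_image.mp hd'
    exact hn (dvd_trans (Dvd.intro_left d' rfl) (Nat.mem_divisors.mp hd).1)
  rw [hunion, Finset.sum_union hdisj, Finset.sum_image]
  intro x _ y _ hxy
  exact Nat.eq_of_mul_eq_mul_right hp.pos hxy

theorem sum_div_p (f : ℕ → ℕ) {p : ℕ} (hp : p.Prime) : ∑ d ∈ p.divisors, f d = f 1 + f p := by
  rw [hp.divisors, Finset.sum_pair hp.one_lt.ne]

theorem not_dvd_of_primes {p q : ℕ} (hp : p.Prime) (hq : q.Prime) (hpq : p ≠ q) : ¬ q ∣ p :=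
  fun h => hpq ((Nat.prime_dvd_prime_iff_eq hq hp).mp h).symm

theorem sum_div_pq (f : ℕ → ℕ) {p q : ℕ} (hp : p.Prime) (hq : q.Prime) (hpq : p ≠ q) :
    ∑ d ∈ (p * q).divisors, f d = f 1 + f p + (f q + f (p * q)) := by
  rw [sum_divisors_mul_prime f p q hq (not_dvd_of_primes hp hq hpq), sum_div_p f hp,
    sum_div_p (fun d => f (d * q)) hp]
  simp only [one_mul]

theorem not_dvd_mul_of_primes {p q r : ℕ} (hp : p.Prime) (hq : q.Prime) (hr : r.Prime)
    (hpr : p ≠ r) (hqr : q ≠ r) : ¬ r ∣ p * q := by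
  intro h
  rcases (Nat.Prime.dvd_mul hr).mp h with h | h
  · exact not_dvd_of_primes hp hr hpr h
  · exact not_dvd_of_primes hq hr hqr h

theorem sum_div_pqr (f : ℕ → ℕ) {p q r : ℕ} (hp : p.Prime) (hq : q.Prime) (hr : r.Prime)
    (hpq : p ≠ q) (hpr : p ≠ r) (hqr : q ≠ r) :
    ∑ d ∈ (p * q * r).divisors, f d =
      f 1 + f p + (f q + f (p * q)) + (f r + f (p * r) + (f (q * r) + f (p * q * r))) := by
  rw [sum_divisors_mul_prime f (p * q) r hr (not_dvd_mul_of_primes hp hq hr hpr hqr),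
    sum_div_pq f hp hq hpq, sum_div_pq (fun d => f (d * r)) hp hq hpq]
  simp only [one_mul]

theorem not_dvd_four {p : ℕ} (hp : p.Prime) (hp3 : 3 ≤ p) : ¬ p ∣ 4 := by
  intro h
  have h2 : p ∣ 2 := Nat.Prime.dvd_of_dvd_pow hp (show p ∣ 2 ^ 2 from h)
  have := Nat.le_of_dvd (by norm_num) h2
  omega

theorem sum_div_4p (f : ℕ → ℕ) {p : ℕ} (hp : p.Prime) (hp3 : 3 ≤ p) :
    ∑ d ∈ (4 * p).divisors, f d = f 1 + f 2 + f 4 + (f p + f (2 * p) + f (4 * p)) := by
  rw [sum_divisors_mul_prime f 4 p hp (not_dvd_four hp hp3), sum_divisors_four f,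
    sum_divisors_four (fun d => f (d * p))]
  simp only [one_mul]

theorem not_dvd_four_mul {p q : ℕ} (hp : p.Prime) (hq : q.Prime) (hq3 : 3 ≤ q) (hpq : p ≠ q) :
    ¬ q ∣ 4 * p := by
  intro h
  rcases (Nat.Prime.dvd_mul hq).mp h with h | h
  · exact not_dvd_four hq hq3 h
  · exact not_dvd_of_primes hp hq hpq h

theorem sum_div_4pq (f : ℕ → ℕ) {p q : ℕ} (hp : p.Prime) (hq : q.Prime) (hp3 : 3 ≤ p)
    (hq3 : 3 ≤ q) (hpq : p ≠ q) :
    ∑ d ∈ (4 * p * q).divisors, f d =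
      f 1 + f 2 + f 4 + (f p + f (2 * p) + f (4 * p)) +
        (f q + f (2 * q) + f (4 * q) + (f (p * q) + f (2 * p * q) + f (4 * p * q))) := by
  rw [sum_divisors_mul_prime f (4 * p) q hq (not_dvd_four_mul hp hq hq3 hpq),
    sum_div_4p f hp hp3, sum_div_4p (fun d => f (d * q)) hp hp3]
  simp only [one_mul]

/-- Small integers are distinct modulo `p ≥ 3`. -/
theorem zmod_small_inj {p : ℕ} (hp3 : 3 ≤ p) {x y : ℤ} (hx : x = -1 ∨ x = 0 ∨ x = 1)
    (hy : y = -1 ∨ y = 0 ∨ y = 1) (h : (x : ZMod p) = (y : ZMod p)) : x = y := by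
  have h0 : ((x - y : ℤ) : ZMod p) = 0 := by push_cast; rw [h]; ring
  have hd : (p : ℤ) ∣ x - y := (ZMod.intCast_zmod_eq_zero_iff_dvd _ p).mp h0
  have hp' : (3 : ℤ) ≤ (p : ℤ) := by exact_mod_cast hp3
  have habs : |x - y| < (p : ℤ) := by
    rcases hx with rfl | rfl | rfl <;> rcases hy with rfl | rfl | rfl <;> norm_num <;> omega
  have := Int.eq_zero_of_abs_lt_dvd hd habs
  omega

/-- Determine a count among `0, 1, a, b` from its residue modulo `p`. -/
theorem resolve {p : ℕ} (hp3 : 3 ≤ p) {s a b : ℕ} {α β γ : ℤ}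
    (hs : s = 0 ∨ s = 1 ∨ s = a ∨ s = b)
    (hα : α = -1 ∨ α = 0 ∨ α = 1) (hβ : β = -1 ∨ β = 0 ∨ β = 1) (hγ : γ = -1 ∨ γ = 0 ∨ γ = 1)
    (ha : (a : ZMod p) = (α : ZMod p)) (hb : (b : ZMod p) = (β : ZMod p))
    (hsγ : (s : ZMod p) = (γ : ZMod p)) :
    (s = 0 ∧ γ = 0) ∨ (s = 1 ∧ γ = 1) ∨ (s = a ∧ γ = α) ∨ (s = b ∧ γ = β) := by
  rcases hs with h | h | h | h
  · left
    refine ⟨h, zmod_small_inj hp3 hγ (Or.inr (Or.inl rfl)) ?_⟩
    rw [← hsγ, h]; simp
  · right; left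
    refine ⟨h, zmod_small_inj hp3 hγ (Or.inr (Or.inr rfl)) ?_⟩
    rw [← hsγ, h]; simp
  · right; right; left
    exact ⟨h, zmod_small_inj hp3 hγ hα (by rw [← hsγ, h, ha])⟩
  · right; right; right
    exact ⟨h, zmod_small_inj hp3 hγ hβ (by rw [← hsγ, h, hb])⟩

variable {G : Type*} [Group G] [Finite G]

/-- Frobenius' theorem modulo a divisor. -/
theorem zfrob (d : ℕ) (hd : d ∣ Nat.card G) (t : ℕ) (ht : t ∣ d) :
    ((∑ m ∈ d.divisors, cnt G m : ℕ) : ZMod t) = 0 :=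
  (ZMod.natCast_eq_zero_iff _ t).mpr (dvd_trans ht (frob d hd))

theorem zprime {p : ℕ} (hp : p.Prime) (hpN : p ∣ Nat.card G) :
    (cnt G p : ZMod p) = ((-1 : ℤ) : ZMod p) := by
  have h := (ZMod.natCast_eq_zero_iff _ p).mpr (frob_prime hp hpN)
  push_cast at h ⊢
  linear_combination h

theorem zfrob_pq {p q : ℕ} (hp : p.Prime) (hq : q.Prime) (hpq : p ≠ q)
    (hN : p * q ∣ Nat.card G) (t : ℕ) (ht : t ∣ p * q) :
    (1 : ZMod t) + cnt G p + (cnt G q + cnt G (p * q)) = 0 := by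
  have h := zfrob (G := G) (p * q) hN t ht
  rw [sum_div_pq _ hp hq hpq, cnt_one] at h
  push_cast at h
  linear_combination h

theorem zfrob_pqr {p q r : ℕ} (hp : p.Prime) (hq : q.Prime) (hr : r.Prime)
    (hpq : p ≠ q) (hpr : p ≠ r) (hqr : q ≠ r) (hN : p * q * r ∣ Nat.card G) (t : ℕ)
    (ht : t ∣ p * q * r) :
    (1 : ZMod t) + cnt G p + (cnt G q + cnt G (p * q)) +
      (cnt G r + cnt G (p * r) + (cnt G (q * r) + cnt G (p * q * r))) = 0 := by
  have h := zfrob (G := G) (p * q * r) hN t ht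
  rw [sum_div_pqr _ hp hq hr hpq hpr hqr, cnt_one] at h
  push_cast at h
  linear_combination h

theorem zfrob_4p {p : ℕ} (hp : p.Prime) (hp3 : 3 ≤ p) (hN : 4 * p ∣ Nat.card G) (t : ℕ)
    (ht : t ∣ 4 * p) :
    (1 : ZMod t) + cnt G 2 + cnt G 4 + (cnt G p + cnt G (2 * p) + cnt G (4 * p)) = 0 := by
  have h := zfrob (G := G) (4 * p) hN t ht
  rw [sum_div_4p _ hp hp3, cnt_one] at h
  push_cast at h
  linear_combination h

theorem zfrob_4pq {p q : ℕ} (hp : p.Prime) (hq : q.Prime) (hp3 : 3 ≤ p) (hq3 : 3 ≤ q)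
    (hpq : p ≠ q) (hN : 4 * p * q ∣ Nat.card G) (t : ℕ) (ht : t ∣ 4 * p * q) :
    (1 : ZMod t) + cnt G 2 + cnt G 4 + (cnt G p + cnt G (2 * p) + cnt G (4 * p)) +
      (cnt G q + cnt G (2 * q) + cnt G (4 * q) +
        (cnt G (p * q) + cnt G (2 * p * q) + cnt G (4 * p * q))) = 0 := by
  have h := zfrob (G := G) (4 * p * q) hN t ht
  rw [sum_div_4pq _ hp hq hp3 hq3 hpq, cnt_one] at h
  push_cast at h
  linear_combination h

/-- Counts of orders at least `3` are even, hence different from `1`. -/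
theorem cnt_ne_one_of_three_le {k : ℕ} (hk : 3 ≤ k) : cnt G k ≠ 1 := by
  intro h
  have := cnt_even (G := G) k hk
  omega

/-- The two values can be renamed. -/
theorem vals_rename {m n a b : ℕ}
    (hval : ∀ k, cnt G k = 0 ∨ cnt G k = 1 ∨ cnt G k = m ∨ cnt G k = n)
    (ha : a = m ∨ a = n) (hb : b = m ∨ b = n) (hab : a ≠ b) :
    ∀ k, cnt G k = 0 ∨ cnt G k = 1 ∨ cnt G k = a ∨ cnt G k = b := by
  intro k
  rcases hval k with h | h | h | h <;> rcases ha with rfl | rfl <;> rcases hb with rfl | rfl <;>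
    omega

end Cfsg.Agent.H51.Nse3
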