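import Mathlib
import Cfsg.Agent.H51.Nse3Basic

/-! Groups whose numbers of elements of each order take at most three values (helper51):
a group of odd order of this kind has at most two prime divisors. -/

set_option autoImplicit false

namespace Cfsg.Agent.H51.Nse3

open Cfsg.Agent.H21.TwoCounts Cfsg.Agent.H51.Nse

variable {G : Type*} [Group G] [Finite G]

theorem mul_dvd_card_of_primes {p q : ℕ} (hp : p.Prime) (hq : q.Prime) (hpq : p ≠ q)
    (hpN : p ∣ Nat.card G) (hqN : q ∣ Nat.card G) : p * q ∣ Nat.card G :=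
  Nat.Coprime.mul_dvd_of_dvd_of_dvd ((Nat.coprime_primes hp hq).mpr hpq) hpN hqN

theorem mul_mul_dvd_card_of_primes {p q r : ℕ} (hp : p.Prime) (hq : q.Prime) (hr : r.Prime)
    (hpq : p ≠ q) (hpr : p ≠ r) (hqr : q ≠ r)
    (hpN : p ∣ Nat.card G) (hqN : q ∣ Nat.card G) (hrN : r ∣ Nat.card G) :
    p * q * r ∣ Nat.card G :=
  Nat.Coprime.mul_dvd_of_dvd_of_dvd
    ((Nat.Prime.coprime_iff_not_dvd hr).mpr (not_dvd_mul_of_primes hp hq hr hpr hqr)).symm
    (mul_dvd_card_of_primes hp hq hpq hpN hqN) hrN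

/-- Two odd primes with the same count: the count of order `p q` is `1` modulo both. -/
theorem claim1 {p q : ℕ} (hp : p.Prime) (hq : q.Prime) (hpq : p ≠ q)
    (hpN : p ∣ Nat.card G) (hqN : q ∣ Nat.card G) (h : cnt G p = cnt G q) :
    (cnt G (p * q) : ZMod p) = ((1 : ℤ) : ZMod p) ∧
      (cnt G (p * q) : ZMod q) = ((1 : ℤ) : ZMod q) := by
  have hN := mul_dvd_card_of_primes hp hq hpq hpN hqN
  have h1 := zfrob_pq hp hq hpq hN p (Dvd.intro _ rfl)
  have h2 := zfrob_pq hp hq hpq hN q (Dvd.intro_left _ rfl)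
  have hpZ := zprime hp hpN
  have hqZ := zprime hq hqN
  constructor
  · rw [← h] at h1
    push_cast at hpZ ⊢
    linear_combination h1 - 2 * hpZ
  · rw [h] at h2
    push_cast at hqZ ⊢
    linear_combination h2 - 2 * hqZ

/-- Two odd primes with the same count `a`: the count of order `p q` is the other value. -/
theorem claim1_val {a b : ℕ}
    (hval : ∀ k, cnt G k = 0 ∨ cnt G k = 1 ∨ cnt G k = a ∨ cnt G k = b)
    {p q : ℕ} (hp : p.Prime) (hq : q.Prime) (hp3 : 3 ≤ p) (hq3 : 3 ≤ q) (hpq : p ≠ q)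
    (hpN : p ∣ Nat.card G) (hqN : q ∣ Nat.card G) (hsp : cnt G p = a) (hsq : cnt G q = a) :
    cnt G (p * q) = b ∧ (b : ZMod p) = ((1 : ℤ) : ZMod p) ∧
      (b : ZMod q) = ((1 : ℤ) : ZMod q) := by
  obtain ⟨h1, h2⟩ := claim1 hp hq hpq hpN hqN (hsp.trans hsq.symm)
  have haZ : (a : ZMod p) = ((-1 : ℤ) : ZMod p) := by rw [← hsp]; exact zprime hp hpN
  have hpq3 : 3 ≤ p * q := by nlinarith
  have hb : cnt G (p * q) = b := by
    rcases hval (p * q) with h | h | h | h
    · rw [h] at h1
      have := zmod_small_inj hp3 (Or.inr (Or.inl rfl)) (Or.inr (Or.inr rfl)) (by simpa using h1)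
      omega
    · exact absurd h (cnt_ne_one_of_three_le hpq3)
    · rw [h, haZ] at h1
      have := zmod_small_inj hp3 (Or.inl rfl) (Or.inr (Or.inr rfl)) h1
      omega
    · exact h
  rw [hb] at h1 h2
  exact ⟨hb, h1, h2⟩

/-- Two odd primes with the same count: the count of order `p q` is a new non-zero value. -/
theorem claim1_ne {p q : ℕ} (hp : p.Prime) (hq : q.Prime) (hp3 : 3 ≤ p) (hpq : p ≠ q)
    (hpN : p ∣ Nat.card G) (hqN : q ∣ Nat.card G) (h : cnt G p = cnt G q) :
    cnt G (p * q) ≠ 0 ∧ cnt G (p * q) ≠ cnt G p := by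
  obtain ⟨h1, -⟩ := claim1 hp hq hpq hpN hqN h
  have haZ : (cnt G p : ZMod p) = ((-1 : ℤ) : ZMod p) := zprime hp hpN
  constructor
  · intro h0
    rw [h0] at h1
    have := zmod_small_inj hp3 (Or.inr (Or.inl rfl)) (Or.inr (Or.inr rfl)) (by simpa using h1)
    omega
  · intro h0
    rw [h0, haZ] at h1
    have := zmod_small_inj hp3 (Or.inl rfl) (Or.inr (Or.inr rfl)) h1
    omega

theorem z_two_ne_zero {p : ℕ} (hp3 : 3 ≤ p) : (2 : ZMod p) ≠ 0 := by
  intro h
  have h1 : ((1 : ℤ) : ZMod p) = ((-1 : ℤ) : ZMod p) := by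
    push_cast
    linear_combination h
  have := zmod_small_inj hp3 (Or.inr (Or.inr rfl)) (Or.inl rfl) h1
  omega

/-- Three odd primes, two of them with the same count: impossible in a group of odd order. -/
theorem three_aux {m n : ℕ} (hodd : ¬ 2 ∣ Nat.card G)
    (hval : ∀ k, cnt G k = 0 ∨ cnt G k = 1 ∨ cnt G k = m ∨ cnt G k = n)
    {p q : ℕ} (hp : p.Prime) (hq : q.Prime) (hpq : p ≠ q)
    (hpN : p ∣ Nat.card G) (hqN : q ∣ Nat.card G)
    (h : cnt G p = cnt G q) : False := by
  have h3 : ∀ t, t.Prime → t ∣ Nat.card G → 3 ≤ t := by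
    intro t ht htN
    rcases Nat.lt_or_ge t 3 with hlt | hge
    · have := ht.two_le
      have h2 : t = 2 := by omega
      subst h2; exact absurd htN hodd
    · exact hge
  have hp3 := h3 p hp hpN
  have hq3 := h3 q hq hqN
  obtain ⟨a, hsp⟩ : ∃ a, cnt G p = a := ⟨_, rfl⟩
  have hsq : cnt G q = a := by rw [← h]; exact hsp
  obtain ⟨b, hspq⟩ : ∃ b, cnt G (p * q) = b := ⟨_, rfl⟩
  obtain ⟨hb0, hba⟩ := claim1_ne hp hq hp3 hpq hpN hqN h
  rw [hspq] at hb0
  rw [hspq, hsp] at hba
  have ha0 : a ≠ 0 := by rw [← hsp]; exact cnt_prime_ne_zero hp hpN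
  have ha1 : a ≠ 1 := by rw [← hsp]; exact cnt_ne_one_of_three_le hp3
  have hpq3 : 3 ≤ p * q := by nlinarith
  have hb1 : b ≠ 1 := by rw [← hspq]; exact cnt_ne_one_of_three_le hpq3
  have hval' : ∀ k, cnt G k = 0 ∨ cnt G k = 1 ∨ cnt G k = a ∨ cnt G k = b := by
    apply vals_rename hval _ _ (Ne.symm hba)
    · have := hval p
      rw [hsp] at this
      rcases this with h | h | h | h
      · exact absurd h ha0
      · exact absurd h ha1
      · exact Or.inl h
      · exact Or.inr h
    · have := hval (p * q)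
      rw [hspq] at this
      rcases this with h | h | h | h
      · exact absurd h hb0
      · exact absurd h hb1
      · exact Or.inl h
      · exact Or.inr h
  have haZp : (a : ZMod p) = ((-1 : ℤ) : ZMod p) := by rw [← hsp]; exact zprime hp hpN
  have haZq : (a : ZMod q) = ((-1 : ℤ) : ZMod q) := by rw [← hsq]; exact zprime hq hqN
  obtain ⟨-, hbZp, hbZq⟩ := claim1_val hval' hp hq hp3 hq3 hpq hpN hqN hsp hsq
  -- a prime with the other value
  have hmix : ∀ x t, x.Prime → t.Prime → 3 ≤ x → x ∣ Nat.card G → t ∣ Nat.card G → x ≠ t →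
      cnt G x = a → cnt G t = b → (a : ZMod x) = ((-1 : ℤ) : ZMod x) →
      (b : ZMod x) = ((1 : ℤ) : ZMod x) → cnt G (x * t) = a := by
    intro x t hx ht hx3 hxN htN hxt hsx hst haZx hbZx
    have e1 := zfrob_pq hx ht hxt (mul_dvd_card_of_primes hx ht hxt hxN htN) x (Dvd.intro _ rfl)
    rw [hsx, hst] at e1
    have hZ : (cnt G (x * t) : ZMod x) = ((-1 : ℤ) : ZMod x) := by
      push_cast at haZx hbZx ⊢
      linear_combination e1 - haZx - hbZx
    rcases resolve hx3 (hval' (x * t)) (Or.inl rfl) (Or.inr (Or.inr rfl)) (Or.inl rfl) haZx hbZx hZ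
      with ⟨h, h'⟩ | ⟨h, h'⟩ | ⟨h, h'⟩ | ⟨h, h'⟩
    · omega
    · omega
    · exact h
    · omega
  have key : ∀ t, t.Prime → t ∣ Nat.card G → t ≠ p → t ≠ q → cnt G t ≠ b := by
    intro t ht htN htp htq hst
    have ht3 := h3 t ht htN
    have : Fact t.Prime := ⟨ht⟩
    have hbZt : (b : ZMod t) = ((-1 : ℤ) : ZMod t) := by rw [← hst]; exact zprime ht htN
    have hspt := hmix p t hp ht hp3 hpN htN (Ne.symm htp) hsp hst haZp hbZp
    have hsqt := hmix q t hq ht hq3 hqN htN (Ne.symm htq) hsq hst haZq hbZq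
    have e2 := zfrob_pq hp ht (Ne.symm htp) (mul_dvd_card_of_primes hp ht (Ne.symm htp) hpN htN) t
      (Dvd.intro_left _ rfl)
    rw [hsp, hst, hspt] at e2
    have h2a : (2 : ZMod t) * (a : ZMod t) = 0 := by
      push_cast at hbZt
      linear_combination e2 - hbZt
    have haZt : (a : ZMod t) = ((0 : ℤ) : ZMod t) := by
      push_cast
      exact (mul_eq_zero.mp h2a).resolve_left (z_two_ne_zero ht3)
    have e3 := zfrob_pqr hp hq ht hpq (Ne.symm htp) (Ne.symm htq)
      (mul_mul_dvd_card_of_primes hp hq ht hpq (Ne.symm htp) (Ne.symm htq) hpN hqN htN) t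
      (Dvd.intro_left _ rfl)
    rw [hsp, hsq, hspq, hst, hspt, hsqt] at e3
    have hZ : (cnt G (p * q * t) : ZMod t) = ((1 : ℤ) : ZMod t) := by
      push_cast at haZt hbZt ⊢
      linear_combination e3 - 4 * haZt - 2 * hbZt
    have hpqt3 : 3 ≤ p * q * t := by nlinarith [Nat.mul_le_mul hpq3 ht3]
    have hne1 := cnt_ne_one_of_three_le (G := G) hpqt3
    rcases resolve ht3 (hval' (p * q * t)) (Or.inr (Or.inl rfl)) (Or.inl rfl) (Or.inr (Or.inr rfl))
      haZt hbZt hZ with ⟨h, h'⟩ | ⟨h, h'⟩ | ⟨h, h'⟩ | ⟨h, h'⟩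
    · omega
    · exact hne1 h
    · omega
    · omega
  -- every prime has the value `a`
  have hall : ∀ t, t.Prime → t ∣ Nat.card G → cnt G t = a := by
    intro t ht htN
    by_cases htp : t = p
    · rw [htp]; exact hsp
    by_cases htq : t = q
    · rw [htq]; exact hsq
    have ht3 := h3 t ht htN
    rcases hval' t with h | h | h | h
    · exact absurd h (cnt_prime_ne_zero ht htN)
    · exact absurd h (cnt_ne_one_of_three_le ht3)
    · exact h
    · exact absurd h (key t ht htN htp htq)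
  have haZ : ∀ t, t.Prime → t ∣ Nat.card G → (a : ZMod t) = ((-1 : ℤ) : ZMod t) := by
    intro t ht htN
    rw [← hall t ht htN]; exact zprime ht htN
  have hbZ : ∀ t, t.Prime → t ∣ Nat.card G → (b : ZMod t) = ((1 : ℤ) : ZMod t) := by
    intro t ht htN
    by_cases htp : t = p
    · rw [htp]; exact hbZp
    exact (claim1_val hval' ht hp (h3 t ht htN) hp3 htp htN hpN (hall t ht htN) hsp).2.1
  -- no elements of order `t ^ 2`
  have hsq0 : ∀ t, t.Prime → t ∣ Nat.card G → cnt G (t ^ 2) = 0 := by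
    intro t ht htN
    by_contra hne
    have ht3 := h3 t ht htN
    have ht2N : t ^ 2 ∣ Nat.card G := dvd_card_of_cnt_ne_zero hne
    have e := zfrob (G := G) (t ^ 2) ht2N t (dvd_pow_self t two_ne_zero)
    rw [Nat.sum_divisors_prime_pow ht, Finset.sum_range_succ, Finset.sum_range_succ,
      Finset.sum_range_one, pow_zero, pow_one, cnt_one, hall t ht htN] at e
    have hZ : (cnt G (t ^ 2) : ZMod t) = ((0 : ℤ) : ZMod t) := by
      have := haZ t ht htN
      push_cast at e this ⊢
      linear_combination e - this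
    rcases resolve ht3 (hval' (t ^ 2)) (Or.inl rfl) (Or.inr (Or.inr rfl)) (Or.inr (Or.inl rfl))
      (haZ t ht htN) (hbZ t ht htN) hZ with ⟨h, h'⟩ | ⟨h, h'⟩ | ⟨h, h'⟩ | ⟨h, h'⟩
    · exact hne h
    · omega
    · omega
    · omega
  -- prime powers dividing the order divide `1 + a`
  have hpow : ∀ t j, t.Prime → t ^ j ∣ Nat.card G → t ^ j ∣ 1 + a := by
    intro t j ht hj
    rcases Nat.eq_zero_or_pos j with rfl | hjpos
    · simp
    have htN : t ∣ Nat.card G := dvd_trans (dvd_pow_self t hjpos.ne') hj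
    have e := frob (G := G) (t ^ j) hj
    rw [Nat.sum_divisors_prime_pow ht] at e
    have hsum : ∑ x ∈ Finset.range (j + 1), cnt G (t ^ x) = 1 + a := by
      rw [← Finset.sum_subset (s₁ := Finset.range 2) (s₂ := Finset.range (j + 1))]
      · rw [Finset.sum_range_succ, Finset.sum_range_one, pow_zero, pow_one, cnt_one,
          hall t ht htN]
      · intro x hx
        rw [Finset.mem_range] at hx ⊢
        omega
      · intro x _ hx
        rw [Finset.mem_range] at hx
        by_contra hne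
        exact cnt_ne_zero_of_dvd hne (pow_dvd_pow t (by omega : 2 ≤ x)) (hsq0 t ht htN)
    rw [hsum] at e
    exact e
  have hdvd : Nat.card G ∣ 1 + a :=
    (Nat.dvd_iff_prime_pow_dvd_dvd (1 + a) (Nat.card G)).mpr (fun t j ht hj => hpow t j ht hj)
  have hle := Nat.le_of_dvd (by omega) hdvd
  have hs := sum_list_le (G := G) [1, p, q] (by simp; omega)
  simp only [List.map_cons, List.map_nil, List.sum_cons, List.sum_nil] at hs
  rw [cnt_one, hsp, hsq] at hs
  omega

/-- A group of odd order whose counts take at most the values `1`, `m`, `n` has at most two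
prime divisors. -/
theorem no_three_primes_of_odd {m n : ℕ} (hodd : ¬ 2 ∣ Nat.card G)
    (hval : ∀ k, cnt G k = 0 ∨ cnt G k = 1 ∨ cnt G k = m ∨ cnt G k = n)
    {p q r : ℕ} (hp : p.Prime) (hq : q.Prime) (hr : r.Prime) (hpq : p ≠ q) (hpr : p ≠ r)
    (hqr : q ≠ r) (hpN : p ∣ Nat.card G) (hqN : q ∣ Nat.card G) (hrN : r ∣ Nat.card G) :
    False := by
  have hv : ∀ t, t.Prime → t ∣ Nat.card G → cnt G t = m ∨ cnt G t = n := by
    intro t ht htN
    have ht3 : 3 ≤ t := by
      rcases Nat.lt_or_ge t 3 with hlt | hge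
      · have := ht.two_le
        have h2 : t = 2 := by omega
        subst h2; exact absurd htN hodd
      · exact hge
    rcases hval t with h | h | h | h
    · exact absurd h (cnt_prime_ne_zero ht htN)
    · exact absurd h (cnt_ne_one_of_three_le ht3)
    · exact Or.inl h
    · exact Or.inr h
  rcases hv p hp hpN with h1 | h1 <;> rcases hv q hq hqN with h2 | h2 <;>
    rcases hv r hr hrN with h3 | h3
  · exact three_aux hodd hval hp hq hpq hpN hqN (h1.trans h2.symm)
  · exact three_aux hodd hval hp hq hpq hpN hqN (h1.trans h2.symm)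
  · exact three_aux hodd hval hp hr hpr hpN hrN (h1.trans h3.symm)
  · exact three_aux hodd hval hq hr hqr hqN hrN (h2.trans h3.symm)
  · exact three_aux hodd hval hq hr hqr hqN hrN (h2.trans h3.symm)
  · exact three_aux hodd hval hp hr hpr hpN hrN (h1.trans h3.symm)
  · exact three_aux hodd hval hp hq hpq hpN hqN (h1.trans h2.symm)
  · exact three_aux hodd hval hp hq hpq hpN hqN (h1.trans h2.symm)

end Cfsg.Agent.H51.Nse3
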