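import Mathlib
import Cfsg.Agent.H51.Nse3Odd

/-! Groups of odd order whose numbers of elements of each order take at most three values and
whose order has two prime divisors `p`, `q` (helper51): every non-identity element has order
`p` or `q`, and elements of order `p` do not commute with elements of order `q`. -/

set_option autoImplicit false
set_option linter.style.haveILetI false

namespace Cfsg.Agent.H51.Nse3

open Cfsg.Agent.H21.TwoCounts Cfsg.Agent.H51.Nse

variable {G : Type*} [Group G] [Finite G]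

/-- If `p` does not divide the number of elements of order `q`, every element of order `p`
commutes with an element of order `q`. -/
theorem exists_commute_order {p q : ℕ} (hp : p.Prime) (hnd : ¬ p ∣ cnt G q) (y : G)
    (hy : orderOf y = p) : ∃ z : G, orderOf z = q ∧ Commute y z := by
  haveI : Fact p.Prime := ⟨hp⟩
  obtain ⟨w, hw, hc⟩ := exists_commute_of_not_dvd p y hy {v : G | orderOf v = q}
    (fun c v hv => by
      have hv' : orderOf v = q := hv
      show orderOf (c * v * c⁻¹) = q
      rw [← hv']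
      exact (MulAut.conj c).orderOf_eq v) hnd
  exact ⟨w, hw, hc.symm⟩

/-- `y ↦ y ^ q` is injective on the solutions of `y ^ p = 1` when `q` is prime to `p`. -/
theorem pow_inj_of_coprime {p q : ℕ} (hp1 : 1 < p) (hcop : Nat.Coprime q p) {y y' : G}
    (hy : y ^ p = 1) (hy' : y' ^ p = 1) (h : y ^ q = y' ^ q) : y = y' := by
  obtain ⟨m, -, hm⟩ := Nat.exists_mul_mod_eq_one_of_coprime hcop hp1
  have e : ∀ w : G, w ^ p = 1 → (w ^ q) ^ m = w := by
    intro w hw
    rw [← pow_mul, pow_eq_pow_mod (q * m) hw, hm, pow_one]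
  rw [← e y hy, h, e y' hy']

/-- If `p` does not divide the number of elements of order `q ≥ 3`, there are at least twice as
many elements of order `p q` as of order `p`. -/
theorem two_mul_cnt_le {p q : ℕ} (hp : p.Prime) (hq : q.Prime) (hq3 : 3 ≤ q) (hpq : p ≠ q)
    (hnd : ¬ p ∣ cnt G q) : 2 * cnt G p ≤ cnt G (p * q) := by
  classical
  have hex : ∀ y : {g : G // orderOf g = p}, ∃ z : G, orderOf z = q ∧ Commute y.1 z :=
    fun y => exists_commute_order hp hnd y.1 y.2
  choose z hz hcz using hex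
  have hcop : Nat.Coprime p q := (Nat.coprime_primes hp hq).mpr hpq
  let c : {g : G // orderOf g = p} → Bool → G := fun y b => if b then z y else (z y)⁻¹
  have hc_ord : ∀ y b, orderOf (c y b) = q := by
    intro y b
    cases b
    · show orderOf (z y)⁻¹ = q
      rw [orderOf_inv, hz]
    · exact hz y
  have hc_comm : ∀ y b, Commute y.1 (c y b) := by
    intro y b
    cases b
    · exact (hcz y).inv_right
    · exact hcz y
  have hc_inj : ∀ y b b', c y b = c y b' → b = b' := by
    intro y b b' h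
    have hne : z y ≠ (z y)⁻¹ := by
      intro h2
      have h3 : (z y) ^ 2 = 1 := by
        rw [pow_two]
        nth_rewrite 2 [h2]
        exact mul_inv_cancel _
      have h4 := orderOf_dvd_of_pow_eq_one h3
      rw [hz] at h4
      have := Nat.le_of_dvd (by norm_num) h4
      omega
    cases b <;> cases b'
    · rfl
    · exact absurd h.symm hne
    · exact absurd h hne
    · rfl
  let f : {g : G // orderOf g = p} × Bool → {g : G // orderOf g = p * q} := fun yb =>
    ⟨yb.1.1 * c yb.1 yb.2, by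
      rw [(hc_comm yb.1 yb.2).orderOf_mul_eq_mul_orderOf_of_coprime
        (by rw [yb.1.2, hc_ord]; exact hcop), yb.1.2, hc_ord]⟩
  have hf : Function.Injective f := by
    rintro ⟨y, b⟩ ⟨y', b'⟩ h
    have h1 : y.1 * c y b = y'.1 * c y' b' := congrArg Subtype.val h
    have hpow : ∀ (y : {g : G // orderOf g = p}) (b : Bool), (y.1 * c y b) ^ q = y.1 ^ q := by
      intro y b
      rw [(hc_comm y b).mul_pow, ← hc_ord y b, pow_orderOf_eq_one, mul_one]
    have h2 : y.1 ^ q = y'.1 ^ q := by rw [← hpow y b, h1, hpow y' b']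
    have hyp : ∀ y : {g : G // orderOf g = p}, y.1 ^ p = 1 := by
      intro y
      have := pow_orderOf_eq_one y.1
      rwa [y.2] at this
    have h3 : y.1 = y'.1 := pow_inj_of_coprime hp.one_lt hcop.symm (hyp y) (hyp y') h2
    have h4 : y = y' := Subtype.ext h3
    subst h4
    have h5 : c y b = c y b' := mul_left_cancel h1
    rw [hc_inj y b b' h5]
  have hcard := Nat.card_le_card_of_injective f hf
  rw [Nat.card_prod, Nat.card_eq_fintype_card (α := Bool), Fintype.card_bool] at hcard
  show 2 * Nat.card {g : G // orderOf g = p} ≤ Nat.card {g : G // orderOf g = p * q}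
  omega

/-- With two prime divisors and three values, no element has order `p q`. -/
theorem cnt_mul_eq_zero {a b : ℕ}
    (hval : ∀ k, cnt G k = 0 ∨ cnt G k = 1 ∨ cnt G k = a ∨ cnt G k = b)
    {p q : ℕ} (hp : p.Prime) (hq : q.Prime) (hp3 : 3 ≤ p) (hq3 : 3 ≤ q) (hpq : p ≠ q)
    (hpN : p ∣ Nat.card G) (hqN : q ∣ Nat.card G) (hsp : cnt G p = a) (hsq : cnt G q = b) :
    cnt G (p * q) = 0 := by
  have hN := mul_dvd_card_of_primes hp hq hpq hpN hqN
  have hF := frob (G := G) (p * q) hN
  rw [sum_div_pq _ hp hq hpq, cnt_one, hsp, hsq] at hF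
  have hFp : p ∣ 1 + a + (b + cnt G (p * q)) := dvd_trans (Dvd.intro _ rfl) hF
  have hFq : q ∣ 1 + a + (b + cnt G (p * q)) := dvd_trans (Dvd.intro_left _ rfl) hF
  have hpa : p ∣ 1 + a := hsp ▸ frob_prime hp hpN
  have hqb : q ∣ 1 + b := hsq ▸ frob_prime hq hqN
  have ha0 : a ≠ 0 := hsp ▸ cnt_prime_ne_zero hp hpN
  have hb0 : b ≠ 0 := hsq ▸ cnt_prime_ne_zero hq hqN
  have hp1 : ¬ p ∣ 1 := Nat.Prime.not_dvd_one hp
  have hq1 : ¬ q ∣ 1 := Nat.Prime.not_dvd_one hq
  rcases hval (p * q) with h | h | h | h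
  · exact h
  · exact absurd h (cnt_ne_one_of_three_le (by nlinarith))
  · exfalso
    rw [h] at hFp
    have h1 : p ∣ b + a := (Nat.dvd_add_right hpa).mp hFp
    have hnd : ¬ p ∣ cnt G q := by
      rw [hsq]
      intro hb
      have h2 : p ∣ a := (Nat.dvd_add_right hb).mp h1
      exact hp1 ((Nat.dvd_add_left h2).mp hpa)
    have := two_mul_cnt_le hp hq hq3 hpq hnd
    rw [h, hsp] at this
    omega
  · exfalso
    rw [h] at hFq
    have h1 : q ∣ a + b := by
      have e : 1 + a + (b + b) = (1 + b) + (a + b) := by ring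
      rw [e] at hFq
      exact (Nat.dvd_add_right hqb).mp hFq
    have hnd : ¬ q ∣ cnt G p := by
      rw [hsp]
      intro ha
      have h2 : q ∣ b := (Nat.dvd_add_right ha).mp h1
      exact hq1 ((Nat.dvd_add_left h2).mp hqb)
    have := two_mul_cnt_le hq hp hp3 (Ne.symm hpq) hnd
    rw [mul_comm q p, h, hsq] at this
    omega

/-- With two prime divisors, three values and no element of order `p q`, no element has order
`p ^ 2`. -/
theorem cnt_sq_eq_zero {a b : ℕ}
    (hval : ∀ k, cnt G k = 0 ∨ cnt G k = 1 ∨ cnt G k = a ∨ cnt G k = b)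
    {p q : ℕ} (hp : p.Prime) (hq : q.Prime) (hp3 : 3 ≤ p) (hpq : p ≠ q)
    (hpN : p ∣ Nat.card G) (hqN : q ∣ Nat.card G) (hsp : cnt G p = a) (hsq : cnt G q = b)
    (hno : cnt G (p * q) = 0) : cnt G (p ^ 2) = 0 := by
  by_contra hne
  haveI : Fact q.Prime := ⟨hq⟩
  have hpa : p ∣ 1 + a := hsp ▸ frob_prime hp hpN
  have hqb : q ∣ 1 + b := hsq ▸ frob_prime hq hqN
  have hp1 : ¬ p ∣ 1 := Nat.Prime.not_dvd_one hp
  have hq1 : ¬ q ∣ 1 := Nat.Prime.not_dvd_one hq
  -- `q` divides the number of elements of order `p ^ 2`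
  have hqs : q ∣ cnt G (p ^ 2) := by
    by_contra hnd
    obtain ⟨y, hy⟩ := exists_of_cnt_ne_zero (cnt_prime_ne_zero hq hqN)
    obtain ⟨w, hw, hc⟩ := exists_commute_order hq hnd y hy
    have hw2 : orderOf (w ^ p) = p := by
      have := orderOf_pow_orderOf_div (x := w) (n := p) (orderOf_pos w).ne'
        (by rw [hw]; exact Dvd.intro_left _ (pow_two p).symm)
      rw [hw, pow_two, Nat.mul_div_cancel _ hp.pos] at this
      exact this
    have hc' : Commute (w ^ p) y := (hc.pow_right p).symm
    have hord : orderOf (w ^ p * y) = p * q := by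
      rw [hc'.orderOf_mul_eq_mul_orderOf_of_coprime
        (by rw [hw2, hy]; exact (Nat.coprime_primes hp hq).mpr hpq), hw2, hy]
    have := cnt_orderOf_ne_zero (w ^ p * y)
    rw [hord] at this
    exact this hno
  rcases hval (p ^ 2) with h | h | h | h
  · exact hne h
  · exact absurd h (cnt_ne_one_of_three_le (by nlinarith))
  · -- Frobenius for `p ^ 2`
    have hN : p ^ 2 ∣ Nat.card G := dvd_card_of_cnt_ne_zero hne
    have hF := frob (G := G) (p ^ 2) hN
    rw [Nat.sum_divisors_prime_pow hp, Finset.sum_range_succ, Finset.sum_range_succ,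
      Finset.sum_range_one, pow_zero, pow_one, cnt_one, hsp, h] at hF
    have hFp : p ∣ 1 + a + a := dvd_trans (dvd_pow_self p (by norm_num)) hF
    have h2 : p ∣ a := (Nat.dvd_add_right hpa).mp hFp
    exact hp1 ((Nat.dvd_add_left h2).mp hpa)
  · rw [h] at hqs
    exact hq1 ((Nat.dvd_add_left hqs).mp hqb)

/-- With no elements of orders `p q`, `p ^ 2`, `q ^ 2`, every element has order `1`, `p` or
`q`. -/
theorem pow_eq_one_of_cnt {p q : ℕ} (hp : p.Prime) (hq : q.Prime)
    (hpf : ∀ r : ℕ, r.Prime → r ∣ Nat.card G → r = p ∨ r = q)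
    (hpq : cnt G (p * q) = 0) (hpp : cnt G (p ^ 2) = 0) (hqq : cnt G (q ^ 2) = 0) (g : G) :
    g ^ p = 1 ∨ g ^ q = 1 := by
  have hzero : ∀ r r' : ℕ, (r = p ∨ r = q) → (r' = p ∨ r' = q) → cnt G (r * r') = 0 := by
    rintro r r' (rfl | rfl) (rfl | rfl)
    · rw [← pow_two]; exact hpp
    · exact hpq
    · rw [mul_comm]; exact hpq
    · rw [← pow_two]; exact hqq
  have hn0 : cnt G (orderOf g) ≠ 0 := cnt_orderOf_ne_zero g
  have hnN : orderOf g ∣ Nat.card G := orderOf_dvd_natCard g
  have key : ∀ r : ℕ, r.Prime → r ∣ orderOf g → orderOf g = r := by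
    intro r hr hrn
    have hr' := hpf r hr (dvd_trans hrn hnN)
    obtain ⟨n', hn'⟩ := hrn
    by_cases h1 : n' = 1
    · rw [hn', h1, mul_one]
    · exfalso
      obtain ⟨r', hr'p, hr'n⟩ := Nat.exists_prime_and_dvd h1
      have hdvd : r * r' ∣ orderOf g := by
        rw [hn']; exact Nat.mul_dvd_mul_left r hr'n
      exact cnt_ne_zero_of_dvd hn0 hdvd
        (hzero r r' hr' (hpf r' hr'p (dvd_trans (dvd_trans (Dvd.intro_left _ rfl) hdvd) hnN)))
  by_cases h1 : orderOf g = 1
  · left
    rw [orderOf_eq_one_iff.mp h1, one_pow]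
  · obtain ⟨r, hr, hrn⟩ := Nat.exists_prime_and_dvd h1
    have hgr : g ^ r = 1 := by
      rw [← key r hr hrn]; exact pow_orderOf_eq_one g
    rcases hpf r hr (dvd_trans hrn hnN) with rfl | rfl
    · exact Or.inl hgr
    · exact Or.inr hgr

/-- With no element of order `p q`, elements of orders `p` and `q` do not commute. -/
theorem eq_one_of_commute_of_cnt {p q : ℕ} (hp : p.Prime) (hq : q.Prime) (hne : p ≠ q)
    (hpq : cnt G (p * q) = 0) (x y : G) (hx : x ^ p = 1) (hy : y ^ q = 1) (hc : x * y = y * x) :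
    x = 1 ∨ y = 1 := by
  by_contra hcon
  push Not at hcon
  haveI : Fact p.Prime := ⟨hp⟩
  haveI : Fact q.Prime := ⟨hq⟩
  have hox : orderOf x = p := orderOf_eq_prime hx hcon.1
  have hoy : orderOf y = q := orderOf_eq_prime hy hcon.2
  have hc' : Commute x y := hc
  have hord : orderOf (x * y) = p * q := by
    rw [hc'.orderOf_mul_eq_mul_orderOf_of_coprime
      (by rw [hox, hoy]; exact (Nat.coprime_primes hp hq).mpr hne), hox, hoy]
  have := cnt_orderOf_ne_zero (x * y)
  rw [hord] at this
  exact this hpq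

end Cfsg.Agent.H51.Nse3
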