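import Mathlib
import Cfsg.Agent.H51.Nse3Odd

/-! Groups whose numbers of elements of each order take at most three values (helper51):
groups of even order. -/

set_option autoImplicit false

namespace Cfsg.Agent.H51.Nse3

open Cfsg.Agent.H21.TwoCounts Cfsg.Agent.H51.Nse

variable {G : Type*} [Group G] [Finite G]

/-- If the number of involutions is not `1`, at most one odd prime divides the order. -/
theorem no_two_odd_of_cnt_two {m n : ℕ}
    (hval : ∀ k, cnt G k = 0 ∨ cnt G k = 1 ∨ cnt G k = m ∨ cnt G k = n)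
    (h2N : 2 ∣ Nat.card G) (h21 : cnt G 2 ≠ 1)
    {p q : ℕ} (hp : p.Prime) (hq : q.Prime) (hp3 : 3 ≤ p) (hq3 : 3 ≤ q) (hpq : p ≠ q)
    (hpN : p ∣ Nat.card G) (hqN : q ∣ Nat.card G) : False := by
  have h20 : cnt G 2 ≠ 0 := cnt_prime_ne_zero Nat.prime_two h2N
  have hodd2 := frob_prime (G := G) Nat.prime_two h2N
  have hep := cnt_even (G := G) p hp3
  have heq := cnt_even (G := G) q hq3
  have hepq := cnt_even (G := G) (p * q) (by nlinarith)
  have hp0 := cnt_prime_ne_zero (G := G) hp hpN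
  have hq0 := cnt_prime_ne_zero (G := G) hq hqN
  have hc : cnt G p = cnt G q → cnt G (p * q) ≠ 0 ∧ cnt G (p * q) ≠ cnt G p :=
    fun h => claim1_ne hp hq hp3 hpq hpN hqN h
  rcases hval 2 with a | a | a | a <;> rcases hval p with b | b | b | b <;>
    rcases hval q with c | c | c | c <;> rcases hval (p * q) with d | d | d | d <;> omega

theorem coprime_four {p : ℕ} (hp : p.Prime) (hp3 : 3 ≤ p) : Nat.Coprime 4 p :=
  ((Nat.Prime.coprime_iff_not_dvd hp).mpr (not_dvd_four hp hp3)).symm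

/-- Unique involution, order divisible by `4`, two odd primes with the same count. -/
theorem four_alpha {m n : ℕ}
    (hval : ∀ k, cnt G k = 0 ∨ cnt G k = 1 ∨ cnt G k = m ∨ cnt G k = n)
    (h4 : 4 ∣ Nat.card G) (h2 : cnt G 2 = 1)
    {p q : ℕ} (hp : p.Prime) (hq : q.Prime) (hp3 : 3 ≤ p) (hq3 : 3 ≤ q) (hpq : p ≠ q)
    (hpN : p ∣ Nat.card G) (hqN : q ∣ Nat.card G) (h : cnt G p = cnt G q) : False := by
  obtain ⟨a, hsp⟩ : ∃ a, cnt G p = a := ⟨_, rfl⟩
  have hsq : cnt G q = a := by rw [← h]; exact hsp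
  obtain ⟨b, hspq⟩ : ∃ b, cnt G (p * q) = b := ⟨_, rfl⟩
  obtain ⟨hb0, hba⟩ := claim1_ne hp hq hp3 hpq hpN hqN h
  rw [hspq] at hb0
  rw [hspq, hsp] at hba
  have ha0 : a ≠ 0 := by rw [← hsp]; exact cnt_prime_ne_zero hp hpN
  have ha1 : a ≠ 1 := by rw [← hsp]; exact cnt_ne_one_of_three_le hp3
  have hae : 2 ∣ a := by rw [← hsp]; exact cnt_even p hp3
  have hpq3 : 3 ≤ p * q := by nlinarith
  have hb1 : b ≠ 1 := by rw [← hspq]; exact cnt_ne_one_of_three_le hpq3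
  have hval' : ∀ k, cnt G k = 0 ∨ cnt G k = 1 ∨ cnt G k = a ∨ cnt G k = b := by
    apply vals_rename hval _ _ (Ne.symm hba)
    · have := hval p
      rw [hsp] at this
      rcases this with h | h | h | h
      · exact absurd h ha0
      · exact absurd h ha1
      · exact Or.inl h
      · exact Or.inr h
    · have := hval (p * q)
      rw [hspq] at this
      rcases this with h | h | h | h
      · exact absurd h hb0
      · exact absurd h hb1
      · exact Or.inl h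
      · exact Or.inr h
  have haZp : (a : ZMod p) = ((-1 : ℤ) : ZMod p) := by rw [← hsp]; exact zprime hp hpN
  have haZq : (a : ZMod q) = ((-1 : ℤ) : ZMod q) := by rw [← hsq]; exact zprime hq hqN
  obtain ⟨-, hbZp, hbZq⟩ := claim1_val hval' hp hq hp3 hq3 hpq hpN hqN hsp hsq
  -- divisibility
  have h4pN : 4 * p ∣ Nat.card G := Nat.Coprime.mul_dvd_of_dvd_of_dvd (coprime_four hp hp3) h4 hpN
  have h4qN : 4 * q ∣ Nat.card G := Nat.Coprime.mul_dvd_of_dvd_of_dvd (coprime_four hq hq3) h4 hqN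
  have h4pqN : 4 * p * q ∣ Nat.card G :=
    Nat.Coprime.mul_dvd_of_dvd_of_dvd
      ((Nat.Prime.coprime_iff_not_dvd hq).mpr (not_dvd_four_mul hp hq hq3 hpq)).symm h4pN hqN
  have h2pN : 2 * p ∣ Nat.card G := dvd_trans ⟨2, by ring⟩ h4pN
  have h2qN : 2 * q ∣ Nat.card G := dvd_trans ⟨2, by ring⟩ h4qN
  have h2pqN : 2 * p * q ∣ Nat.card G := dvd_trans ⟨2, by ring⟩ h4pqN
  have h2p : (2 : ℕ) ≠ p := by omega
  have h2q : (2 : ℕ) ≠ q := by omega
  -- the count of order 4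
  have hf4 := frob (G := G) 4 h4
  rw [sum_divisors_four, cnt_one, h2] at hf4
  -- order 2p, 2q
  have res : ∀ (x : ℕ) (hx3 : 3 ≤ x) (k : ℕ) (γ : ℤ), (a : ZMod x) = ((-1 : ℤ) : ZMod x) →
      (b : ZMod x) = ((1 : ℤ) : ZMod x) → (γ = -1 ∨ γ = 0 ∨ γ = 1) →
      (cnt G k : ZMod x) = (γ : ZMod x) → 3 ≤ k →
      (cnt G k = 0 ∧ γ = 0) ∨ (cnt G k = a ∧ γ = -1) ∨ (cnt G k = b ∧ γ = 1) := by
    intro x hx3 k γ hax hbx hγ hk hk3
    rcases resolve hx3 (hval' k) (Or.inl rfl) (Or.inr (Or.inr rfl)) hγ hax hbx hk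
      with h | ⟨h, -⟩ | h | h
    · exact Or.inl h
    · exact absurd h (cnt_ne_one_of_three_le hk3)
    · exact Or.inr (Or.inl h)
    · exact Or.inr (Or.inr h)
  have hs2x : ∀ x, x.Prime → 3 ≤ x → 2 * x ∣ Nat.card G → cnt G x = a →
      (a : ZMod x) = ((-1 : ℤ) : ZMod x) → (b : ZMod x) = ((1 : ℤ) : ZMod x) →
      cnt G (2 * x) = a := by
    intro x hx hx3 hxN hsx hax hbx
    have e := zfrob_pq Nat.prime_two hx (by omega) hxN x (Dvd.intro_left _ rfl)
    rw [h2, hsx] at e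
    have hZ : (cnt G (2 * x) : ZMod x) = ((-1 : ℤ) : ZMod x) := by
      push_cast at hax e ⊢
      linear_combination e - hax
    rcases res x hx3 (2 * x) (-1) hax hbx (Or.inl rfl) hZ (by omega) with ⟨h, h'⟩ | ⟨h, h'⟩ | ⟨h, h'⟩
    · omega
    · exact h
    · omega
  have hs2p := hs2x p hp hp3 h2pN hsp haZp hbZp
  have hs2q := hs2x q hq hq3 h2qN hsq haZq hbZq
  -- order 2pq
  have hs2pq : cnt G (2 * p * q) = b := by
    have e := zfrob_pqr Nat.prime_two hp hq h2p h2q hpq h2pqN p ⟨2 * q, by ring⟩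
    rw [h2, hsp, hs2p, hsq, hs2q, hspq] at e
    have hZ : (cnt G (2 * p * q) : ZMod p) = ((1 : ℤ) : ZMod p) := by
      push_cast at haZp hbZp e ⊢
      linear_combination e - 4 * haZp - hbZp
    rcases res p hp3 (2 * p * q) 1 haZp hbZp (Or.inr (Or.inr rfl)) hZ (by nlinarith)
      with ⟨h, h'⟩ | ⟨h, h'⟩ | ⟨h, h'⟩
    · omega
    · omega
    · exact h
  -- order 4
  have hs4 : cnt G 4 = a ∨ cnt G 4 = b := by
    rcases hval' 4 with h | h | h | h
    · omega
    · omega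
    · exact Or.inl h
    · exact Or.inr h
  -- orders 4x
  have hs4x : ∀ x, x.Prime → 3 ≤ x → 4 * x ∣ Nat.card G → cnt G x = a → cnt G (2 * x) = a →
      (a : ZMod x) = ((-1 : ℤ) : ZMod x) → (b : ZMod x) = ((1 : ℤ) : ZMod x) →
      (cnt G 4 = a → cnt G (4 * x) = b) ∧ (cnt G 4 = b → cnt G (4 * x) = a) := by
    intro x hx hx3 hxN hsx hs2x' hax hbx
    have e := zfrob_4p hx hx3 hxN x (Dvd.intro_left _ rfl)
    rw [h2, hsx, hs2x'] at e
    constructor
    · intro h4a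
      rw [h4a] at e
      have hZ : (cnt G (4 * x) : ZMod x) = ((1 : ℤ) : ZMod x) := by
        push_cast at hax e ⊢
        linear_combination e - 3 * hax
      rcases res x hx3 (4 * x) 1 hax hbx (Or.inr (Or.inr rfl)) hZ (by omega)
        with ⟨h, h'⟩ | ⟨h, h'⟩ | ⟨h, h'⟩
      · omega
      · omega
      · exact h
    · intro h4b
      rw [h4b] at e
      have hZ : (cnt G (4 * x) : ZMod x) = ((-1 : ℤ) : ZMod x) := by
        push_cast at hax hbx e ⊢
        linear_combination e - 2 * hax - hbx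
      rcases res x hx3 (4 * x) (-1) hax hbx (Or.inl rfl) hZ (by omega)
        with ⟨h, h'⟩ | ⟨h, h'⟩ | ⟨h, h'⟩
      · omega
      · exact h
      · omega
  obtain ⟨hp4a, hp4b⟩ := hs4x p hp hp3 h4pN hsp hs2p haZp hbZp
  obtain ⟨hq4a, hq4b⟩ := hs4x q hq hq3 h4qN hsq hs2q haZq hbZq
  -- order 4pq
  have e := zfrob_4pq hp hq hp3 hq3 hpq h4pqN p ⟨4 * q, by ring⟩
  have hF := frob (G := G) (4 * p * q) h4pqN
  rw [sum_div_4pq _ hp hq hp3 hq3 hpq, cnt_one, h2, hsp, hsq, hspq, hs2p, hs2q, hs2pq] at hF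
  have hF4 : 4 ∣ 1 + 1 + cnt G 4 + (a + a + cnt G (4 * p)) +
      (a + a + cnt G (4 * q) + (b + b + cnt G (4 * p * q))) := dvd_trans ⟨p * q, by ring⟩ hF
  rw [h2, hsp, hs2p, hsq, hs2q, hspq, hs2pq] at e
  have h4pq3 : 3 ≤ 4 * p * q := by nlinarith
  rcases hs4 with h4a | h4b
  · rw [h4a, hp4a h4a, hq4a h4a] at e hF4
    have hZ : (cnt G (4 * p * q) : ZMod p) = ((-1 : ℤ) : ZMod p) := by
      push_cast at haZp hbZp e ⊢
      linear_combination e - 5 * haZp - 4 * hbZp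
    rcases res p hp3 (4 * p * q) (-1) haZp hbZp (Or.inl rfl) hZ h4pq3
      with ⟨h, h'⟩ | ⟨h, h'⟩ | ⟨h, h'⟩
    · omega
    · rw [h] at hF4; omega
    · omega
  · rw [h4b, hp4b h4b, hq4b h4b] at e hF4
    have hZ : (cnt G (4 * p * q) : ZMod p) = ((1 : ℤ) : ZMod p) := by
      push_cast at haZp hbZp e ⊢
      linear_combination e - 6 * haZp - 3 * hbZp
    rcases res p hp3 (4 * p * q) 1 haZp hbZp (Or.inr (Or.inr rfl)) hZ h4pq3
      with ⟨h, h'⟩ | ⟨h, h'⟩ | ⟨h, h'⟩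
    · omega
    · omega
    · rw [h] at hF4; omega

/-- Unique involution, order divisible by `4`, two odd primes with different counts, the first
being the count of order `4`. -/
theorem four_beta {m n : ℕ}
    (hval : ∀ k, cnt G k = 0 ∨ cnt G k = 1 ∨ cnt G k = m ∨ cnt G k = n)
    (h4 : 4 ∣ Nat.card G) (h2 : cnt G 2 = 1)
    {p q : ℕ} (hp : p.Prime) (hq : q.Prime) (hp3 : 3 ≤ p) (hq3 : 3 ≤ q) (hpq : p ≠ q)
    (hpN : p ∣ Nat.card G) (hqN : q ∣ Nat.card G) (hne : cnt G p ≠ cnt G q)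
    (h4p : cnt G 4 = cnt G p) : False := by
  obtain ⟨a, hsp⟩ : ∃ a, cnt G p = a := ⟨_, rfl⟩
  obtain ⟨b, hsq⟩ : ∃ b, cnt G q = b := ⟨_, rfl⟩
  rw [hsp, hsq] at hne
  rw [hsp] at h4p
  have ha0 : a ≠ 0 := by rw [← hsp]; exact cnt_prime_ne_zero hp hpN
  have ha1 : a ≠ 1 := by rw [← hsp]; exact cnt_ne_one_of_three_le hp3
  have hb0 : b ≠ 0 := by rw [← hsq]; exact cnt_prime_ne_zero hq hqN
  have hb1 : b ≠ 1 := by rw [← hsq]; exact cnt_ne_one_of_three_le hq3
  have hpq3 : 3 ≤ p * q := by nlinarith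
  have hval' : ∀ k, cnt G k = 0 ∨ cnt G k = 1 ∨ cnt G k = a ∨ cnt G k = b := by
    apply vals_rename hval _ _ hne
    · have := hval p
      rw [hsp] at this
      rcases this with h | h | h | h
      · exact absurd h ha0
      · exact absurd h ha1
      · exact Or.inl h
      · exact Or.inr h
    · have := hval q
      rw [hsq] at this
      rcases this with h | h | h | h
      · exact absurd h hb0
      · exact absurd h hb1
      · exact Or.inl h
      · exact Or.inr h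
  have haZp : (a : ZMod p) = ((-1 : ℤ) : ZMod p) := by rw [← hsp]; exact zprime hp hpN
  have hbZq : (b : ZMod q) = ((-1 : ℤ) : ZMod q) := by rw [← hsq]; exact zprime hq hqN
  -- divisibility
  have hpqN := mul_dvd_card_of_primes hp hq hpq hpN hqN
  have h4pN : 4 * p ∣ Nat.card G := Nat.Coprime.mul_dvd_of_dvd_of_dvd (coprime_four hp hp3) h4 hpN
  have h4qN : 4 * q ∣ Nat.card G := Nat.Coprime.mul_dvd_of_dvd_of_dvd (coprime_four hq hq3) h4 hqN
  have h4pqN : 4 * p * q ∣ Nat.card G :=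
    Nat.Coprime.mul_dvd_of_dvd_of_dvd
      ((Nat.Prime.coprime_iff_not_dvd hq).mpr (not_dvd_four_mul hp hq hq3 hpq)).symm h4pN hqN
  have h2pN : 2 * p ∣ Nat.card G := dvd_trans ⟨2, by ring⟩ h4pN
  have h2qN : 2 * q ∣ Nat.card G := dvd_trans ⟨2, by ring⟩ h4qN
  have h2pqN : 2 * p * q ∣ Nat.card G := dvd_trans ⟨2, by ring⟩ h4pqN
  have h2p : (2 : ℕ) ≠ p := by omega
  have h2q : (2 : ℕ) ≠ q := by omega
  -- the count of order 4
  have hf4 := frob (G := G) 4 h4
  rw [sum_divisors_four, cnt_one, h2, h4p] at hf4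
  -- order 2p modulo p
  have e2p := zfrob_pq Nat.prime_two hp h2p h2pN p (Dvd.intro_left _ rfl)
  rw [h2, hsp] at e2p
  have hs2pZ : (cnt G (2 * p) : ZMod p) = ((-1 : ℤ) : ZMod p) := by
    push_cast at haZp e2p ⊢
    linear_combination e2p - haZp
  -- order 4p modulo p
  have e4p := zfrob_4p hp hp3 h4pN p (Dvd.intro_left _ rfl)
  rw [h2, h4p, hsp] at e4p
  have hs4pZ : (cnt G (4 * p) : ZMod p) = ((1 : ℤ) : ZMod p) := by
    push_cast at haZp hs2pZ e4p ⊢
    linear_combination e4p - 2 * haZp - hs2pZ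
  have hs4p : cnt G (4 * p) = b := by
    rcases hval' (4 * p) with h | h | h | h
    · rw [h] at hs4pZ
      have := zmod_small_inj hp3 (Or.inr (Or.inl rfl)) (Or.inr (Or.inr rfl))
        (by simpa using hs4pZ)
      omega
    · exact absurd h (cnt_ne_one_of_three_le (by omega))
    · rw [h, haZp] at hs4pZ
      have := zmod_small_inj hp3 (Or.inl rfl) (Or.inr (Or.inr rfl)) hs4pZ
      omega
    · exact h
  have hbZp : (b : ZMod p) = ((1 : ℤ) : ZMod p) := by rw [← hs4p]; exact hs4pZ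
  have hs2p : cnt G (2 * p) = a := by
    rcases resolve hp3 (hval' (2 * p)) (Or.inl rfl) (Or.inr (Or.inr rfl)) (Or.inl rfl) haZp hbZp
      hs2pZ with ⟨h, h'⟩ | ⟨h, h'⟩ | ⟨h, h'⟩ | ⟨h, h'⟩
    · omega
    · omega
    · exact h
    · omega
  -- 4 divides b
  have hF4p := frob (G := G) (4 * p) h4pN
  rw [sum_div_4p _ hp hp3, cnt_one, h2, h4p, hsp, hs2p, hs4p] at hF4p
  have hb4 : 4 ∣ b := by
    have : 4 ∣ 1 + 1 + a + (a + a + b) := dvd_trans ⟨p, by ring⟩ hF4p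
    omega
  -- order pq
  have epq := zfrob_pq hp hq hpq hpqN p (Dvd.intro _ rfl)
  rw [hsp, hsq] at epq
  have hspqZ : (cnt G (p * q) : ZMod p) = ((-1 : ℤ) : ZMod p) := by
    push_cast at haZp hbZp epq ⊢
    linear_combination epq - haZp - hbZp
  have hspq : cnt G (p * q) = a := by
    rcases resolve hp3 (hval' (p * q)) (Or.inl rfl) (Or.inr (Or.inr rfl)) (Or.inl rfl) haZp hbZp
      hspqZ with ⟨h, h'⟩ | ⟨h, h'⟩ | ⟨h, h'⟩ | ⟨h, h'⟩
    · omega
    · omega
    · exact h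
    · omega
  have : Fact q.Prime := ⟨hq⟩
  have epq' := zfrob_pq hp hq hpq hpqN q (Dvd.intro_left _ rfl)
  rw [hsp, hsq, hspq] at epq'
  have haZq : (a : ZMod q) = ((0 : ℤ) : ZMod q) := by
    have h2a : (2 : ZMod q) * (a : ZMod q) = 0 := by
      push_cast at hbZq
      linear_combination epq' - hbZq
    push_cast
    exact (mul_eq_zero.mp h2a).resolve_left (z_two_ne_zero hq3)
  -- order 2q
  have e2q := zfrob_pq Nat.prime_two hq h2q h2qN q (Dvd.intro_left _ rfl)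
  rw [h2, hsq] at e2q
  have hs2qZ : (cnt G (2 * q) : ZMod q) = ((-1 : ℤ) : ZMod q) := by
    push_cast at hbZq e2q ⊢
    linear_combination e2q - hbZq
  have hs2q : cnt G (2 * q) = b := by
    rcases resolve hq3 (hval' (2 * q)) (Or.inr (Or.inl rfl)) (Or.inl rfl) (Or.inl rfl) haZq hbZq
      hs2qZ with ⟨h, h'⟩ | ⟨h, h'⟩ | ⟨h, h'⟩ | ⟨h, h'⟩
    · omega
    · omega
    · omega
    · exact h
  -- order 4q
  have e4q := zfrob_4p hq hq3 h4qN q (Dvd.intro_left _ rfl)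
  rw [h2, h4p, hsq, hs2q] at e4q
  have hs4qZ : (cnt G (4 * q) : ZMod q) = ((0 : ℤ) : ZMod q) := by
    push_cast at haZq hbZq e4q ⊢
    linear_combination e4q - haZq - 2 * hbZq
  have hF4q := frob (G := G) (4 * q) h4qN
  rw [sum_div_4p _ hq hq3, cnt_one, h2, h4p, hsq, hs2q] at hF4q
  have hF4q' : 4 ∣ 1 + 1 + a + (b + b + cnt G (4 * q)) := dvd_trans ⟨q, by ring⟩ hF4q
  have hs4q : cnt G (4 * q) = 0 := by
    rcases resolve hq3 (hval' (4 * q)) (Or.inr (Or.inl rfl)) (Or.inl rfl) (Or.inr (Or.inl rfl))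
      haZq hbZq hs4qZ with ⟨h, h'⟩ | ⟨h, h'⟩ | ⟨h, h'⟩ | ⟨h, h'⟩
    · exact h
    · omega
    · rw [h] at hF4q'; omega
    · omega
  have hs4pq : cnt G (4 * p * q) = 0 := by
    by_contra hne0
    exact cnt_ne_zero_of_dvd hne0 ⟨p, by ring⟩ hs4q
  -- order 2pq
  have e2pq := zfrob_pqr Nat.prime_two hp hq h2p h2q hpq h2pqN p ⟨2 * q, by ring⟩
  rw [h2, hsp, hs2p, hsq, hs2q, hspq] at e2pq
  have hs2pqZ : (cnt G (2 * p * q) : ZMod p) = ((-1 : ℤ) : ZMod p) := by
    push_cast at haZp hbZp e2pq ⊢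
    linear_combination e2pq - 3 * haZp - 2 * hbZp
  have hs2pq : cnt G (2 * p * q) = a := by
    rcases resolve hp3 (hval' (2 * p * q)) (Or.inl rfl) (Or.inr (Or.inr rfl)) (Or.inl rfl) haZp
      hbZp hs2pqZ with ⟨h, h'⟩ | ⟨h, h'⟩ | ⟨h, h'⟩ | ⟨h, h'⟩
    · omega
    · omega
    · exact h
    · omega
  -- order 4pq modulo q
  have e := zfrob_4pq hp hq hp3 hq3 hpq h4pqN q (Dvd.intro_left _ rfl)
  rw [h2, h4p, hsp, hs2p, hs4p, hsq, hs2q, hs4q, hspq, hs2pq, hs4pq] at e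
  have hfin : ((-1 : ℤ) : ZMod q) = ((0 : ℤ) : ZMod q) := by
    push_cast at haZq hbZq e ⊢
    linear_combination e - 5 * haZq - 3 * hbZq
  have := zmod_small_inj hq3 (Or.inl rfl) (Or.inr (Or.inl rfl)) hfin
  omega

/-- Unique involution and order divisible by `4`: at most one odd prime divides the order. -/
theorem no_two_odd_of_four {m n : ℕ}
    (hval : ∀ k, cnt G k = 0 ∨ cnt G k = 1 ∨ cnt G k = m ∨ cnt G k = n)
    (h4 : 4 ∣ Nat.card G) (h2 : cnt G 2 = 1)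
    {p q : ℕ} (hp : p.Prime) (hq : q.Prime) (hp3 : 3 ≤ p) (hq3 : 3 ≤ q) (hpq : p ≠ q)
    (hpN : p ∣ Nat.card G) (hqN : q ∣ Nat.card G) : False := by
  by_cases h : cnt G p = cnt G q
  · exact four_alpha hval h4 h2 hp hq hp3 hq3 hpq hpN hqN h
  · have hf4 := frob (G := G) 4 h4
    rw [sum_divisors_four, cnt_one, h2] at hf4
    have hp0 := cnt_prime_ne_zero (G := G) hp hpN
    have hq0 := cnt_prime_ne_zero (G := G) hq hqN
    have hp1 := cnt_ne_one_of_three_le (G := G) hp3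
    have hq1 := cnt_ne_one_of_three_le (G := G) hq3
    have h4' : cnt G 4 = cnt G p ∨ cnt G 4 = cnt G q := by
      rcases hval 4 with a | a | a | a <;> rcases hval p with b | b | b | b <;>
        rcases hval q with c | c | c | c <;> omega
    rcases h4' with h4p | h4q
    · exact four_beta hval h4 h2 hp hq hp3 hq3 hpq hpN hqN h h4p
    · exact four_beta hval h4 h2 hq hp hq3 hp3 (Ne.symm hpq) hqN hpN (Ne.symm h) h4q

end Cfsg.Agent.H51.Nse3
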