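import Mathlib
import Cfsg.Agent.H72.ItoNorm
import Cfsg.Prelude.Def_Solvable

/-! A trace argument for a group `Z ⋊ ⟨u⟩` acting on an abelian group (helper51), and
Frobenius complements of prime order in groups whose elements have order `1`, `p` or `q`. -/

set_option autoImplicit false
set_option linter.style.haveILetI false

namespace Cfsg.Agent.H51.Nse3

open scoped Pointwise

/-- Trace argument: `Z` acts without non-trivial fixed points on the abelian group `V`, `u`
normalises `Z`, and every `x u` (`x ∈ Z`) has `p`-th power one and trivial norm on `V`. Then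
`V` has exponent dividing the order of `Z`. -/
theorem trace_key {X V : Type*} [Group X] [CommGroup V] [MulDistribMulAction X V]
    (Z : Subgroup X) [Finite Z] (u : X) (p : ℕ) (hp : p.Prime)
    (hnorm : ∀ x ∈ Z, u * x * u⁻¹ ∈ Z)
    (hpow : ∀ x ∈ Z, (x * u) ^ p = 1)
    (hN : ∀ x ∈ Z, ∀ v : V, ∏ j ∈ Finset.range p, ((x * u) ^ j) • v = 1)
    (hfix : ∀ v : V, (∀ x ∈ Z, x • v = v) → v = 1) (v : V) :
    v ^ Nat.card Z = 1 := by
  classical
  haveI := Fintype.ofFinite Z
  have h1 : ∀ j : ℕ, ∀ x ∈ Z, u ^ j * x * (u ^ j)⁻¹ ∈ Z := by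
    intro j
    induction j with
    | zero => intro x hx; simpa using hx
    | succ j ih =>
      intro x hx
      have h := hnorm _ (ih x hx)
      have e : u ^ (j + 1) * x * (u ^ (j + 1))⁻¹ = u * (u ^ j * x * (u ^ j)⁻¹) * u⁻¹ := by
        rw [pow_succ']; group
      rw [e]; exact h
  have h2 : ∀ j : ℕ, ∀ x ∈ Z, (x * u) ^ j * (u ^ j)⁻¹ ∈ Z := by
    intro j
    induction j with
    | zero => intro x _; simp
    | succ j ih =>
      intro x hx
      have e : (x * u) ^ (j + 1) * (u ^ (j + 1))⁻¹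
          = ((x * u) ^ j * (u ^ j)⁻¹) * (u ^ j * x * (u ^ j)⁻¹) := by
        rw [pow_succ, pow_succ]; group
      rw [e]; exact Z.mul_mem (ih x hx) (h1 j x hx)
  have h3 : ∀ w : V, ∏ x : Z, (x : X) • w = 1 := by
    intro w
    apply hfix
    intro y hy
    rw [Finset.smul_prod']
    simp_rw [smul_smul]
    exact Fintype.prod_equiv (Equiv.mulLeft (⟨y, hy⟩ : Z)) _ _ (fun x => rfl)
  have h4 : ∀ j, 0 < j → j < p → ∏ x : Z, ((x : X) * u) ^ j • v = 1 := by
    intro j hj0 hjp
    let φ : Z → Z := fun x => ⟨((x : X) * u) ^ j * (u ^ j)⁻¹, h2 j x x.2⟩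
    have hco : Nat.Coprime j p := by
      rw [Nat.coprime_comm, Nat.Prime.coprime_iff_not_dvd hp]
      exact Nat.not_dvd_of_pos_of_lt hj0 hjp
    have hφ : Function.Injective φ := by
      intro x x' h
      have h' : ((x : X) * u) ^ j = ((x' : X) * u) ^ j := by
        have h0 : ((x : X) * u) ^ j * (u ^ j)⁻¹ = ((x' : X) * u) ^ j * (u ^ j)⁻¹ :=
          congrArg Subtype.val h
        exact mul_right_cancel h0
      obtain ⟨m, -, hm⟩ := Nat.exists_mul_mod_eq_one_of_coprime hco hp.one_lt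
      have e1 : ∀ y ∈ Z, ((y * u) ^ j) ^ m = y * u := by
        intro y hy
        rw [← pow_mul, pow_eq_pow_mod (j * m) (hpow y hy), hm, pow_one]
      have h3' : (x : X) * u = x' * u := by rw [← e1 x x.2, h', e1 x' x'.2]
      exact Subtype.ext (mul_right_cancel h3')
    have hbij : Function.Bijective φ := Finite.injective_iff_bijective.mp hφ
    calc ∏ x : Z, ((x : X) * u) ^ j • v = ∏ x : Z, ((φ x : Z) : X) • (u ^ j • v) := by
          refine Finset.prod_congr rfl (fun x _ => ?_)
          rw [smul_smul]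
          congr 1
          show ((x : X) * u) ^ j = ((x : X) * u) ^ j * (u ^ j)⁻¹ * u ^ j
          group
      _ = ∏ x : Z, (x : X) • (u ^ j • v) :=
          Fintype.prod_bijective φ hbij _ _ (fun x => rfl)
      _ = 1 := h3 _
  have h5 : ∏ x : Z, ∏ j ∈ Finset.range p, ((x : X) * u) ^ j • v = 1 :=
    Finset.prod_eq_one (fun x _ => hN x x.2 v)
  rw [Finset.prod_comm] at h5
  obtain ⟨p', rfl⟩ : ∃ p', p = p' + 1 := ⟨p - 1, by have := hp.pos; omega⟩
  rw [Finset.prod_range_succ'] at h5
  rw [Finset.prod_eq_one (fun j hj => h4 (j + 1) (by omega)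
    (by have := Finset.mem_range.mp hj; omega)), one_mul] at h5
  simpa [Finset.prod_const, Nat.card_eq_fintype_card] using h5

section Concrete

variable {G : Type*} [Group G]

/-- Conjugation action of a group on a normal subgroup. -/
@[reducible] def conjNormalAct (V : Subgroup G) [hV : V.Normal] : MulDistribMulAction G V where
  smul g v := ⟨g * v * g⁻¹, hV.conj_mem v v.2 g⟩
  one_smul v := by
    apply Subtype.ext
    show (1 : G) * v * (1 : G)⁻¹ = v
    group
  mul_smul g h v := by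
    apply Subtype.ext
    show (g * h) * v * (g * h)⁻¹ = g * (h * v * h⁻¹) * g⁻¹
    group
  smul_mul g v w := by
    apply Subtype.ext
    show g * ((v : G) * (w : G)) * g⁻¹ = (g * v * g⁻¹) * (g * w * g⁻¹)
    group
  smul_one g := by
    apply Subtype.ext
    show g * (1 : G) * g⁻¹ = 1
    group

theorem comm_of_conj_eq {g w : G} (h : g * w * g⁻¹ = w) : g * w = w * g :=
  mul_inv_eq_iff_eq_mul.mp h

/-- The trace argument inside a group: `V` abelian normal, `u` normalising `Z`. -/
theorem trace_concrete (V : Subgroup G) [V.Normal] (hVc : ∀ a ∈ V, ∀ b ∈ V, a * b = b * a)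
    (Z : Subgroup G) [Finite Z] (u : G) (p : ℕ) (hp : p.Prime)
    (hnorm : ∀ x ∈ Z, u * x * u⁻¹ ∈ Z)
    (hpow : ∀ x ∈ Z, ∀ v ∈ V, (v * (x * u)) ^ p = 1)
    (hfix : ∀ v ∈ V, (∀ x ∈ Z, x * v = v * x) → v = 1) :
    ∀ v ∈ V, v ^ Nat.card Z = 1 := by
  intro v hv
  letI instC : CommGroup V :=
    { (inferInstance : Group V) with mul_comm := fun a b => Subtype.ext (hVc a a.2 b b.2) }
  letI instA : MulDistribMulAction G V := conjNormalAct V
  have hsm : ∀ (g : G) (w : V), ((g • w : V) : G) = g * w * g⁻¹ := fun _ _ => rfl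
  have hpow1 : ∀ x ∈ Z, (x * u) ^ p = 1 := by
    intro x hx
    have := hpow x hx 1 V.one_mem
    rwa [one_mul] at this
  have key : ∀ (w : G) (v : V) (n : ℕ),
      ((v : G) * w) ^ n = ((∏ j ∈ Finset.range n, (w ^ j) • v : V) : G) * w ^ n := by
    intro w v n
    induction n with
    | zero => simp
    | succ n ih =>
      rw [pow_succ, ih, Finset.prod_range_succ, Subgroup.coe_mul, hsm, pow_succ]
      group
  have h := trace_key (X := G) (V := V) Z u p hp hnorm hpow1 ?_ ?_ ⟨v, hv⟩
  · have := congrArg Subtype.val h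
    simpa using this
  · intro x hx w
    have h1 := key (x * u) w p
    rw [hpow x hx w w.2, hpow1 x hx, mul_one] at h1
    exact Subtype.ext h1.symm
  · intro w hw
    apply Subtype.ext
    apply hfix w w.2
    intro x hx
    have := congrArg Subtype.val (hw x hx)
    rw [hsm] at this
    exact comm_of_conj_eq this

/-- The norm argument inside a group: two commuting elements of order `q` generating a
non-cyclic group cannot act without fixed points on an abelian normal subgroup unless it has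
exponent `q`. -/
theorem norm_concrete (V : Subgroup G) [V.Normal] (hVc : ∀ a ∈ V, ∀ b ∈ V, a * b = b * a)
    (q : ℕ) (hq : q.Prime) (s t : G) (hst : s * t = t * s) (ht : t ^ q = 1)
    (hj : ∀ j < q, (s * t ^ j) ^ q = 1)
    (hfixt : ∀ w ∈ V, t * w = w * t → w = 1)
    (hfixj : ∀ j < q, ∀ w ∈ V, (s * t ^ j) * w = w * (s * t ^ j) → w = 1) :
    ∀ v ∈ V, v ^ q = 1 := by
  intro v hv
  letI instC : CommGroup V :=
    { (inferInstance : Group V) with mul_comm := fun a b => Subtype.ext (hVc a a.2 b b.2) }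
  letI instA : MulDistribMulAction G V := conjNormalAct V
  have hsm : ∀ (g : G) (w : V), ((g • w : V) : G) = g * w * g⁻¹ := fun _ _ => rfl
  have key := Cfsg.Agent.H72.Ito.act_key (X := G) (V := V) q hq ⊥ s t ?_ ?_ ?_ ?_ ?_ ?_ ⟨v, hv⟩
  · rw [Subgroup.mem_bot] at key
    have := congrArg Subtype.val key
    simpa using this
  · intro w
    rw [hst]
  · intro w
    rw [ht, one_smul]
  · intro j hjq w
    rw [hj j hjq, one_smul]
  · intro w hw
    rw [Subgroup.mem_bot]
    apply Subtype.ext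
    apply hfixt w w.2
    have := congrArg Subtype.val hw
    rw [hsm] at this
    exact comm_of_conj_eq this
  · intro j hjq w hw
    rw [Subgroup.mem_bot]
    apply Subtype.ext
    apply hfixj j hjq w w.2
    have := congrArg Subtype.val hw
    rw [hsm] at this
    exact comm_of_conj_eq this
  · intro z hz
    rw [Subgroup.mem_bot] at hz
    rw [hz, smul_one]

/-- An element of `q`-power order normalising a Sylow `q`-subgroup lies in it. -/
theorem mem_sylow_of_normalizes [Finite G] {q : ℕ} [Fact q.Prime] (Q : Sylow q G) (w : G)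
    (hw : w ^ q = 1) (hn : ∀ y ∈ (Q : Subgroup G), w * y * w⁻¹ ∈ (Q : Subgroup G)) :
    w ∈ (Q : Subgroup G) := by
  have hW : IsPGroup q (Subgroup.zpowers w) := by
    rintro ⟨g, hg⟩
    obtain ⟨i, rfl⟩ := Subgroup.mem_zpowers_iff.mp hg
    refine ⟨1, Subtype.ext ?_⟩
    show (w ^ i) ^ q ^ 1 = 1
    rw [pow_one, ← zpow_natCast, ← zpow_mul, mul_comm, zpow_mul, zpow_natCast, hw, one_zpow]
  have hle : Subgroup.zpowers w ≤ Subgroup.normalizer ((Q : Subgroup G) : Set G) := by
    rw [Subgroup.zpowers_le]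
    exact Subgroup.mem_normalizer_fintype (fun n hn' => hn n hn')
  have h1 : IsPGroup q ((Q : Subgroup G) ⊔ Subgroup.zpowers w : Subgroup G) :=
    Q.isPGroup'.to_sup_of_normal_left' hW hle
  have h2 := Q.is_maximal' h1 le_sup_left
  have h3 : w ∈ (Q : Subgroup G) ⊔ Subgroup.zpowers w :=
    (le_sup_right : Subgroup.zpowers w ≤ _) (Subgroup.mem_zpowers w)
  rw [h2] at h3
  exact h3

/-- A group whose elements have order `1`, `p` or `q`, in which elements of order `p` and `q`
never commute, and which has a non-trivial abelian normal `p`-subgroup, has a Frobenius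
complement of order `q`. -/
theorem exists_frobenius_complement [Finite G] {p q : ℕ} (hp : p.Prime) (hq : q.Prime)
    (hpq : p ≠ q) (hord : ∀ g : G, g ^ p = 1 ∨ g ^ q = 1)
    (hcomm : ∀ x y : G, x ^ p = 1 → y ^ q = 1 → x * y = y * x → x = 1 ∨ y = 1)
    (hqN : q ∣ Nat.card G)
    (V : Subgroup G) [V.Normal] (hV1 : V ≠ ⊥) (hVc : ∀ a ∈ V, ∀ b ∈ V, a * b = b * a)
    (hVp : ∀ a ∈ V, a ^ p = 1) :
    ∃ C : Subgroup G, Cfsg.IsFrobeniusComplement C ∧ (Nat.card C).Prime := by
  haveI : Fact q.Prime := ⟨hq⟩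
  haveI : Fact p.Prime := ⟨hp⟩
  have hcop : Nat.Coprime p q := (Nat.coprime_primes hp hq).mpr hpq
  have hone : ∀ g : G, g ^ p = 1 → g ^ q = 1 → g = 1 := fun g h1 h2 =>
    (pow_eq_one_iff_of_coprime hcop).mp ⟨h1, h2⟩
  obtain ⟨Q⟩ : Nonempty (Sylow q G) := inferInstance
  have hQq : ∀ x ∈ (Q : Subgroup G), x ^ q = 1 := by
    intro x hx
    rcases hord x with h | h
    · obtain ⟨k, hk⟩ := Q.isPGroup' ⟨x, hx⟩
      have hk' : x ^ q ^ k = 1 := by simpa using congrArg Subtype.val hk
      have hx1 : x = 1 := (pow_eq_one_iff_of_coprime (Nat.Coprime.pow_right k hcop)).mp ⟨h, hk'⟩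
      rw [hx1, one_pow]
    · exact h
  have hfp : ∀ x : G, x ^ q = 1 → x ≠ 1 → ∀ v ∈ V, x * v = v * x → v = 1 := by
    intro x hx hx1 v hv hc
    rcases hcomm v x (hVp v hv) hx hc.symm with h | h
    · exact h
    · exact absurd h hx1
  obtain ⟨v₀, hv₀, hv₀1⟩ : ∃ v ∈ V, v ≠ 1 := by
    by_contra hcon
    push Not at hcon
    exact hV1 ((Subgroup.eq_bot_iff_forall V).mpr hcon)
  have hVq : ¬ ∀ v ∈ V, v ^ q = 1 := fun h => hv₀1 (hone v₀ (hVp v₀ hv₀) (h v₀ hv₀))
  have hQbot : (Q : Subgroup G) ≠ ⊥ := Q.ne_bot_of_dvd_card hqN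
  -- the Sylow `q`-subgroup has order `q`
  have hQcard : Nat.card (Q : Subgroup G) = q := by
    by_contra hne
    haveI : Nontrivial (Q : Subgroup G) := (Subgroup.nontrivial_iff_ne_bot _).mpr hQbot
    haveI := IsPGroup.center_nontrivial Q.isPGroup'
    obtain ⟨⟨t', ht'⟩, hne'⟩ := exists_ne (1 : Subgroup.center (Q : Subgroup G))
    have ht'1 : t' ≠ 1 := fun h => hne' (Subtype.ext h)
    have htQ : (t' : G) ∈ (Q : Subgroup G) := t'.2
    have ht1 : (t' : G) ≠ 1 := fun h => ht'1 (Subtype.ext h)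
    have htq : (t' : G) ^ q = 1 := hQq _ htQ
    have hto : orderOf (t' : G) = q := orderOf_eq_prime htq ht1
    have hcen : ∀ s ∈ (Q : Subgroup G), s * (t' : G) = (t' : G) * s := by
      intro s hs
      have := Subgroup.mem_center_iff.mp ht' ⟨s, hs⟩
      exact congrArg Subtype.val this
    obtain ⟨s, hsQ, hsz⟩ : ∃ s ∈ (Q : Subgroup G), s ∉ Subgroup.zpowers (t' : G) := by
      by_contra hcon
      push Not at hcon
      have hle : (Q : Subgroup G) ≤ Subgroup.zpowers (t' : G) := fun s hs => hcon s hs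
      have hge : Subgroup.zpowers (t' : G) ≤ (Q : Subgroup G) := (Subgroup.zpowers_le).mpr htQ
      have := congrArg (fun H : Subgroup G => Nat.card H) (le_antisymm hle hge)
      simp only [Nat.card_zpowers, hto] at this
      exact hne this
    have hstj : ∀ j : ℕ, s * (t' : G) ^ j ∈ (Q : Subgroup G) := fun j =>
      Subgroup.mul_mem _ hsQ (Subgroup.pow_mem _ htQ j)
    have hstj1 : ∀ j : ℕ, s * (t' : G) ^ j ≠ 1 := by
      intro j h
      apply hsz
      have e : s = ((t' : G) ^ j)⁻¹ := eq_inv_of_mul_eq_one_left h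
      rw [e]
      exact Subgroup.inv_mem _ (Subgroup.pow_mem _ (Subgroup.mem_zpowers _) j)
    exact hVq (norm_concrete V hVc q hq s (t' : G) (hcen s hsQ) htq
      (fun j _ => hQq _ (hstj j))
      (fun w hw hc => hfp _ htq ht1 w hw hc)
      (fun j _ w hw hc => hfp _ (hQq _ (hstj j)) (hstj1 j) w hw hc))
  refine ⟨Q, ⟨hQbot, ?_, ?_⟩, by rw [hQcard]; exact hq⟩
  · intro htop
    have : v₀ ∈ (Q : Subgroup G) := by rw [htop]; exact Subgroup.mem_top _
    exact hv₀1 (hone v₀ (hVp v₀ hv₀) (hQq v₀ this))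
  · intro g hg
    by_contra hne
    obtain ⟨x, hx, hx1⟩ :
        ∃ x ∈ (Q : Subgroup G) ⊓ (MulAut.conj g • (Q : Subgroup G)), x ≠ 1 := by
      by_contra hcon
      push Not at hcon
      exact hne ((Subgroup.eq_bot_iff_forall _).mpr hcon)
    obtain ⟨hxQ, hxc⟩ := Subgroup.mem_inf.mp hx
    have hox : orderOf x = q := orderOf_eq_prime (hQq x hxQ) hx1
    have hzQ : Subgroup.zpowers x = (Q : Subgroup G) := by
      apply Subgroup.eq_of_le_of_card_ge ((Subgroup.zpowers_le).mpr hxQ)
      rw [Nat.card_zpowers, hox, hQcard]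
    have hle : (Q : Subgroup G) ≤ MulAut.conj g • (Q : Subgroup G) := by
      have h1 : Subgroup.zpowers x ≤ MulAut.conj g • (Q : Subgroup G) :=
        (Subgroup.zpowers_le).mpr hxc
      rwa [hzQ] at h1
    have hnorm : ∀ y ∈ (Q : Subgroup G), g⁻¹ * y * g⁻¹⁻¹ ∈ (Q : Subgroup G) := by
      intro y hy
      have := hle hy
      rw [Subgroup.mem_pointwise_smul_iff_inv_smul_mem] at this
      simpa [MulAut.smul_def] using this
    have hu : g⁻¹ ∉ (Q : Subgroup G) := fun h => hg (by simpa using Subgroup.inv_mem _ h)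
    -- every `x u` has `p`-th power one, even after multiplying by an element of `V`
    have hB : ∀ x ∈ (Q : Subgroup G), ∀ v ∈ V, (v * (x * g⁻¹)) ^ p = 1 := by
      intro x hx v hv
      have hwn : ∀ y ∈ (Q : Subgroup G), (x * g⁻¹) * y * (x * g⁻¹)⁻¹ ∈ (Q : Subgroup G) := by
        intro y hy
        have e : (x * g⁻¹) * y * (x * g⁻¹)⁻¹ = x * (g⁻¹ * y * g⁻¹⁻¹) * x⁻¹ := by group
        rw [e]
        exact Subgroup.mul_mem _ (Subgroup.mul_mem _ hx (hnorm y hy)) (Subgroup.inv_mem _ hx)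
      have hwQ : x * g⁻¹ ∉ (Q : Subgroup G) := by
        intro h
        apply hu
        have e : g⁻¹ = x⁻¹ * (x * g⁻¹) := by group
        rw [e]
        exact Subgroup.mul_mem _ (Subgroup.inv_mem _ hx) h
      have hwp : (x * g⁻¹) ^ p = 1 := by
        rcases hord (x * g⁻¹) with h | h
        · exact h
        · exact absurd (mem_sylow_of_normalizes Q _ h hwn) hwQ
      rcases hord (v * (x * g⁻¹)) with h | h
      · exact h
      · have h1 : (QuotientGroup.mk' V (x * g⁻¹)) ^ q = 1 := by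
          have hv1 : QuotientGroup.mk' V v = 1 := (QuotientGroup.eq_one_iff v).mpr hv
          have e : QuotientGroup.mk' V (v * (x * g⁻¹)) = QuotientGroup.mk' V (x * g⁻¹) := by
            rw [map_mul, hv1, one_mul]
          rw [← e, ← map_pow, h, map_one]
        have h2 : (QuotientGroup.mk' V (x * g⁻¹)) ^ p = 1 := by
          rw [← map_pow, hwp, map_one]
        have h3 : QuotientGroup.mk' V (x * g⁻¹) = 1 := (pow_eq_one_iff_of_coprime hcop).mp ⟨h2, h1⟩
        have h4 : x * g⁻¹ ∈ V := (QuotientGroup.eq_one_iff _).mp h3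
        exact hVp _ (V.mul_mem hv h4)
    have hfin := trace_concrete V hVc (Q : Subgroup G) g⁻¹ p hp hnorm hB
      (fun v hv h => hfp x (hQq x hxQ) hx1 v hv (h x hxQ))
    rw [hQcard] at hfin
    exact hVq hfin

end Concrete

end Cfsg.Agent.H51.Nse3
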