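import Mathlib
import Cfsg.Agent.H51.Nse3Even
import Cfsg.Agent.H4.PaQb

/-! Groups whose numbers of elements of each order take at most three values are solvable
(helper51). -/

set_option autoImplicit false

namespace Cfsg.Agent.H51.Nse3

open Cfsg.Agent.H21.TwoCounts Cfsg.Agent.H51.Nse

variable {G : Type*} [Group G] [Finite G]

/-- A group whose order has at most two prime divisors is solvable (Burnside). -/
theorem solvable_of_no_three_primes
    (h : ∀ p q r : ℕ, p.Prime → q.Prime → r.Prime → p ≠ q → p ≠ r → q ≠ r →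
      p ∣ Nat.card G → q ∣ Nat.card G → r ∣ Nat.card G → False) :
    Group.IsSolvable G := by
  have hN0 : Nat.card G ≠ 0 := Nat.card_pos.ne'
  by_cases h1 : Nat.card G = 1
  · exact Cfsg.Agent.H4.isSolvable_of_card_eq_prime_pow_mul_prime_pow 2 3 0 0 Nat.prime_two
      Nat.prime_three (by rw [h1]; norm_num)
  obtain ⟨p, hp, hpN⟩ := Nat.exists_prime_and_dvd h1
  obtain ⟨a, N1, hpN1, e1⟩ := Nat.exists_eq_pow_mul_and_not_dvd hN0 p hp.ne_one
  by_cases h2 : N1 = 1
  · exact Cfsg.Agent.H4.isSolvable_of_card_eq_prime_pow_mul_prime_pow p 2 a 0 hp Nat.prime_two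
      (by rw [e1, h2]; ring)
  obtain ⟨q, hq, hqN1⟩ := Nat.exists_prime_and_dvd h2
  have hN1 : N1 ≠ 0 := by rintro rfl; exact hpN1 (dvd_zero p)
  obtain ⟨b, N2, hqN2, e2⟩ := Nat.exists_eq_pow_mul_and_not_dvd hN1 q hq.ne_one
  have hqp : q ≠ p := by rintro rfl; exact hpN1 hqN1
  by_cases h3 : N2 = 1
  · exact Cfsg.Agent.H4.isSolvable_of_card_eq_prime_pow_mul_prime_pow p q a b hp hq
      (by rw [e1, e2, h3]; ring)
  obtain ⟨r, hr, hrN2⟩ := Nat.exists_prime_and_dvd h3
  exfalso
  have hrN1 : r ∣ N1 := by rw [e2]; exact Dvd.dvd.mul_left hrN2 _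
  have hrq : r ≠ q := by rintro rfl; exact hqN2 hrN2
  have hrp : r ≠ p := by rintro rfl; exact hpN1 hrN1
  exact h p q r hp hq hr (Ne.symm hqp) (Ne.symm hrp) (Ne.symm hrq) hpN
    (by rw [e1]; exact Dvd.dvd.mul_left hqN1 _) (by rw [e1]; exact Dvd.dvd.mul_left hrN1 _)

/-- Unique involution and order twice an odd number: reduce to a complement of odd order. -/
theorem solvable_of_two_odd {m n : ℕ}
    (hval : ∀ k, cnt G k = 0 ∨ cnt G k = 1 ∨ cnt G k = m ∨ cnt G k = n)
    (h4 : ¬ 4 ∣ Nat.card G) (h2 : cnt G 2 = 1) : Group.IsSolvable G := by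
  obtain ⟨z, hz⟩ := exists_of_cnt_ne_zero (G := G) (k := 2) (by rw [h2]; norm_num)
  have hzc : ∀ g : G, g * z * g⁻¹ = z := fun g => invol_central h2 z hz g
  have hnorm : (Subgroup.zpowers z).Normal := by
    constructor
    intro x hx g
    obtain ⟨k, rfl⟩ := Subgroup.mem_zpowers_iff.mp hx
    have hcomm : Commute g z := by
      show g * z = z * g
      calc g * z = (g * z * g⁻¹) * g := by group
        _ = z * g := by rw [hzc g]
    have hck : Commute g (z ^ k) := hcomm.zpow_right k
    have e : g * z ^ k * g⁻¹ = z ^ k := by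
      calc g * z ^ k * g⁻¹ = (z ^ k * g) * g⁻¹ := by rw [hck.eq]
        _ = z ^ k := by group
    rw [e]; exact Subgroup.zpow_mem_zpowers z k
  have hcardZ : Nat.card (Subgroup.zpowers z) = 2 := by rw [Nat.card_zpowers, hz]
  have hidx : 2 * (Subgroup.zpowers z).index = Nat.card G := by
    have := Subgroup.card_mul_index (Subgroup.zpowers z)
    rw [hcardZ] at this; exact this
  have hcop : Nat.Coprime (Nat.card (Subgroup.zpowers z)) (Subgroup.zpowers z).index := by
    rw [hcardZ]
    exact (Nat.Prime.coprime_iff_not_dvd Nat.prime_two).mpr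
      (fun h => h4 (by obtain ⟨c, hc⟩ := h; exact ⟨c, by omega⟩))
  obtain ⟨K, hK⟩ := Subgroup.exists_right_complement'_of_coprime hcop
  have hKidx : K.index = 2 := by rw [hK.index_eq_card, hcardZ]
  have hKn : K.Normal := Subgroup.normal_of_index_eq_two hKidx
  have hKcard : Nat.card K * 2 = Nat.card G := by
    have := Subgroup.card_mul_index K; rw [hKidx] at this; exact this
  have hKodd : ¬ 2 ∣ Nat.card K := fun h => h4 (by obtain ⟨c, hc⟩ := h; exact ⟨c, by omega⟩)
  have hcntK : ∀ k, cnt K k = 0 ∨ cnt K k = cnt G k := by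
    intro k
    by_cases hk : cnt K k = 0
    · exact Or.inl hk
    right
    have hkK : k ∣ Nat.card K := dvd_card_of_cnt_ne_zero hk
    have hkodd : Nat.Coprime k 2 := by
      rw [Nat.coprime_comm, Nat.Prime.coprime_iff_not_dvd Nat.prime_two]
      exact fun h => hKodd (dvd_trans h hkK)
    show Nat.card {g : K // orderOf g = k} = Nat.card {g : G // orderOf g = k}
    exact Nat.card_congr
      { toFun := fun x => ⟨x.1.1, by rw [Subgroup.orderOf_coe]; exact x.2⟩
        invFun := fun g => ⟨⟨g.1, mem_of_coprime_index K g.1 (by rw [g.2, hKidx]; exact hkodd)⟩,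
          by rw [← Subgroup.orderOf_coe]; exact g.2⟩
        left_inv := fun x => rfl
        right_inv := fun g => rfl }
  have hvalK : ∀ k, cnt K k = 0 ∨ cnt K k = 1 ∨ cnt K k = m ∨ cnt K k = n := by
    intro k
    rcases hcntK k with h | h
    · exact Or.inl h
    · rw [h]; exact hval k
  have hKsolv : Group.IsSolvable K :=
    solvable_of_no_three_primes (fun p q r hp hq hr hpq hpr hqr hpN hqN hrN =>
      no_three_primes_of_odd hKodd hvalK hp hq hr hpq hpr hqr hpN hqN hrN)
  have hQ : Group.IsSolvable (G ⧸ K) := by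
    have hcard : Nat.card (G ⧸ K) = 2 := hKidx
    have : Fact (Nat.Prime 2) := ⟨Nat.prime_two⟩
    have hc : IsCyclic (G ⧸ K) := isCyclic_of_prime_card hcard
    obtain ⟨g, hg⟩ := hc.exists_generator
    refine Group.isSolvable_of_comm (fun a b => ?_)
    obtain ⟨i, rfl⟩ := Subgroup.mem_zpowers_iff.mp (hg a)
    obtain ⟨j, rfl⟩ := Subgroup.mem_zpowers_iff.mp (hg b)
    exact (Commute.zpow_zpow_self g i j).eq
  exact Group.isSolvable_of_ker_le_range K.subtype (QuotientGroup.mk' K)
    (by rw [QuotientGroup.ker_mk', Subgroup.range_subtype])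

/-- A group whose numbers of elements of each order take at most the values `1`, `m`, `n` is
solvable. -/
theorem solvable_of_vals {m n : ℕ}
    (hval : ∀ k, cnt G k = 0 ∨ cnt G k = 1 ∨ cnt G k = m ∨ cnt G k = n) :
    Group.IsSolvable G := by
  by_cases h2N : 2 ∣ Nat.card G
  · have twoodd : (∀ p q : ℕ, p.Prime → q.Prime → 3 ≤ p → 3 ≤ q → p ≠ q → p ∣ Nat.card G →
        q ∣ Nat.card G → False) → Group.IsSolvable G := by
      intro hno
      apply solvable_of_no_three_primes
      intro p q r hp hq hr hpq hpr hqr hpN hqN hrN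
      have hp2 := hp.two_le
      have hq2 := hq.two_le
      have hr2 := hr.two_le
      by_cases hp3 : 3 ≤ p
      · by_cases hq3 : 3 ≤ q
        · exact hno p q hp hq hp3 hq3 hpq hpN hqN
        · exact hno p r hp hr hp3 (by omega) hpr hpN hrN
      · exact hno q r hq hr (by omega) (by omega) hqr hqN hrN
    by_cases h21 : cnt G 2 = 1
    · by_cases h4 : 4 ∣ Nat.card G
      · exact twoodd (fun p q hp hq hp3 hq3 hpq hpN hqN =>
          no_two_odd_of_four hval h4 h21 hp hq hp3 hq3 hpq hpN hqN)
      · exact solvable_of_two_odd hval h4 h21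
    · exact twoodd (fun p q hp hq hp3 hq3 hpq hpN hqN =>
        no_two_odd_of_cnt_two hval h2N h21 hp hq hp3 hq3 hpq hpN hqN)
  · exact solvable_of_no_three_primes (fun p q r hp hq hr hpq hpr hqr hpN hqN hrN =>
      no_three_primes_of_odd h2N hval hp hq hr hpq hpr hqr hpN hqN hrN)

/-- A group whose numbers of elements of each order take exactly three values is solvable. -/
theorem solvable_of_ncard_three
    (h : (((fun m : ℕ => Nat.card {g : G // orderOf g = m}) ''
      Set.range (orderOf : G → ℕ))).ncard = 3) : Group.IsSolvable G := by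
  obtain ⟨x, y, z, -, -, -, hS⟩ := Set.ncard_eq_three.mp h
  have hmem : ∀ k, cnt G k = 0 ∨ cnt G k = x ∨ cnt G k = y ∨ cnt G k = z := by
    intro k
    rcases cnt_zero_or_mem (nse_mem hS) k with h | h
    · exact Or.inl h
    · right; simpa using h
  have h1 : (1 : ℕ) = x ∨ 1 = y ∨ 1 = z := by
    have := hmem 1
    rw [cnt_one] at this
    omega
  rcases h1 with rfl | rfl | rfl
  · refine solvable_of_vals (m := y) (n := z) (fun k => ?_)
    rcases hmem k with h | h | h | h
    · exact Or.inl h
    · exact Or.inr (Or.inl h)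
    · exact Or.inr (Or.inr (Or.inl h))
    · exact Or.inr (Or.inr (Or.inr h))
  · refine solvable_of_vals (m := x) (n := z) (fun k => ?_)
    rcases hmem k with h | h | h | h
    · exact Or.inl h
    · exact Or.inr (Or.inr (Or.inl h))
    · exact Or.inr (Or.inl h)
    · exact Or.inr (Or.inr (Or.inr h))
  · refine solvable_of_vals (m := x) (n := y) (fun k => ?_)
    rcases hmem k with h | h | h | h
    · exact Or.inl h
    · exact Or.inr (Or.inr (Or.inl h))
    · exact Or.inr (Or.inr (Or.inr h))
    · exact Or.inr (Or.inl h)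

end Cfsg.Agent.H51.Nse3
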