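import Mathlib
import Cfsg.Agent.H51.Nse3Main
import Cfsg.Agent.H51.Nse3Count
import Cfsg.Agent.H51.Nse3Frob

/-! Groups of odd order whose numbers of elements of each order take exactly three values
(helper51): at most two prime divisors; with two, Sylow subgroups of prime exponent and a
Frobenius complement of prime order. -/

set_option autoImplicit false
set_option linter.style.haveILetI false

namespace Cfsg.Agent.H51.Nse3

open Cfsg.Agent.H21.TwoCounts Cfsg.Agent.H51.Nse

variable {G : Type*} [Group G] [Finite G]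

/-- Exactly three values: all counts lie in `{0, 1, m, n}`. -/
theorem exists_vals_of_ncard_three
    (h : (((fun m : ℕ => Nat.card {g : G // orderOf g = m}) ''
      Set.range (orderOf : G → ℕ))).ncard = 3) :
    ∃ m n : ℕ, ∀ k, cnt G k = 0 ∨ cnt G k = 1 ∨ cnt G k = m ∨ cnt G k = n := by
  obtain ⟨x, y, z, -, -, -, hS⟩ := Set.ncard_eq_three.mp h
  have hmem : ∀ k, cnt G k = 0 ∨ cnt G k = x ∨ cnt G k = y ∨ cnt G k = z := by
    intro k
    rcases cnt_zero_or_mem (nse_mem hS) k with h | h
    · exact Or.inl h
    · right; simpa using h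
  have h1 : (1 : ℕ) = x ∨ 1 = y ∨ 1 = z := by
    have := hmem 1
    rw [cnt_one] at this
    omega
  rcases h1 with rfl | rfl | rfl
  · refine ⟨y, z, fun k => ?_⟩
    rcases hmem k with h | h | h | h
    · exact Or.inl h
    · exact Or.inr (Or.inl h)
    · exact Or.inr (Or.inr (Or.inl h))
    · exact Or.inr (Or.inr (Or.inr h))
  · refine ⟨x, z, fun k => ?_⟩
    rcases hmem k with h | h | h | h
    · exact Or.inl h
    · exact Or.inr (Or.inr (Or.inl h))
    · exact Or.inr (Or.inl h)
    · exact Or.inr (Or.inr (Or.inr h))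
  · refine ⟨x, y, fun k => ?_⟩
    rcases hmem k with h | h | h | h
    · exact Or.inl h
    · exact Or.inr (Or.inr (Or.inl h))
    · exact Or.inr (Or.inr (Or.inr h))
    · exact Or.inr (Or.inl h)

omit [Finite G] in
/-- A non-trivial solvable group has a non-trivial abelian normal subgroup. -/
theorem exists_abelian_normal_ne_bot [Nontrivial G] (hG : Group.IsSolvable G) :
    ∃ A : Subgroup G, A.Normal ∧ A ≠ ⊥ ∧ ∀ a ∈ A, ∀ b ∈ A, a * b = b * a := by
  classical
  have hex : ∃ n, derivedSeries G n = ⊥ := hG.solvable
  have hspec : derivedSeries G (Nat.find hex) = ⊥ := Nat.find_spec hex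
  have hn0 : Nat.find hex ≠ 0 := by
    intro h0
    rw [h0, derivedSeries_zero] at hspec
    exact top_ne_bot hspec
  obtain ⟨m, hm⟩ := Nat.exists_eq_succ_of_ne_zero hn0
  refine ⟨derivedSeries G m, inferInstance, ?_, ?_⟩
  · intro h
    have := Nat.find_min' hex h
    omega
  · intro a ha b hb
    have h1 : derivedSeries G (m + 1) = ⊥ := by
      rw [hm] at hspec
      exact hspec
    rw [derivedSeries_succ, Subgroup.commutator_eq_bot_iff_le_centralizer] at h1
    exact (Subgroup.mem_centralizer_iff.mp (h1 ha) b hb).symm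

/-- If every element has order `1`, `p` or `q`, the Sylow `p`-subgroups have exponent `p`. -/
theorem exponent_sylow_of_pow {p q : ℕ} (hp : p.Prime) (hq : q.Prime) (hpq : p ≠ q)
    (hord : ∀ g : G, g ^ p = 1 ∨ g ^ q = 1) [Fact p.Prime] (P : Sylow p G)
    (hpN : p ∣ Nat.card G) : Monoid.exponent ↥(P : Subgroup G) = p := by
  have hcop : Nat.Coprime q p := (Nat.coprime_primes hq hp).mpr (Ne.symm hpq)
  have hall : ∀ x : (P : Subgroup G), x ^ p = 1 := by
    intro x
    rcases hord x.1 with h | h
    · exact Subtype.ext h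
    · obtain ⟨k, hk⟩ := P.isPGroup' x
      have hk' : (x : G) ^ p ^ k = 1 := by simpa using congrArg Subtype.val hk
      have hx1 : (x : G) = 1 :=
        (pow_eq_one_iff_of_coprime (Nat.Coprime.pow_right k hcop)).mp ⟨h, hk'⟩
      have hx1' : x = 1 := Subtype.ext hx1
      rw [hx1', one_pow]
  have hdvd : Monoid.exponent ↥(P : Subgroup G) ∣ p := Monoid.exponent_dvd_of_forall_pow_eq_one hall
  rcases (Nat.dvd_prime hp).mp hdvd with h | h
  · exfalso
    have hsub : Subsingleton ↥(P : Subgroup G) := Monoid.exp_eq_one_iff.mp h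
    exact P.ne_bot_of_dvd_card hpN (Subgroup.eq_bot_of_subsingleton _)
  · exact h

/-- Groups of odd order whose numbers of elements of each order take exactly three values. -/
theorem odd_ncard_three (hodd : Odd (Nat.card G))
    (h : (((fun m : ℕ => Nat.card {g : G // orderOf g = m}) ''
      Set.range (orderOf : G → ℕ))).ncard = 3) :
    (Nat.card G).primeFactors.card ≤ 2 ∧
      ((Nat.card G).primeFactors.card = 2 →
        (∀ (p : ℕ) [Fact p.Prime] (P : Sylow p G), p ∣ Nat.card G →
          Monoid.exponent ↥(P : Subgroup G) = p) ∧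
        ∃ C : Subgroup G, Cfsg.IsFrobeniusComplement C ∧ (Nat.card ↥C).Prime) := by
  obtain ⟨m, n, hval⟩ := exists_vals_of_ncard_three h
  have hodd' : ¬ 2 ∣ Nat.card G := by
    rw [← even_iff_two_dvd, Nat.not_even_iff_odd]
    exact hodd
  have h3 : ∀ t, t.Prime → t ∣ Nat.card G → 3 ≤ t := by
    intro t ht htN
    rcases Nat.lt_or_ge t 3 with hlt | hge
    · have := ht.two_le
      have h2 : t = 2 := by omega
      subst h2; exact absurd htN hodd'
    · exact hge
  constructor
  · by_contra hcon
    push Not at hcon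
    obtain ⟨a, b, c, ha, hb, hc, hab, hac, hbc⟩ := Finset.two_lt_card_iff.mp hcon
    exact no_three_primes_of_odd hodd' hval (Nat.prime_of_mem_primeFactors ha)
      (Nat.prime_of_mem_primeFactors hb) (Nat.prime_of_mem_primeFactors hc) hab hac hbc
      (Nat.dvd_of_mem_primeFactors ha) (Nat.dvd_of_mem_primeFactors hb)
      (Nat.dvd_of_mem_primeFactors hc)
  · intro h2
    obtain ⟨p, q, hpq, hS⟩ := Finset.card_eq_two.mp h2
    have hpm : p ∈ (Nat.card G).primeFactors := by rw [hS]; simp
    have hqm : q ∈ (Nat.card G).primeFactors := by rw [hS]; simp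
    have hp := Nat.prime_of_mem_primeFactors hpm
    have hq := Nat.prime_of_mem_primeFactors hqm
    have hpN := Nat.dvd_of_mem_primeFactors hpm
    have hqN := Nat.dvd_of_mem_primeFactors hqm
    have hpf : ∀ r : ℕ, r.Prime → r ∣ Nat.card G → r = p ∨ r = q := by
      intro r hr hrN
      have hrm : r ∈ (Nat.card G).primeFactors :=
        Nat.mem_primeFactors.mpr ⟨hr, hrN, Nat.card_pos.ne'⟩
      rw [hS] at hrm
      simpa using hrm
    have hp3 := h3 p hp hpN
    have hq3 := h3 q hq hqN
    have hab : cnt G p ≠ cnt G q := fun hEq => three_aux hodd' hval hp hq hpq hpN hqN hEq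
    have hv : ∀ t, t.Prime → t ∣ Nat.card G → cnt G t = m ∨ cnt G t = n := by
      intro t ht htN
      rcases hval t with h | h | h | h
      · exact absurd h (cnt_prime_ne_zero ht htN)
      · exact absurd h (cnt_ne_one_of_three_le (h3 t ht htN))
      · exact Or.inl h
      · exact Or.inr h
    have hval1 := vals_rename hval (hv p hp hpN) (hv q hq hqN) hab
    have hval2 := vals_rename hval (hv q hq hqN) (hv p hp hpN) (Ne.symm hab)
    have hpq0 : cnt G (p * q) = 0 :=
      cnt_mul_eq_zero hval1 hp hq hp3 hq3 hpq hpN hqN rfl rfl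
    have hpp : cnt G (p ^ 2) = 0 :=
      cnt_sq_eq_zero hval1 hp hq hp3 hpq hpN hqN rfl rfl hpq0
    have hqq : cnt G (q ^ 2) = 0 :=
      cnt_sq_eq_zero hval2 hq hp hq3 (Ne.symm hpq) hqN hpN rfl rfl (by rw [mul_comm]; exact hpq0)
    have hord := pow_eq_one_of_cnt hp hq hpf hpq0 hpp hqq
    have hcomm := eq_one_of_commute_of_cnt hp hq hpq hpq0
    constructor
    · intro r hrF P hrN
      rcases hpf r hrF.out hrN with rfl | rfl
      · exact exponent_sylow_of_pow hp hq hpq hord P hrN
      · exact exponent_sylow_of_pow hq hp (Ne.symm hpq) (fun g => (hord g).symm) P hrN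
    · have hsolv : Group.IsSolvable G := solvable_of_vals hval
      haveI : Nontrivial G := by
        rw [← Finite.one_lt_card_iff_nontrivial]
        have := Nat.le_of_dvd Nat.card_pos hpN
        omega
      obtain ⟨A, hAn, hA1, hAc⟩ := exists_abelian_normal_ne_bot hsolv
      haveI := hAn
      obtain ⟨v, hvA, hv1⟩ : ∃ v ∈ A, v ≠ 1 := by
        by_contra hcon
        push Not at hcon
        exact hA1 ((Subgroup.eq_bot_iff_forall A).mpr hcon)
      rcases hord v with hvp | hvq
      · have hAp : ∀ a ∈ A, a ^ p = 1 := by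
          intro a ha
          rcases hord a with h | h
          · exact h
          · rcases hcomm v a hvp h (hAc v hvA a ha) with h' | h'
            · exact absurd h' hv1
            · rw [h', one_pow]
        exact exists_frobenius_complement hp hq hpq hord hcomm hqN A hA1 hAc hAp
      · have hAq : ∀ a ∈ A, a ^ q = 1 := by
          intro a ha
          rcases hord a with h | h
          · rcases hcomm a v h hvq (hAc a ha v hvA) with h' | h'
            · rw [h', one_pow]
            · exact absurd h' hv1
          · exact h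
        exact exists_frobenius_complement hq hp (Ne.symm hpq) (fun g => (hord g).symm)
          (fun x y hx hy hc => (hcomm y x hy hx hc.symm).symm) hpN A hA1 hAc hAq

end Cfsg.Agent.H51.Nse3
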