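import Mathlib
import Cfsg.Agent.H51.NseTools

/-! A group with the same numbers of elements of each order as the alternating group of degree 4
is isomorphic to it (helper51). -/

set_option autoImplicit false

namespace Cfsg.Agent.H51.Nse

open Cfsg.Agent.H21.TwoCounts

variable {G : Type*} [Group G] [Finite G]

theorem iso_a4 (h1 : ∀ g : G, cnt G (orderOf g) ∈ ({1, 3, 8} : Set ℕ))
    (h2 : ∀ v ∈ ({1, 3, 8} : Set ℕ), ∃ g : G, cnt G (orderOf g) = v) :
    Nonempty (G ≃* alternatingGroup (Fin 4)) := by
  have hval : ∀ k, cnt G k = 0 ∨ cnt G k = 1 ∨ cnt G k = 3 ∨ cnt G k = 8 := by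
    intro k
    rcases cnt_zero_or_mem h1 k with h | h
    · exact Or.inl h
    · right; simpa using h
  have hval3 : ∀ k, 3 ≤ k → cnt G k = 0 ∨ cnt G k = 8 := by
    intro k hk
    have := cnt_even (G := G) k hk
    rcases hval k with h | h | h | h <;> omega
  have c1 : cnt G 1 = 1 := cnt_one
  -- the value 3 is attained at order 2
  have c2 : cnt G 2 = 3 := by
    obtain ⟨g, hg⟩ := h2 3 (by simp)
    have hpos := orderOf_pos g
    have h2' : orderOf g = 2 := by
      by_contra hne
      rcases Nat.lt_or_ge (orderOf g) 3 with hlt | hge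
      · have h1' : orderOf g = 1 := by omega
        rw [h1', c1] at hg; omega
      · rcases hval3 _ hge with h | h <;> omega
    rw [h2'] at hg; exact hg
  -- the order is at least 12
  have hN12 : 12 ≤ Nat.card G := by
    obtain ⟨g, hg⟩ := h2 8 (by simp)
    have hpos := orderOf_pos g
    have hne1 : orderOf g ≠ 1 := by
      intro h; rw [h, c1] at hg; omega
    have hne2 : orderOf g ≠ 2 := by
      intro h; rw [h, c2] at hg; omega
    have hs := sum_list_le (G := G) [1, 2, orderOf g]
      (by simp; omega)
    simp only [List.map_cons, List.map_nil, List.sum_cons, List.sum_nil] at hs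
    omega
  -- prime divisors
  have hprime : ∀ p, p.Prime → p ∣ Nat.card G → p = 2 ∨ p = 3 := by
    intro p hp hpd
    have hf := frob_prime hp hpd
    have hne := cnt_prime_ne_zero hp hpd
    rcases Nat.lt_or_ge p 3 with hlt | hge
    · left; have := hp.two_le; omega
    · right
      rcases hval3 p hge with h | h
      · exact absurd h hne
      · rw [h] at hf
        have h9 : p ∣ 3 * 3 := hf
        rcases (Nat.Prime.dvd_mul hp).mp h9 with h | h <;>
          exact (Nat.prime_dvd_prime_iff_eq hp Nat.prime_three).mp h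
  have c3 : 3 ∣ Nat.card G → cnt G 3 = 8 := by
    intro hd
    have hne := cnt_prime_ne_zero Nat.prime_three hd
    rcases hval3 3 (by norm_num) with h | h
    · exact absurd h hne
    · exact h
  have h8 : ¬ 8 ∣ Nat.card G := by
    intro hd
    have hf := frob (G := G) 8 hd
    rw [sum_divisors_eight, c1, c2] at hf
    rcases hval3 4 (by norm_num) with h4 | h4 <;> rcases hval3 8 (by norm_num) with h8 | h8 <;>
      omega
  have h27 : ¬ 27 ∣ Nat.card G := by
    intro hd
    have h3 : cnt G 3 = 8 := c3 (dvd_trans (by norm_num) hd)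
    have hf9 := frob_list (G := G) 9 (dvd_trans (by norm_num) hd) [1, 3, 9] (by decide)
      (by decide)
    have hf27 := frob_list (G := G) 27 hd [1, 3, 9, 27] (by decide) (by decide)
    simp only [List.map_cons, List.map_nil, List.sum_cons, List.sum_nil] at hf9 hf27
    rcases hval3 9 (by norm_num) with h9 | h9 <;> rcases hval3 27 (by norm_num) with h27 | h27 <;>
      omega
  obtain ⟨a, b, c, habc⟩ := eq_pow_two_three_five (N := Nat.card G) Nat.card_pos.ne'
    (fun p hp hpd => by
      rcases hprime p hp hpd with h | h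
      · exact Or.inl h
      · exact Or.inr (Or.inl h))
  have hc : c = 0 := by
    by_contra hc
    have h5 : 5 ∣ Nat.card G := by rw [habc]; exact Dvd.dvd.mul_left (dvd_pow_self 5 hc) _
    rcases hprime 5 (by norm_num) h5 with h | h <;> omega
  subst hc
  have ha : a ≤ 2 := by
    by_contra ha
    apply h8
    rw [habc]
    exact Dvd.dvd.mul_right (Dvd.dvd.mul_right
      (dvd_trans (by norm_num : (8 : ℕ) ∣ 2 ^ 3) (pow_dvd_pow 2 (by omega : 3 ≤ a))) _) _
  have hb : b ≤ 2 := by
    by_contra hb
    apply h27
    rw [habc]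
    exact Dvd.dvd.mul_right (Dvd.dvd.mul_left
      (dvd_trans (by norm_num : (27 : ℕ) ∣ 3 ^ 3) (pow_dvd_pow 3 (by omega : 3 ≤ b))) _) _
  have hN : Nat.card G = 12 ∨ Nat.card G = 18 ∨ Nat.card G = 36 := by
    interval_cases a <;> interval_cases b <;> norm_num at habc <;> omega
  rcases hN with hN | hN | hN
  · -- order 12
    have h3 : cnt G 3 = 8 := c3 (by rw [hN]; norm_num)
    have : Fact (Nat.Prime 3) := ⟨Nat.prime_three⟩
    obtain ⟨P⟩ : Nonempty (Sylow 3 G) := inferInstance
    have hP : Nat.card (P : Subgroup G) = 3 := by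
      have := PSL9.sylow_card_pow (G := G) (p := 3) (k := 1) (m := 4) (by rw [hN]; norm_num) (by norm_num) P
      simpa using this
    have hn3 : Nat.card (Sylow 3 G) = 4 := by
      have := card_sylow_mul 3 P hP
      omega
    have hidx : (Subgroup.normalizer (P : Set G)).index = 4 := by
      rw [← Sylow.card_eq_index_normalizer P]; exact hn3
    generalize Subgroup.normalizer (P : Set G) = H at hidx
    have hHcard : Nat.card H = 3 := by
      have := Subgroup.card_mul_index H
      rw [hidx, hN] at this; omega
    apply iso_alt_of_injective H 4 hidx (by rw [hN]; decide)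
    rw [← MonoidHom.ker_eq_bot_iff]
    have hKle : (MulAction.toPermHom G (G ⧸ H)).ker ≤ H := by
      rw [← Subgroup.normalCore_eq_ker]; exact Subgroup.normalCore_le H
    have hKdvd : Nat.card (MulAction.toPermHom G (G ⧸ H)).ker ∣ 3 :=
      hHcard ▸ Subgroup.card_dvd_of_le hKle
    rcases (Nat.dvd_prime Nat.prime_three).mp hKdvd with hK1 | hK3
    · exact Subgroup.card_eq_one.mp hK1
    · exfalso
      have hKi : (MulAction.toPermHom G (G ⧸ H)).ker.index = 4 := by
        have := Subgroup.card_mul_index (MulAction.toPermHom G (G ⧸ H)).ker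
        rw [hK3, hN] at this; omega
      have := card_pow_le_of_coprime (MulAction.toPermHom G (G ⧸ H)).ker 3
        (by rw [hKi]; decide)
      rw [card_pow_prime Nat.prime_three, h3, hK3] at this
      omega
  · -- order 18
    exfalso
    have h3 : cnt G 3 = 8 := c3 (by rw [hN]; norm_num)
    have hs := card_eq_sum_list (G := G) 18 hN [1, 2, 3, 6, 9, 18] (by decide) (by decide)
    simp only [List.map_cons, List.map_nil, List.sum_cons, List.sum_nil] at hs
    rcases hval3 6 (by norm_num) with h6 | h6 <;> rcases hval3 9 (by norm_num) with h9 | h9 <;>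
      rcases hval3 18 (by norm_num) with h18 | h18 <;> omega
  · -- order 36
    exfalso
    have h3 : cnt G 3 = 8 := c3 (by rw [hN]; norm_num)
    have hs := card_eq_sum_list (G := G) 36 hN [1, 2, 3, 4, 6, 9, 12, 18, 36] (by decide)
      (by decide)
    have hf9 := frob_list (G := G) 9 (by rw [hN]; norm_num) [1, 3, 9] (by decide) (by decide)
    have hf6 := frob_list (G := G) 6 (by rw [hN]; norm_num) [1, 2, 3, 6] (by decide) (by decide)
    simp only [List.map_cons, List.map_nil, List.sum_cons, List.sum_nil] at hs hf9 hf6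
    have h9 : cnt G 9 = 0 := by rcases hval3 9 (by norm_num) with h | h <;> omega
    have h6 : cnt G 6 = 0 := by rcases hval3 6 (by norm_num) with h | h <;> omega
    have h18 : cnt G 18 = 0 := by
      by_contra h; exact cnt_ne_zero_of_dvd h (by norm_num : 9 ∣ 18) h9
    have h36 : cnt G 36 = 0 := by
      by_contra h; exact cnt_ne_zero_of_dvd h (by norm_num : 9 ∣ 36) h9
    have h12 : cnt G 12 = 0 := by
      by_contra h; exact cnt_ne_zero_of_dvd h (by norm_num : 6 ∣ 12) h6
    rcases hval3 4 (by norm_num) with h4 | h4 <;> omega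

end Cfsg.Agent.H51.Nse
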