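import Mathlib
import Cfsg.Agent.H51.NseTools
import Cfsg.Agent.S0494

/-! A group with the same numbers of elements of each order as the alternating group of degree 5
is isomorphic to it (helper51). -/

set_option autoImplicit false

namespace Cfsg.Agent.H51.Nse

open Cfsg.Agent.H21.TwoCounts

variable {G : Type*} [Group G] [Finite G]

theorem iso_a5 (h1 : ∀ g : G, cnt G (orderOf g) ∈ ({1, 15, 20, 24} : Set ℕ))
    (h2 : ∀ v ∈ ({1, 15, 20, 24} : Set ℕ), ∃ g : G, cnt G (orderOf g) = v) :
    Nonempty (G ≃* alternatingGroup (Fin 5)) := by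
  have hval : ∀ k, cnt G k = 0 ∨ cnt G k = 1 ∨ cnt G k = 15 ∨ cnt G k = 20 ∨ cnt G k = 24 := by
    intro k
    rcases cnt_zero_or_mem h1 k with h | h
    · exact Or.inl h
    · right; simpa using h
  have hval3 : ∀ k, 3 ≤ k → cnt G k = 0 ∨ cnt G k = 20 ∨ cnt G k = 24 := by
    intro k hk
    have := cnt_even (G := G) k hk
    rcases hval k with h | h | h | h | h <;> omega
  have c1 : cnt G 1 = 1 := cnt_one
  -- the odd value is attained at order 2
  have c2 : cnt G 2 = 15 := by
    obtain ⟨g, hg⟩ := h2 15 (by simp)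
    have hpos := orderOf_pos g
    have h2' : orderOf g = 2 := by
      by_contra hne
      rcases Nat.lt_or_ge (orderOf g) 3 with hlt | hge
      · have h1' : orderOf g = 1 := by omega
        rw [h1', c1] at hg; omega
      · rcases hval3 _ hge with h | h | h <;> omega
    rw [h2'] at hg; exact hg
  have h2N : 2 ∣ Nat.card G := dvd_card_of_cnt_ne_zero (k := 2) (by rw [c2]; norm_num)
  obtain ⟨g20, hg20⟩ := h2 20 (by simp)
  obtain ⟨g24, hg24⟩ := h2 24 (by simp)
  have hN60 : 60 ≤ Nat.card G := by
    have hne1 : orderOf g20 ≠ 1 := by intro h; rw [h, c1] at hg20; omega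
    have hne2 : orderOf g20 ≠ 2 := by intro h; rw [h, c2] at hg20; omega
    have hne1' : orderOf g24 ≠ 1 := by intro h; rw [h, c1] at hg24; omega
    have hne2' : orderOf g24 ≠ 2 := by intro h; rw [h, c2] at hg24; omega
    have hne : orderOf g20 ≠ orderOf g24 := by intro h; rw [h, hg24] at hg20; omega
    have hs := sum_list_le (G := G) [1, 2, orderOf g20, orderOf g24] (by simp; omega)
    simp only [List.map_cons, List.map_nil, List.sum_cons, List.sum_nil] at hs
    omega
  -- prime divisors
  have hprime : ∀ p, p.Prime → p ∣ Nat.card G → p = 2 ∨ p = 3 ∨ p = 5 := by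
    intro p hp hpd
    have hf := frob_prime hp hpd
    have hne := cnt_prime_ne_zero hp hpd
    rcases Nat.lt_or_ge p 3 with hlt | hge
    · left; have := hp.two_le; omega
    · right
      rcases hval3 p hge with h | h | h
      · exact absurd h hne
      · rw [h] at hf
        have h21 : p ∣ 3 * 7 := hf
        rcases (Nat.Prime.dvd_mul hp).mp h21 with h' | h'
        · exact Or.inl ((Nat.prime_dvd_prime_iff_eq hp Nat.prime_three).mp h')
        · exfalso
          have h7 := (Nat.prime_dvd_prime_iff_eq hp (by norm_num : Nat.Prime 7)).mp h'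
          subst h7
          have ht := totient_dvd_cnt (G := G) 7
          rw [h, Nat.totient_prime hp] at ht
          omega
      · rw [h] at hf
        have h25 : p ∣ 5 * 5 := hf
        rcases (Nat.Prime.dvd_mul hp).mp h25 with h' | h' <;>
          exact Or.inr ((Nat.prime_dvd_prime_iff_eq hp Nat.prime_five).mp h')
  have c3 : 3 ∣ Nat.card G → cnt G 3 = 20 := by
    intro hd
    have hne := cnt_prime_ne_zero Nat.prime_three hd
    have hf := frob_prime Nat.prime_three hd
    rcases hval3 3 (by norm_num) with h | h | h <;> omega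
  have c5 : 5 ∣ Nat.card G → cnt G 5 = 24 := by
    intro hd
    have hne := cnt_prime_ne_zero Nat.prime_five hd
    have hf := frob_prime Nat.prime_five hd
    rcases hval3 5 (by norm_num) with h | h | h <;> omega
  have h9 : ¬ 9 ∣ Nat.card G := by
    intro hd
    have h3 : cnt G 3 = 20 := c3 (dvd_trans (by norm_num) hd)
    have hf9 := frob_list (G := G) 9 hd [1, 3, 9] (by decide) (by decide)
    simp only [List.map_cons, List.map_nil, List.sum_cons, List.sum_nil] at hf9
    have h9' : cnt G 9 = 24 := by rcases hval3 9 (by norm_num) with h | h | h <;> omega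
    have h27 : ¬ 27 ∣ Nat.card G := by
      intro hd27
      have hf27 := frob_list (G := G) 27 hd27 [1, 3, 9, 27] (by decide) (by decide)
      simp only [List.map_cons, List.map_nil, List.sum_cons, List.sum_nil] at hf27
      rcases hval3 27 (by norm_num) with h | h | h <;> omega
    have : Fact (Nat.Prime 3) := ⟨Nat.prime_three⟩
    obtain ⟨P⟩ : Nonempty (Sylow 3 G) := inferInstance
    obtain ⟨m, hm⟩ := hd
    have hP : Nat.card (P : Subgroup G) = 3 ^ 2 :=
      PSL9.sylow_card_pow (G := G) (p := 3) (k := 2) (m := m) (by rw [hm]; norm_num)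
        (fun h3m => h27 (by
          obtain ⟨t, rfl⟩ := h3m
          exact ⟨t, by rw [hm]; ring⟩)) P
    have hc := cyclic_sylow_count 3 2 (le_refl 2) P hP (by norm_num; omega)
    norm_num at hc
    omega
  have h25 : ¬ 25 ∣ Nat.card G := by
    intro hd
    have h5 : cnt G 5 = 24 := c5 (dvd_trans (by norm_num) hd)
    have hf25 := frob_list (G := G) 25 hd [1, 5, 25] (by decide) (by decide)
    have h50 : 50 ∣ Nat.card G :=
      Nat.Coprime.mul_dvd_of_dvd_of_dvd (by norm_num : Nat.Coprime 2 25) h2N hd
    have hf50 := frob_list (G := G) 50 h50 [1, 2, 5, 10, 25, 50] (by decide) (by decide)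
    simp only [List.map_cons, List.map_nil, List.sum_cons, List.sum_nil] at hf25 hf50
    have h25' : cnt G 25 = 0 := by rcases hval3 25 (by norm_num) with h | h | h <;> omega
    have h50' : cnt G 50 = 0 := by
      by_contra h; exact cnt_ne_zero_of_dvd h (by norm_num : 25 ∣ 50) h25'
    rcases hval3 10 (by norm_num) with h | h | h <;> omega
  obtain ⟨a, b, c, habc⟩ := eq_pow_two_three_five (N := Nat.card G) Nat.card_pos.ne' hprime
  have hb : b ≤ 1 := by
    by_contra hb
    apply h9
    rw [habc]
    exact Dvd.dvd.mul_right (Dvd.dvd.mul_left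
      (dvd_trans (by norm_num : (9 : ℕ) ∣ 3 ^ 2) (pow_dvd_pow 3 (by omega : 2 ≤ b))) _) _
  have hc : c ≤ 1 := by
    by_contra hc
    apply h25
    rw [habc]
    exact Dvd.dvd.mul_left
      (dvd_trans (by norm_num : (25 : ℕ) ∣ 5 ^ 2) (pow_dvd_pow 5 (by omega : 2 ≤ c))) _
  have hcases : Nat.card G = 2 ^ a ∨ Nat.card G = 2 ^ a * 5 ∨ Nat.card G = 2 ^ a * 3 ∨
      Nat.card G = 2 ^ a * 15 := by
    interval_cases b <;> interval_cases c <;> simp at habc <;> omega
  clear habc hb hc
  rcases hcases with hN | hN | hN | hN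
  · -- a 2-group
    exfalso
    have ha : 6 ≤ a := by
      by_contra ha
      have ha5 : a ≤ 5 := by omega
      interval_cases a <;> omega
    have h32 : 32 ∣ Nat.card G := by
      rw [hN]; exact dvd_trans (by norm_num : (32 : ℕ) ∣ 2 ^ 5) (pow_dvd_pow 2 (by omega))
    have hf8 := frob_list (G := G) 8 (dvd_trans (by norm_num) h32) [1, 2, 4, 8] (by decide)
      (by decide)
    have hf16 := frob_list (G := G) 16 (dvd_trans (by norm_num) h32) [1, 2, 4, 8, 16] (by decide)
      (by decide)
    have hf32 := frob_list (G := G) 32 h32 [1, 2, 4, 8, 16, 32] (by decide) (by decide)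
    simp only [List.map_cons, List.map_nil, List.sum_cons, List.sum_nil] at hf8 hf16 hf32
    have k84 : cnt G 8 ≠ 0 → cnt G 4 ≠ 0 := fun h => cnt_ne_zero_of_dvd h (by norm_num)
    have k168 : cnt G 16 ≠ 0 → cnt G 8 ≠ 0 := fun h => cnt_ne_zero_of_dvd h (by norm_num)
    have hall : cnt G 4 = 24 ∧ cnt G 8 = 24 ∧ cnt G 16 = 0 := by
      rcases hval3 4 (by norm_num) with h4 | h4 | h4 <;>
      rcases hval3 8 (by norm_num) with h8 | h8 | h8 <;>
      rcases hval3 16 (by norm_num) with h16 | h16 | h16 <;>
      rcases hval3 32 (by norm_num) with h32 | h32 | h32 <;> omega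
    obtain ⟨h4, h8, h16⟩ := hall
    have hdvd : orderOf g20 ∣ 2 ^ a := hN ▸ orderOf_dvd_natCard g20
    obtain ⟨j, -, hj⟩ := (Nat.dvd_prime_pow Nat.prime_two).mp hdvd
    have hj3 : j ≤ 3 := by
      by_contra hj3
      have h16d : 16 ∣ orderOf g20 := by
        rw [hj]
        exact dvd_trans (by norm_num : (16 : ℕ) ∣ 2 ^ 4) (pow_dvd_pow 2 (by omega))
      exact cnt_ne_zero_of_dvd (cnt_orderOf_ne_zero g20) h16d h16
    rw [hj] at hg20
    interval_cases j <;> norm_num at hg20 <;> omega
  · -- order 2^a * 5
    exfalso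
    have h5N : 5 ∣ Nat.card G := by rw [hN]; exact Dvd.intro_left _ rfl
    have h5 := c5 h5N
    have : Fact (Nat.Prime 5) := ⟨Nat.prime_five⟩
    obtain ⟨P⟩ : Nonempty (Sylow 5 G) := inferInstance
    have hP : Nat.card (P : Subgroup G) = 5 := by
      have := PSL9.sylow_card_pow (G := G) (p := 5) (k := 1) (m := 2 ^ a) (by rw [hN]; ring)
        (fun h => by
          have := Nat.Prime.dvd_of_dvd_pow Nat.prime_five h
          omega) P
      simpa using this
    have hn := card_sylow_mul 5 P hP
    have hn5 : Nat.card (Sylow 5 G) = 6 := by omega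
    have h6 : 6 ∣ Nat.card G := hn5 ▸ card_sylow_dvd (G := G) 5
    have h3N : 3 ∣ 2 ^ a * 5 := hN ▸ dvd_trans (by norm_num) h6
    rcases (Nat.Prime.dvd_mul Nat.prime_three).mp h3N with h | h
    · have := Nat.Prime.dvd_of_dvd_pow Nat.prime_three h; omega
    · omega
  · -- order 2^a * 3
    exfalso
    have h3N : 3 ∣ Nat.card G := by rw [hN]; exact Dvd.intro_left _ rfl
    have h3 := c3 h3N
    have : Fact (Nat.Prime 3) := ⟨Nat.prime_three⟩
    obtain ⟨P⟩ : Nonempty (Sylow 3 G) := inferInstance
    have hP : Nat.card (P : Subgroup G) = 3 := by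
      have := PSL9.sylow_card_pow (G := G) (p := 3) (k := 1) (m := 2 ^ a) (by rw [hN]; ring)
        (fun h => by
          have := Nat.Prime.dvd_of_dvd_pow Nat.prime_three h
          omega) P
      simpa using this
    have hn := card_sylow_mul 3 P hP
    have hn3 : Nat.card (Sylow 3 G) = 10 := by omega
    have h10 : 10 ∣ Nat.card G := hn3 ▸ card_sylow_dvd (G := G) 3
    have h5N : 5 ∣ 2 ^ a * 3 := hN ▸ dvd_trans (by norm_num) h10
    rcases (Nat.Prime.dvd_mul Nat.prime_five).mp h5N with h | h
    · have := Nat.Prime.dvd_of_dvd_pow Nat.prime_five h; omega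
    · omega
  · -- order 2^a * 15
    have h3N : 3 ∣ Nat.card G := by rw [hN]; exact Dvd.dvd.mul_left (by norm_num) _
    have h5N : 5 ∣ Nat.card G := by rw [hN]; exact Dvd.dvd.mul_left (by norm_num) _
    have h15N : 15 ∣ Nat.card G := by rw [hN]; exact Dvd.intro_left _ rfl
    have h30N : 30 ∣ Nat.card G :=
      Nat.Coprime.mul_dvd_of_dvd_of_dvd (by norm_num : Nat.Coprime 2 15) h2N h15N
    have h3 := c3 h3N
    have h5 := c5 h5N
    have hf15 := frob_list (G := G) 15 h15N [1, 3, 5, 15] (by decide) (by decide)
    have hf30 := frob_list (G := G) 30 h30N [1, 2, 3, 5, 6, 10, 15, 30] (by decide) (by decide)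
    simp only [List.map_cons, List.map_nil, List.sum_cons, List.sum_nil] at hf15 hf30
    have h15 : cnt G 15 = 0 := by rcases hval3 15 (by norm_num) with h | h | h <;> omega
    have h30 : cnt G 30 = 0 := by
      by_contra h; exact cnt_ne_zero_of_dvd h (by norm_num : 15 ∣ 30) h15
    have h6 : cnt G 6 = 0 := by
      rcases hval3 6 (by norm_num) with h | h | h <;>
        rcases hval3 10 (by norm_num) with h' | h' | h' <;> omega
    have hF2 : Fact (Nat.Prime 2) := ⟨Nat.prime_two⟩
    obtain ⟨P⟩ : Nonempty (Sylow 2 G) := inferInstance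
    have hP : Nat.card (P : Subgroup G) = 2 ^ a :=
      PSL9.sylow_card_pow (G := G) (p := 2) (k := a) (m := 15) hN (by norm_num) P
    have hdv := sylow_card_dvd_cnt 2 3 Nat.prime_three (by norm_num) P h6
    rw [hP, h3] at hdv
    have ha : a ≤ 2 := by
      by_contra ha
      have h8 : (8 : ℕ) ∣ 20 := dvd_trans (dvd_trans (by norm_num : (8 : ℕ) ∣ 2 ^ 3)
        (pow_dvd_pow 2 (by omega : 3 ≤ a))) hdv
      omega
    have hN' : Nat.card G = 60 := by
      interval_cases a <;> omega
    clear hdv hP P hN ha a
    have hs := card_eq_sum_list (G := G) 60 hN' [1, 2, 3, 4, 5, 6, 10, 12, 15, 20, 30, 60]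
      (by decide) (by decide)
    simp only [List.map_cons, List.map_nil, List.sum_cons, List.sum_nil] at hs
    have h10 : cnt G 10 = 0 := by omega
    have h20 : cnt G 20 = 0 := by omega
    have hF5 : Fact (Nat.Prime 5) := ⟨Nat.prime_five⟩
    obtain ⟨y, hy⟩ := exists_of_cnt_ne_zero (G := G) (k := 5) (by rw [h5]; norm_num)
    have hsimple : IsSimpleGroup G := by
      have hnt : Nontrivial G := (Finite.one_lt_card_iff_nontrivial).mp (by rw [hN']; norm_num)
      refine ⟨fun K hK => ?_⟩
      by_contra hcon
      push Not at hcon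
      obtain ⟨hKbot, hKtop⟩ := hcon
      have hki := Subgroup.card_mul_index K
      rw [hN'] at hki
      have hk1 : Nat.card K ≠ 1 := fun h => hKbot (Subgroup.card_eq_one.mp h)
      have hk60 : Nat.card K ≠ 60 := fun h =>
        hKtop ((Subgroup.card_eq_iff_eq_top K).mp (by rw [h, hN']))
      have hkmem : Nat.card K ∈ Nat.divisors 60 :=
        Nat.mem_divisors.mpr ⟨Dvd.intro _ hki, by norm_num⟩
      have hdivs : Nat.divisors 60 = {1, 2, 3, 4, 5, 6, 10, 12, 15, 20, 30, 60} := by decide
      rw [hdivs] at hkmem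
      simp only [Finset.mem_insert, Finset.mem_singleton] at hkmem
      have hA : Nat.Coprime 5 K.index → 25 ≤ Nat.card K := fun hc => by
        have := card_pow_le_of_coprime K 5 hc
        rw [card_pow_prime Nat.prime_five, h5] at this; omega
      have hB : Nat.Coprime 3 K.index → 21 ≤ Nat.card K := fun hc => by
        have := card_pow_le_of_coprime K 3 hc
        rw [card_pow_prime Nat.prime_three, h3] at this; omega
      have hC : Nat.Coprime 15 K.index → 45 ≤ Nat.card K := fun hc => by
        have := card_pow_le_of_coprime K 15 hc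
        rw [card_pow_list 15 (by norm_num) [1, 3, 5, 15] (by decide) (by decide)] at this
        simp only [List.map_cons, List.map_nil, List.sum_cons, List.sum_nil] at this
        omega
      have hD : ¬ 5 ∣ Nat.card K → ¬ 5 ∣ Nat.card K - 1 → Nat.card K ∣ 4 → False := by
        intro hd1 hd2 hd4
        obtain ⟨w, hwK, hw1, hw⟩ := exists_order_mul 5 y hy K hd1 hd2
        have hwo : orderOf w ∣ 4 := dvd_trans (orderOf_dvd_card_of_mem K hwK) hd4
        rcases dvd_four_cases hwo with h | h | h
        · exact orderOf_ne_one_of_ne hw1 h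
        · rw [h] at hw; exact hw h10
        · rw [h] at hw; exact hw h20
      rcases hkmem with hk | hk | hk | hk | hk | hk | hk | hk | hk | hk | hk | hk <;>
        rw [hk] at hki
      · exact hk1 hk
      · exact hD (by rw [hk]; norm_num) (by rw [hk]; norm_num) (by rw [hk]; norm_num)
      · have := hB (by rw [show K.index = 20 by omega]; decide); omega
      · exact hD (by rw [hk]; norm_num) (by rw [hk]; norm_num) (by rw [hk])
      · have := hA (by rw [show K.index = 12 by omega]; decide); omega
      · have := hB (by rw [show K.index = 10 by omega]; decide); omega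
      · have := hA (by rw [show K.index = 6 by omega]; decide); omega
      · have := hB (by rw [show K.index = 5 by omega]; decide); omega
      · have := hA (by rw [show K.index = 4 by omega]; decide); omega
      · have := hA (by rw [show K.index = 3 by omega]; decide); omega
      · have := hC (by rw [show K.index = 2 by omega]; decide); omega
      · exact hk60 hk
    exact Cfsg.Agent.S0494.result hN'

end Cfsg.Agent.H51.Nse
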