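import Mathlib
import Cfsg.Agent.H51.NseTools
import Cfsg.Agent.S0497

/-! A group with the same numbers of elements of each order as the alternating group of degree 6
is isomorphic to it (helper51). -/

set_option autoImplicit false

namespace Cfsg.Agent.H51.Nse

open Cfsg.Agent.H21.TwoCounts

variable {G : Type*} [Group G] [Finite G]

theorem divisors_360 : Nat.divisors 360 = [1, 2, 3, 4, 5, 6, 8, 9, 10, 12, 15, 18, 20, 24, 30,
    36, 40, 45, 60, 72, 90, 120, 180, 360].toFinset := by
  decide +kernel

theorem iso_a6 (h1 : ∀ g : G, cnt G (orderOf g) ∈ ({1, 45, 80, 90, 144} : Set ℕ))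
    (h2 : ∀ v ∈ ({1, 45, 80, 90, 144} : Set ℕ), ∃ g : G, cnt G (orderOf g) = v) :
    Nonempty (G ≃* alternatingGroup (Fin 6)) := by
  have hval : ∀ k, cnt G k = 0 ∨ cnt G k = 1 ∨ cnt G k = 45 ∨ cnt G k = 80 ∨ cnt G k = 90 ∨
      cnt G k = 144 := by
    intro k
    rcases cnt_zero_or_mem h1 k with h | h
    · exact Or.inl h
    · right; simpa using h
  have hval3 : ∀ k, 3 ≤ k → cnt G k = 0 ∨ cnt G k = 80 ∨ cnt G k = 90 ∨ cnt G k = 144 := by
    intro k hk
    have := cnt_even (G := G) k hk
    rcases hval k with h | h | h | h | h | h <;> omega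
  have c1 : cnt G 1 = 1 := cnt_one
  -- the odd value is attained at order 2
  have c2 : cnt G 2 = 45 := by
    obtain ⟨g, hg⟩ := h2 45 (by simp)
    have hpos := orderOf_pos g
    have h2' : orderOf g = 2 := by
      by_contra hne
      rcases Nat.lt_or_ge (orderOf g) 3 with hlt | hge
      · have h1' : orderOf g = 1 := by omega
        rw [h1', c1] at hg; omega
      · rcases hval3 _ hge with h | h | h | h <;> omega
    rw [h2'] at hg; exact hg
  have h2N : 2 ∣ Nat.card G := dvd_card_of_cnt_ne_zero (k := 2) (by rw [c2]; norm_num)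
  have hN360 : 360 ≤ Nat.card G := by
    obtain ⟨g80, hg80⟩ := h2 80 (by simp)
    obtain ⟨g90, hg90⟩ := h2 90 (by simp)
    obtain ⟨g144, hg144⟩ := h2 144 (by simp)
    have e1 : orderOf g80 ≠ 1 := by intro h; rw [h, c1] at hg80; omega
    have e2 : orderOf g80 ≠ 2 := by intro h; rw [h, c2] at hg80; omega
    have e3 : orderOf g90 ≠ 1 := by intro h; rw [h, c1] at hg90; omega
    have e4 : orderOf g90 ≠ 2 := by intro h; rw [h, c2] at hg90; omega
    have e5 : orderOf g144 ≠ 1 := by intro h; rw [h, c1] at hg144; omega
    have e6 : orderOf g144 ≠ 2 := by intro h; rw [h, c2] at hg144; omega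
    have e7 : orderOf g80 ≠ orderOf g90 := by intro h; rw [h, hg90] at hg80; omega
    have e8 : orderOf g80 ≠ orderOf g144 := by intro h; rw [h, hg144] at hg80; omega
    have e9 : orderOf g90 ≠ orderOf g144 := by intro h; rw [h, hg144] at hg90; omega
    have hs := sum_list_le (G := G) [1, 2, orderOf g80, orderOf g90, orderOf g144]
      (by simp; omega)
    simp only [List.map_cons, List.map_nil, List.sum_cons, List.sum_nil] at hs
    omega
  -- prime divisors
  have hprime7 : ∀ p, p.Prime → p ∣ Nat.card G → p = 2 ∨ p = 3 ∨ p = 5 ∨ p = 7 := by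
    intro p hp hpd
    have hf := frob_prime hp hpd
    have hne := cnt_prime_ne_zero hp hpd
    rcases Nat.lt_or_ge p 3 with hlt | hge
    · left; have := hp.two_le; omega
    · right
      rcases hval3 p hge with h | h | h | h
      · exact absurd h hne
      · rw [h] at hf
        have h81 : p ∣ 3 ^ 4 := hf
        exact Or.inl ((Nat.prime_dvd_prime_iff_eq hp Nat.prime_three).mp
          (Nat.Prime.dvd_of_dvd_pow hp h81))
      · rw [h] at hf
        have h91 : p ∣ 7 * 13 := hf
        rcases (Nat.Prime.dvd_mul hp).mp h91 with h' | h'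
        · exact Or.inr (Or.inr ((Nat.prime_dvd_prime_iff_eq hp (by norm_num)).mp h'))
        · exfalso
          have h13 := (Nat.prime_dvd_prime_iff_eq hp (by norm_num : Nat.Prime 13)).mp h'
          subst h13
          have ht := totient_dvd_cnt (G := G) 13
          rw [h, Nat.totient_prime hp] at ht
          omega
      · rw [h] at hf
        have h145 : p ∣ 5 * 29 := hf
        rcases (Nat.Prime.dvd_mul hp).mp h145 with h' | h'
        · exact Or.inr (Or.inl ((Nat.prime_dvd_prime_iff_eq hp Nat.prime_five).mp h'))
        · exfalso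
          have h29 := (Nat.prime_dvd_prime_iff_eq hp (by norm_num : Nat.Prime 29)).mp h'
          subst h29
          have ht := totient_dvd_cnt (G := G) 29
          rw [h, Nat.totient_prime hp] at ht
          omega
  have c3 : 3 ∣ Nat.card G → cnt G 3 = 80 := by
    intro hd
    have hne := cnt_prime_ne_zero Nat.prime_three hd
    have hf := frob_prime Nat.prime_three hd
    rcases hval3 3 (by norm_num) with h | h | h | h <;> omega
  have c5 : 5 ∣ Nat.card G → cnt G 5 = 144 := by
    intro hd
    have hne := cnt_prime_ne_zero Nat.prime_five hd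
    have hf := frob_prime Nat.prime_five hd
    rcases hval3 5 (by norm_num) with h | h | h | h <;> omega
  have c4 : 4 ∣ Nat.card G → cnt G 4 = 90 := by
    intro hd
    have hf := frob (G := G) 4 hd
    rw [sum_divisors_four, c1, c2] at hf
    rcases hval3 4 (by norm_num) with h | h | h | h <;> omega
  have h7 : ¬ 7 ∣ Nat.card G := by
    intro hd
    have hp7 : Nat.Prime 7 := by norm_num
    have hne := cnt_prime_ne_zero hp7 hd
    have hf := frob_prime hp7 hd
    have h7' : cnt G 7 = 90 := by rcases hval3 7 (by norm_num) with h | h | h | h <;> omega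
    have h49 : ¬ 49 ∣ Nat.card G := by
      intro hd49
      have hf49 := frob_list (G := G) 49 hd49 [1, 7, 49] (by decide) (by decide)
      simp only [List.map_cons, List.map_nil, List.sum_cons, List.sum_nil] at hf49
      rcases hval3 49 (by norm_num) with h | h | h | h <;> omega
    have : Fact (Nat.Prime 7) := ⟨hp7⟩
    obtain ⟨P⟩ : Nonempty (Sylow 7 G) := inferInstance
    obtain ⟨m, hm⟩ := hd
    have hP : Nat.card (P : Subgroup G) = 7 := by
      have := PSL9.sylow_card_pow (G := G) (p := 7) (k := 1) (m := m) (by rw [hm]; norm_num)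
        (fun h7m => h49 (by
          obtain ⟨t, rfl⟩ := h7m
          exact ⟨t, by rw [hm]; ring⟩)) P
      simpa using this
    have hn := card_sylow_mul 7 P hP
    have hn7 : Nat.card (Sylow 7 G) = 15 := by omega
    have h15 : 15 ∣ Nat.card G := hn7 ▸ card_sylow_dvd (G := G) 7
    have h5N : 5 ∣ Nat.card G := dvd_trans (by norm_num) h15
    have h5 := c5 h5N
    have h35N : 35 ∣ Nat.card G :=
      Nat.Coprime.mul_dvd_of_dvd_of_dvd (by norm_num : Nat.Coprime 5 7) h5N ⟨m, hm⟩
    have hf35 := frob_list (G := G) 35 h35N [1, 5, 7, 35] (by decide) (by decide)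
    simp only [List.map_cons, List.map_nil, List.sum_cons, List.sum_nil] at hf35
    have ht := totient_dvd_cnt (G := G) 35
    rw [show Nat.totient 35 = 24 by decide] at ht
    rcases hval3 35 (by norm_num) with h | h | h | h <;> omega
  have hprime : ∀ p, p.Prime → p ∣ Nat.card G → p = 2 ∨ p = 3 ∨ p = 5 := by
    intro p hp hpd
    rcases hprime7 p hp hpd with h | h | h | h
    · exact Or.inl h
    · exact Or.inr (Or.inl h)
    · exact Or.inr (Or.inr h)
    · exact absurd (h ▸ hpd) h7
  have h16 : ¬ 16 ∣ Nat.card G := by
    intro hd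
    have h4 := c4 (dvd_trans (by norm_num) hd)
    have hf8 := frob_list (G := G) 8 (dvd_trans (by norm_num) hd) [1, 2, 4, 8] (by decide)
      (by decide)
    have hf16 := frob_list (G := G) 16 hd [1, 2, 4, 8, 16] (by decide) (by decide)
    simp only [List.map_cons, List.map_nil, List.sum_cons, List.sum_nil] at hf8 hf16
    rcases hval3 8 (by norm_num) with h | h | h | h <;>
      rcases hval3 16 (by norm_num) with h' | h' | h' | h' <;> omega
  have h25 : ¬ 25 ∣ Nat.card G := by
    intro hd
    have h5 : cnt G 5 = 144 := c5 (dvd_trans (by norm_num) hd)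
    have hf25 := frob_list (G := G) 25 hd [1, 5, 25] (by decide) (by decide)
    simp only [List.map_cons, List.map_nil, List.sum_cons, List.sum_nil] at hf25
    have h25' : cnt G 25 = 80 := by rcases hval3 25 (by norm_num) with h | h | h | h <;> omega
    have h125 : ¬ 125 ∣ Nat.card G := by
      intro hd125
      have hf125 := frob_list (G := G) 125 hd125 [1, 5, 25, 125] (by decide) (by decide)
      simp only [List.map_cons, List.map_nil, List.sum_cons, List.sum_nil] at hf125
      rcases hval3 125 (by norm_num) with h | h | h | h <;> omega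
    have : Fact (Nat.Prime 5) := ⟨Nat.prime_five⟩
    obtain ⟨P⟩ : Nonempty (Sylow 5 G) := inferInstance
    obtain ⟨m, hm⟩ := hd
    have hP : Nat.card (P : Subgroup G) = 5 ^ 2 :=
      PSL9.sylow_card_pow (G := G) (p := 5) (k := 2) (m := m) (by rw [hm]; norm_num)
        (fun h5m => h125 (by
          obtain ⟨t, rfl⟩ := h5m
          exact ⟨t, by rw [hm]; ring⟩)) P
    have hc := cyclic_sylow_count 5 2 (le_refl 2) P hP (by norm_num; omega)
    norm_num at hc
    omega
  obtain ⟨a, b, c, habc⟩ := eq_pow_two_three_five (N := Nat.card G) Nat.card_pos.ne' hprime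
  have ha : a ≤ 3 := by
    by_contra ha
    apply h16
    rw [habc]
    exact Dvd.dvd.mul_right (Dvd.dvd.mul_right
      (dvd_trans (by norm_num : (16 : ℕ) ∣ 2 ^ 4) (pow_dvd_pow 2 (by omega : 4 ≤ a))) _) _
  have hc : c ≤ 1 := by
    by_contra hc
    apply h25
    rw [habc]
    exact Dvd.dvd.mul_left
      (dvd_trans (by norm_num : (25 : ℕ) ∣ 5 ^ 2) (pow_dvd_pow 5 (by omega : 2 ≤ c))) _
  interval_cases c
  · -- no element of order 5
    exfalso
    have hb : 4 ≤ b := by
      by_contra hb
      have hb3 : b ≤ 3 := by omega
      interval_cases a <;> interval_cases b <;> norm_num at habc <;> omega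
    have h81 : 81 ∣ Nat.card G := by
      rw [habc]
      exact Dvd.dvd.mul_right (Dvd.dvd.mul_left
        (dvd_trans (by norm_num : (81 : ℕ) ∣ 3 ^ 4) (pow_dvd_pow 3 hb)) _) _
    have h162 : 162 ∣ Nat.card G :=
      Nat.Coprime.mul_dvd_of_dvd_of_dvd (by norm_num : Nat.Coprime 2 81) h2N h81
    have h3 := c3 (dvd_trans (by norm_num) h81)
    have hf9 := frob_list (G := G) 9 (dvd_trans (by norm_num) h81) [1, 3, 9] (by decide)
      (by decide)
    have hf27 := frob_list (G := G) 27 (dvd_trans (by norm_num) h81) [1, 3, 9, 27] (by decide)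
      (by decide)
    have hf162 := frob_list (G := G) 162 h162 [1, 2, 3, 6, 9, 18, 27, 54, 81, 162]
      (by decide) (by decide +kernel)
    simp only [List.map_cons, List.map_nil, List.sum_cons, List.sum_nil] at hf9 hf27 hf162
    have h9 : cnt G 9 = 0 := by
      rcases hval3 9 (by norm_num) with h | h | h | h <;>
        rcases hval3 27 (by norm_num) with h' | h' | h' | h' <;> omega
    have z : ∀ k, 9 ∣ k → cnt G k = 0 := fun k hk => by
      by_contra h; exact cnt_ne_zero_of_dvd h hk h9
    have h18 := z 18 (by norm_num)
    have h27 := z 27 (by norm_num)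
    have h54 := z 54 (by norm_num)
    have h81' := z 81 (by norm_num)
    have h162' := z 162 (by norm_num)
    rcases hval3 6 (by norm_num) with h | h | h | h <;> omega
  · -- elements of order 5
    have h5N : 5 ∣ Nat.card G := by rw [habc]; exact Dvd.dvd.mul_left (by norm_num) _
    have h5 := c5 h5N
    have hb1 : 1 ≤ b := by
      by_contra hb
      have hb0 : b = 0 := by omega
      subst hb0
      interval_cases a <;> norm_num at habc <;> omega
    have h3N : 3 ∣ Nat.card G := by
      rw [habc]
      exact Dvd.dvd.mul_right (Dvd.dvd.mul_left (dvd_pow_self 3 (by omega)) _) _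
    have h3 := c3 h3N
    have h15N : 15 ∣ Nat.card G :=
      Nat.Coprime.mul_dvd_of_dvd_of_dvd (by norm_num : Nat.Coprime 3 5) h3N h5N
    have hf15 := frob_list (G := G) 15 h15N [1, 3, 5, 15] (by decide) (by decide)
    simp only [List.map_cons, List.map_nil, List.sum_cons, List.sum_nil] at hf15
    have ht := totient_dvd_cnt (G := G) 15
    rw [show Nat.totient 15 = 8 by decide] at ht
    have h15 : cnt G 15 = 0 := by rcases hval3 15 (by norm_num) with h | h | h | h <;> omega
    have hF3 : Fact (Nat.Prime 3) := ⟨Nat.prime_three⟩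
    obtain ⟨P⟩ : Nonempty (Sylow 3 G) := inferInstance
    have hP : Nat.card (P : Subgroup G) = 3 ^ b :=
      PSL9.sylow_card_pow (G := G) (p := 3) (k := b) (m := 2 ^ a * 5) (by rw [habc]; ring)
        (fun h => by
          rcases (Nat.Prime.dvd_mul Nat.prime_three).mp h with h' | h'
          · have := Nat.Prime.dvd_of_dvd_pow Nat.prime_three h'; omega
          · omega) P
    have hdv := sylow_card_dvd_cnt 3 5 Nat.prime_five (by norm_num) P h15
    rw [hP, h5] at hdv
    have hb2 : b ≤ 2 := by
      by_contra hb
      have h27 : (27 : ℕ) ∣ 144 := dvd_trans (dvd_trans (by norm_num : (27 : ℕ) ∣ 3 ^ 3)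
        (pow_dvd_pow 3 (by omega : 3 ≤ b))) hdv
      omega
    have hN' : Nat.card G = 360 := by
      interval_cases a <;> interval_cases b <;> norm_num at habc <;> omega
    clear hdv hP P habc ha hb1 hb2
    have h4 := c4 (by rw [hN']; norm_num)
    have hs := card_eq_sum_list (G := G) 360 hN' _ (by decide) divisors_360
    simp only [List.map_cons, List.map_nil, List.sum_cons, List.sum_nil] at hs
    have hord : ∀ g : G, orderOf g ≤ 5 := by
      intro g
      have hne := cnt_orderOf_ne_zero g
      have hmem : orderOf g ∈ Nat.divisors 360 :=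
        Nat.mem_divisors.mpr ⟨hN' ▸ orderOf_dvd_natCard g, by norm_num⟩
      rw [divisors_360] at hmem
      simp only [List.mem_toFinset, List.mem_cons, List.not_mem_nil, or_false] at hmem
      rcases hmem with h | h | h | h | h | h | h | h | h | h | h | h | h | h | h | h | h | h |
        h | h | h | h | h | h <;> rw [h] at hne <;> omega
    have hF5 : Fact (Nat.Prime 5) := ⟨Nat.prime_five⟩
    obtain ⟨y, hy⟩ := exists_of_cnt_ne_zero (G := G) (k := 5) (by rw [h5]; norm_num)
    have hsimple : IsSimpleGroup G := by
      have hnt : Nontrivial G := (Finite.one_lt_card_iff_nontrivial).mp (by rw [hN']; norm_num)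
      refine ⟨fun K hK => ?_⟩
      by_contra hcon
      push Not at hcon
      obtain ⟨hKbot, hKtop⟩ := hcon
      have hki := Subgroup.card_mul_index K
      rw [hN'] at hki
      have hk1 : Nat.card K ≠ 1 := fun h => hKbot (Subgroup.card_eq_one.mp h)
      have hk360 : Nat.card K ≠ 360 := fun h =>
        hKtop ((Subgroup.card_eq_iff_eq_top K).mp (by rw [h, hN']))
      have hkmem : Nat.card K ∈ Nat.divisors 360 :=
        Nat.mem_divisors.mpr ⟨Dvd.intro _ hki, by norm_num⟩
      rw [divisors_360] at hkmem
      simp only [List.mem_toFinset, List.mem_cons, List.not_mem_nil, or_false] at hkmem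
      have hA : Nat.Coprime 5 K.index → 145 ≤ Nat.card K := fun hc => by
        have := card_pow_le_of_coprime K 5 hc
        rw [card_pow_prime Nat.prime_five, h5] at this; omega
      have hB : Nat.Coprime 3 K.index → 81 ≤ Nat.card K := fun hc => by
        have := card_pow_le_of_coprime K 3 hc
        rw [card_pow_prime Nat.prime_three, h3] at this; omega
      have hC : Nat.Coprime 15 K.index → 225 ≤ Nat.card K := fun hc => by
        have := card_pow_le_of_coprime K 15 hc
        rw [card_pow_list 15 (by norm_num) [1, 3, 5, 15] (by decide) (by decide)] at this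
        simp only [List.map_cons, List.map_nil, List.sum_cons, List.sum_nil] at this
        omega
      have hD : ¬ 5 ∣ Nat.card K → ¬ 5 ∣ Nat.card K - 1 → False := by
        intro hd1 hd2
        obtain ⟨w, hwK, hw1, hw⟩ := exists_order_mul 5 y hy K hd1 hd2
        obtain ⟨x, hx⟩ := exists_of_cnt_ne_zero hw
        have := hord x
        have := orderOf_pos w
        have := orderOf_ne_one_of_ne hw1
        omega
      have hE : Nat.card K = 6 → False := by
        intro hk
        have hF2 : Fact (Nat.Prime 2) := ⟨Nat.prime_two⟩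
        obtain ⟨t, ht⟩ := exists_prime_orderOf_dvd_card' (G := K) 2 (by rw [hk]; norm_num)
        obtain ⟨z, hz⟩ := exists_prime_orderOf_dvd_card' (G := K) 3 (by rw [hk]; norm_num)
        have hz' : orderOf (z : G) = 3 := by rw [Subgroup.orderOf_coe]; exact hz
        have ht' : orderOf (t : G) = 2 := by rw [Subgroup.orderOf_coe]; exact ht
        have hle := card_order_le K 2 (by norm_num) (z : G) z.2
          (by intro h; rw [h, orderOf_one] at hz'; omega) (by rw [hz']; norm_num)
        have hpos : 0 < Nat.card ({w : G | w ∈ K ∧ orderOf w = 2} : Set G) := by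
          have : Nonempty ({w : G | w ∈ K ∧ orderOf w = 2} : Set G) := ⟨⟨(t : G), t.2, ht'⟩⟩
          exact Nat.card_pos
        have hne := cnt_mul_ne_zero 5 y hy {w : G | w ∈ K ∧ orderOf w = 2}
          (fun c v hv => ⟨hK.conj_mem v hv.1 c, ((MulAut.conj c).orderOf_eq v).trans hv.2⟩)
          (by rw [hk] at hle; omega) 2 (fun w hw => hw.2) (by norm_num)
        obtain ⟨x, hx⟩ := exists_of_cnt_ne_zero hne
        have := hord x
        omega
      rcases hkmem with hk | hk | hk | hk | hk | hk | hk | hk | hk | hk | hk | hk | hk | hk | hk |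
        hk | hk | hk | hk | hk | hk | hk | hk | hk <;> rw [hk] at hki
      · exact hk1 hk
      · exact hD (by rw [hk]; norm_num) (by rw [hk]; norm_num)
      · exact hD (by rw [hk]; norm_num) (by rw [hk]; norm_num)
      · exact hD (by rw [hk]; norm_num) (by rw [hk]; norm_num)
      · have := hA (by rw [show K.index = 72 by omega]; decide); omega
      · exact hE hk
      · exact hD (by rw [hk]; norm_num) (by rw [hk]; norm_num)
      · have := hB (by rw [show K.index = 40 by omega]; decide); omega
      · have := hA (by rw [show K.index = 36 by omega]; decide); omega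
      · exact hD (by rw [hk]; norm_num) (by rw [hk]; norm_num)
      · have := hA (by rw [show K.index = 24 by omega]; decide); omega
      · have := hB (by rw [show K.index = 20 by omega]; decide); omega
      · have := hA (by rw [show K.index = 18 by omega]; decide); omega
      · exact hD (by rw [hk]; norm_num) (by rw [hk]; norm_num)
      · have := hA (by rw [show K.index = 12 by omega]; decide); omega
      · have := hB (by rw [show K.index = 10 by omega]; decide); omega
      · have := hA (by rw [show K.index = 9 by omega]; decide); omega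
      · have := hA (by rw [show K.index = 8 by omega]; decide); omega
      · have := hA (by rw [show K.index = 6 by omega]; decide); omega
      · have := hB (by rw [show K.index = 5 by omega]; decide); omega
      · have := hA (by rw [show K.index = 4 by omega]; decide); omega
      · have := hA (by rw [show K.index = 3 by omega]; decide); omega
      · have := hC (by rw [show K.index = 2 by omega]; decide); omega
      · exact hk360 hk
    exact Cfsg.Agent.S0497.result hN'

end Cfsg.Agent.H51.Nse
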