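import Mathlib
import Cfsg.Agent.H51.NseBasic

/-! The numbers of elements of each order in the alternating groups of degrees 4, 5, 6
(helper51). -/

set_option autoImplicit false

namespace Cfsg.Agent.H51.Nse

open Cfsg.Agent.H21.TwoCounts

section Counts

set_option maxRecDepth 100000

theorem a4_pow2 : Nat.card {g : alternatingGroup (Fin 4) // g ^ 2 = 1} = 4 := by
  rw [Nat.card_eq_fintype_card, Fintype.card_subtype]; decide +kernel

theorem a4_pow3 : Nat.card {g : alternatingGroup (Fin 4) // g ^ 3 = 1} = 9 := by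
  rw [Nat.card_eq_fintype_card, Fintype.card_subtype]; decide +kernel

theorem a4_spec : ∀ g : alternatingGroup (Fin 4), g ^ 2 = 1 ∨ g ^ 3 = 1 := by decide +kernel

theorem a5_pow2 : Nat.card {g : alternatingGroup (Fin 5) // g ^ 2 = 1} = 16 := by
  rw [Nat.card_eq_fintype_card, Fintype.card_subtype]; decide +kernel

theorem a5_pow3 : Nat.card {g : alternatingGroup (Fin 5) // g ^ 3 = 1} = 21 := by
  rw [Nat.card_eq_fintype_card, Fintype.card_subtype]; decide +kernel

theorem a5_pow5 : Nat.card {g : alternatingGroup (Fin 5) // g ^ 5 = 1} = 25 := by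
  rw [Nat.card_eq_fintype_card, Fintype.card_subtype]; decide +kernel

theorem a5_spec : ∀ g : alternatingGroup (Fin 5), g ^ 2 = 1 ∨ g ^ 3 = 1 ∨ g ^ 5 = 1 := by
  decide +kernel

theorem a6_pow2 : Nat.card {g : alternatingGroup (Fin 6) // g ^ 2 = 1} = 46 := by
  rw [Nat.card_eq_fintype_card, Fintype.card_subtype]; decide +kernel

theorem a6_pow3 : Nat.card {g : alternatingGroup (Fin 6) // g ^ 3 = 1} = 81 := by
  rw [Nat.card_eq_fintype_card, Fintype.card_subtype]; decide +kernel

theorem a6_pow4 : Nat.card {g : alternatingGroup (Fin 6) // g ^ 4 = 1} = 136 := by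
  rw [Nat.card_eq_fintype_card, Fintype.card_subtype]; decide +kernel

theorem a6_pow5 : Nat.card {g : alternatingGroup (Fin 6) // g ^ 5 = 1} = 145 := by
  rw [Nat.card_eq_fintype_card, Fintype.card_subtype]; decide +kernel

theorem a6_spec : ∀ g : alternatingGroup (Fin 6),
    g ^ 3 = 1 ∨ g ^ 4 = 1 ∨ g ^ 5 = 1 := by
  decide +kernel

end Counts

variable {G : Type*} [Group G] [Finite G]

theorem orderOf_of_pow_prime {p : ℕ} (hp : p.Prime) {g : G} (h : g ^ p = 1) :
    orderOf g = 1 ∨ orderOf g = p :=
  (Nat.dvd_prime hp).mp (orderOf_dvd_of_pow_eq_one h)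

theorem orderOf_of_pow_four {g : G} (h : g ^ 4 = 1) :
    orderOf g = 1 ∨ orderOf g = 2 ∨ orderOf g = 4 := by
  have h1 := orderOf_dvd_of_pow_eq_one h
  have h2 := Nat.le_of_dvd (by norm_num) h1
  have h3 := orderOf_pos g
  generalize orderOf g = n at h1 h2 h3
  interval_cases n <;> simp_all

/-- The counts of the alternating group of degree 4. -/
theorem nse_a4 : ((fun m : ℕ => Nat.card {g : alternatingGroup (Fin 4) // orderOf g = m}) ''
    Set.range (orderOf : alternatingGroup (Fin 4) → ℕ)) = {1, 3, 8} := by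
  have c1 : cnt (alternatingGroup (Fin 4)) 1 = 1 := cnt_one
  have c2 : cnt (alternatingGroup (Fin 4)) 2 = 3 := by
    have := card_pow_prime (G := alternatingGroup (Fin 4)) Nat.prime_two
    rw [a4_pow2] at this; omega
  have c3 : cnt (alternatingGroup (Fin 4)) 3 = 8 := by
    have := card_pow_prime (G := alternatingGroup (Fin 4)) Nat.prime_three
    rw [a4_pow3] at this; omega
  have hspec : ∀ g : alternatingGroup (Fin 4), orderOf g = 1 ∨ orderOf g = 2 ∨ orderOf g = 3 := by
    intro g
    rcases a4_spec g with h | h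
    · rcases orderOf_of_pow_prime Nat.prime_two h with h | h
      · exact Or.inl h
      · exact Or.inr (Or.inl h)
    · rcases orderOf_of_pow_prime Nat.prime_three h with h | h
      · exact Or.inl h
      · exact Or.inr (Or.inr h)
  ext v
  constructor
  · rintro ⟨m, ⟨g, rfl⟩, rfl⟩
    show cnt (alternatingGroup (Fin 4)) (orderOf g) ∈ ({1, 3, 8} : Set ℕ)
    rcases hspec g with h | h | h <;> rw [h]
    · rw [c1]; simp
    · rw [c2]; simp
    · rw [c3]; simp
  · intro hv
    have key : ∀ k : ℕ, cnt (alternatingGroup (Fin 4)) k ≠ 0 →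
        cnt (alternatingGroup (Fin 4)) k ∈ ((fun m : ℕ =>
          Nat.card {g : alternatingGroup (Fin 4) // orderOf g = m}) ''
          Set.range (orderOf : alternatingGroup (Fin 4) → ℕ)) := by
      intro k hk
      obtain ⟨g, hg⟩ := exists_of_cnt_ne_zero hk
      exact ⟨k, ⟨g, hg⟩, rfl⟩
    rcases hv with rfl | rfl | rfl
    · rw [← c1]; exact key 1 (by rw [c1]; norm_num)
    · rw [← c2]; exact key 2 (by rw [c2]; norm_num)
    · rw [← c3]; exact key 3 (by rw [c3]; norm_num)

/-- The counts of the alternating group of degree 5. -/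
theorem nse_a5 : ((fun m : ℕ => Nat.card {g : alternatingGroup (Fin 5) // orderOf g = m}) ''
    Set.range (orderOf : alternatingGroup (Fin 5) → ℕ)) = {1, 15, 20, 24} := by
  have c1 : cnt (alternatingGroup (Fin 5)) 1 = 1 := cnt_one
  have c2 : cnt (alternatingGroup (Fin 5)) 2 = 15 := by
    have := card_pow_prime (G := alternatingGroup (Fin 5)) Nat.prime_two
    rw [a5_pow2] at this; omega
  have c3 : cnt (alternatingGroup (Fin 5)) 3 = 20 := by
    have := card_pow_prime (G := alternatingGroup (Fin 5)) Nat.prime_three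
    rw [a5_pow3] at this; omega
  have c5 : cnt (alternatingGroup (Fin 5)) 5 = 24 := by
    have := card_pow_prime (G := alternatingGroup (Fin 5)) Nat.prime_five
    rw [a5_pow5] at this; omega
  have hspec : ∀ g : alternatingGroup (Fin 5),
      orderOf g = 1 ∨ orderOf g = 2 ∨ orderOf g = 3 ∨ orderOf g = 5 := by
    intro g
    rcases a5_spec g with h | h | h
    · rcases orderOf_of_pow_prime Nat.prime_two h with h | h
      · exact Or.inl h
      · exact Or.inr (Or.inl h)
    · rcases orderOf_of_pow_prime Nat.prime_three h with h | h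
      · exact Or.inl h
      · exact Or.inr (Or.inr (Or.inl h))
    · rcases orderOf_of_pow_prime Nat.prime_five h with h | h
      · exact Or.inl h
      · exact Or.inr (Or.inr (Or.inr h))
  ext v
  constructor
  · rintro ⟨m, ⟨g, rfl⟩, rfl⟩
    show cnt (alternatingGroup (Fin 5)) (orderOf g) ∈ ({1, 15, 20, 24} : Set ℕ)
    rcases hspec g with h | h | h | h <;> rw [h]
    · rw [c1]; simp
    · rw [c2]; simp
    · rw [c3]; simp
    · rw [c5]; simp
  · intro hv
    have key : ∀ k : ℕ, cnt (alternatingGroup (Fin 5)) k ≠ 0 →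
        cnt (alternatingGroup (Fin 5)) k ∈ ((fun m : ℕ =>
          Nat.card {g : alternatingGroup (Fin 5) // orderOf g = m}) ''
          Set.range (orderOf : alternatingGroup (Fin 5) → ℕ)) := by
      intro k hk
      obtain ⟨g, hg⟩ := exists_of_cnt_ne_zero hk
      exact ⟨k, ⟨g, hg⟩, rfl⟩
    rcases hv with rfl | rfl | rfl | rfl
    · rw [← c1]; exact key 1 (by rw [c1]; norm_num)
    · rw [← c2]; exact key 2 (by rw [c2]; norm_num)
    · rw [← c3]; exact key 3 (by rw [c3]; norm_num)
    · rw [← c5]; exact key 5 (by rw [c5]; norm_num)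

/-- The counts of the alternating group of degree 6. -/
theorem nse_a6 : ((fun m : ℕ => Nat.card {g : alternatingGroup (Fin 6) // orderOf g = m}) ''
    Set.range (orderOf : alternatingGroup (Fin 6) → ℕ)) = {1, 45, 80, 90, 144} := by
  have c1 : cnt (alternatingGroup (Fin 6)) 1 = 1 := cnt_one
  have c2 : cnt (alternatingGroup (Fin 6)) 2 = 45 := by
    have := card_pow_prime (G := alternatingGroup (Fin 6)) Nat.prime_two
    rw [a6_pow2] at this; omega
  have c3 : cnt (alternatingGroup (Fin 6)) 3 = 80 := by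
    have := card_pow_prime (G := alternatingGroup (Fin 6)) Nat.prime_three
    rw [a6_pow3] at this; omega
  have c5 : cnt (alternatingGroup (Fin 6)) 5 = 144 := by
    have := card_pow_prime (G := alternatingGroup (Fin 6)) Nat.prime_five
    rw [a6_pow5] at this; omega
  have c4 : cnt (alternatingGroup (Fin 6)) 4 = 90 := by
    have := card_pow_eq_one (G := alternatingGroup (Fin 6)) 4 (by norm_num)
    rw [a6_pow4, sum_divisors_four, c1, c2] at this; omega
  have hspec : ∀ g : alternatingGroup (Fin 6),
      orderOf g = 1 ∨ orderOf g = 2 ∨ orderOf g = 3 ∨ orderOf g = 4 ∨ orderOf g = 5 := by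
    intro g
    rcases a6_spec g with h | h | h
    · rcases orderOf_of_pow_prime Nat.prime_three h with h | h
      · exact Or.inl h
      · exact Or.inr (Or.inr (Or.inl h))
    · rcases orderOf_of_pow_four h with h | h | h
      · exact Or.inl h
      · exact Or.inr (Or.inl h)
      · exact Or.inr (Or.inr (Or.inr (Or.inl h)))
    · rcases orderOf_of_pow_prime Nat.prime_five h with h | h
      · exact Or.inl h
      · exact Or.inr (Or.inr (Or.inr (Or.inr h)))
  ext v
  constructor
  · rintro ⟨m, ⟨g, rfl⟩, rfl⟩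
    show cnt (alternatingGroup (Fin 6)) (orderOf g) ∈ ({1, 45, 80, 90, 144} : Set ℕ)
    rcases hspec g with h | h | h | h | h <;> rw [h]
    · rw [c1]; simp
    · rw [c2]; simp
    · rw [c3]; simp
    · rw [c4]; simp
    · rw [c5]; simp
  · intro hv
    have key : ∀ k : ℕ, cnt (alternatingGroup (Fin 6)) k ≠ 0 →
        cnt (alternatingGroup (Fin 6)) k ∈ ((fun m : ℕ =>
          Nat.card {g : alternatingGroup (Fin 6) // orderOf g = m}) ''
          Set.range (orderOf : alternatingGroup (Fin 6) → ℕ)) := by
      intro k hk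
      obtain ⟨g, hg⟩ := exists_of_cnt_ne_zero hk
      exact ⟨k, ⟨g, hg⟩, rfl⟩
    rcases hv with rfl | rfl | rfl | rfl | rfl
    · rw [← c1]; exact key 1 (by rw [c1]; norm_num)
    · rw [← c2]; exact key 2 (by rw [c2]; norm_num)
    · rw [← c3]; exact key 3 (by rw [c3]; norm_num)
    · rw [← c4]; exact key 4 (by rw [c4]; norm_num)
    · rw [← c5]; exact key 5 (by rw [c5]; norm_num)

end Cfsg.Agent.H51.Nse
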