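import Mathlib

set_option autoImplicit false

namespace Cfsg.Agent.H51.PD

open Equiv MulAction

/-- A permutation of order `p = |α|` (prime) is a cycle moving every point. -/
theorem cycle_full {α : Type*} [Fintype α] [DecidableEq α] {p : ℕ} [Fact p.Prime]
    (hα : Fintype.card α = p) (σ : Perm α) (hσ : orderOf σ = p) :
    σ.IsCycle ∧ ∀ a : α, σ a ≠ a := by
  have hp : p.Prime := Fact.out
  have hc : σ.IsCycle :=
    Equiv.Perm.isCycle_of_prime_order'' (hα ▸ hp) (hσ.trans hα.symm)
  refine ⟨hc, ?_⟩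
  have hs : σ.support.card = Fintype.card α := by
    rw [← hc.orderOf, hσ, hα]
  have hu : σ.support = Finset.univ := Finset.eq_univ_of_card _ hs
  intro a
  have : a ∈ σ.support := hu ▸ Finset.mem_univ a
  exact Equiv.Perm.mem_support.mp this

/-- With `σ` as in `cycle_full`, any two points are linked by a power of `σ`. -/
theorem cycle_full_zpow {α : Type*} [Fintype α] [DecidableEq α] {p : ℕ} [Fact p.Prime]
    (hα : Fintype.card α = p) (σ : Perm α) (hσ : orderOf σ = p) (a b : α) :
    ∃ i : ℤ, (σ ^ i) a = b := by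
  obtain ⟨hc, hm⟩ := cycle_full hα σ hσ
  exact hc.exists_zpow_eq (hm a) (hm b)

/-- A power of a `p`-singular element of order exactly `p`. -/
theorem orderOf_pow_div {G : Type*} [Group G] [Finite G] {p : ℕ} (g : G)
    (hg : p ∣ orderOf g) : orderOf (g ^ (orderOf g / p)) = p :=
  orderOf_pow_orderOf_div (orderOf_pos g).ne' hg

theorem pretransitive_of_dvd {α : Type*} [Fintype α] [DecidableEq α] {p : ℕ} [Fact p.Prime]
    (hα : Fintype.card α = p) (G : Subgroup (Perm α)) (hdvd : p ∣ Nat.card G) :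
    IsPretransitive G α := by
  obtain ⟨g, hg⟩ := exists_prime_orderOf_dvd_card' (G := G) p hdvd
  have hg' : orderOf (g : Perm α) = p := by
    rw [Subgroup.orderOf_coe]; exact hg
  refine ⟨fun a b => ?_⟩
  obtain ⟨i, hi⟩ := cycle_full_zpow hα (g : Perm α) hg' a b
  refine ⟨g ^ i, ?_⟩
  change ((g ^ i : G) : Perm α) a = b
  rw [Subgroup.coe_zpow]
  exact hi

end Cfsg.Agent.H51.PD
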