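import Mathlib
import Cfsg.Agent.H51.PDD1

set_option autoImplicit false

namespace Cfsg.Agent.H51.PD

open Equiv MulAction

theorem centralizer_sylow_eq {α : Type*} [Fintype α] [DecidableEq α] {p : ℕ} [Fact p.Prime]
    (hα : Fintype.card α = p) (G : Subgroup (Perm α)) (P : Sylow p G) (hP : Nat.card P = p) :
    Subgroup.centralizer ((P : Subgroup G) : Set G) = (P : Subgroup G) := by
  have hp : p.Prime := Fact.out
  -- a generator of `P`
  have hcyc : IsCyclic (P : Subgroup G) := isCyclic_of_prime_card hP
  obtain ⟨c, hc⟩ := hcyc.exists_generator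
  have hcord : orderOf c = p := by
    rw [orderOf_eq_card_of_forall_mem_zpowers hc, hP]
  have hcord' : orderOf ((c : G) : Perm α) = p := by
    rw [Subgroup.orderOf_coe, Subgroup.orderOf_coe]; exact hcord
  -- every element of P is a power of c
  have hPc : ∀ x : G, x ∈ (P : Subgroup G) → ∃ i : ℤ, x = (c : G) ^ i := by
    intro x hx
    obtain ⟨i, hi⟩ := Subgroup.mem_zpowers_iff.mp (hc ⟨x, hx⟩)
    refine ⟨i, ?_⟩
    have := congrArg (Subtype.val) hi
    simpa using this.symm
  apply le_antisymm
  · intro h hh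
    rw [Subgroup.mem_centralizer_iff] at hh
    have hcomm : (c : G) * h = h * (c : G) := hh (c : G) c.2
    have hcomm' : ((c : G) : Perm α) * (h : Perm α) = (h : Perm α) * ((c : G) : Perm α) := by
      have := congrArg (Subtype.val) hcomm
      simpa using this
    -- pick a point
    have hpos : 0 < Fintype.card α := hα ▸ hp.pos
    obtain ⟨a⟩ := Fintype.card_pos_iff.mp hpos
    obtain ⟨j, hj⟩ := cycle_full_zpow hα _ hcord' a ((h : Perm α) a)
    have hcz : ∀ k : ℤ, ((c : G) : Perm α) ^ k * (h : Perm α)
        = (h : Perm α) * ((c : G) : Perm α) ^ k := by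
      intro k
      have : Commute (((c : G) : Perm α)) (h : Perm α) := hcomm'
      exact (this.zpow_left k).eq
    have heq : (h : Perm α) = ((c : G) : Perm α) ^ j := by
      ext b
      obtain ⟨k, hk⟩ := cycle_full_zpow hα _ hcord' a b
      rw [← hk]
      calc (h : Perm α) ((((c : G) : Perm α) ^ k) a)
          = ((h : Perm α) * ((c : G) : Perm α) ^ k) a := rfl
        _ = (((c : G) : Perm α) ^ k * (h : Perm α)) a := by rw [hcz k]
        _ = (((c : G) : Perm α) ^ k) ((h : Perm α) a) := rfl
        _ = (((c : G) : Perm α) ^ k) ((((c : G) : Perm α) ^ j) a) := by rw [hj]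
        _ = (((c : G) : Perm α) ^ k * ((c : G) : Perm α) ^ j) a := rfl
        _ = (((c : G) : Perm α) ^ j * ((c : G) : Perm α) ^ k) a := by
            rw [← zpow_add, ← zpow_add, add_comm]
        _ = (((c : G) : Perm α) ^ j) ((((c : G) : Perm α) ^ k) a) := rfl
    have heq' : h = (c : G) ^ j := by
      apply Subtype.ext
      rw [heq]
      simp
    rw [heq']
    exact Subgroup.zpow_mem _ c.2 j
  · intro x hx
    rw [Subgroup.mem_centralizer_iff]
    intro y hy
    obtain ⟨i, rfl⟩ := hPc x hx
    obtain ⟨k, rfl⟩ := hPc y hy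
    rw [← zpow_add, ← zpow_add, add_comm]

end Cfsg.Agent.H51.PD
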