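import Mathlib
import Cfsg.Agent.H51.PDD1

set_option autoImplicit false

namespace Cfsg.Agent.H51.PD

open Equiv MulAction

theorem fixedBy_empty_of_dvd {α : Type*} [Fintype α] [DecidableEq α] {p : ℕ} [Fact p.Prime]
    (hα : Fintype.card α = p) (G : Subgroup (Perm α)) (g : G) (hg : p ∣ orderOf g) :
    Nat.card (fixedBy α g) = 0 := by
  have h1 : orderOf (g ^ (orderOf g / p)) = p := orderOf_pow_div g hg
  have h2 : orderOf (((g ^ (orderOf g / p) : G)) : Perm α) = p := by
    rw [Subgroup.orderOf_coe]; exact h1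
  obtain ⟨-, hm⟩ := cycle_full hα _ h2
  have hempty : IsEmpty (fixedBy α g) := by
    refine ⟨fun a => ?_⟩
    have ha : (g : Perm α) a.1 = a.1 := a.2
    apply hm a.1
    rw [Subgroup.coe_pow]
    have : ∀ n : ℕ, ((g : Perm α) ^ n) a.1 = a.1 := by
      intro n
      induction n with
      | zero => simp
      | succ n ih => rw [pow_succ, Equiv.Perm.mul_apply, ha, ih]
    exact this _
  exact Nat.card_of_isEmpty

end Cfsg.Agent.H51.PD
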