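import Mathlib

set_option autoImplicit false

/-!
Helper lemmas (helper51): in `SL₃(4)`, every non-central element whose cube is central is
conjugate (inside `SL₃(4)`) to `diag(1, ω, ω²)`.
-/

namespace Cfsg.Agent.H51

open Matrix

section F4

variable {K : Type*} [Field K] [Fintype K]

theorem f4_two (hK : Fintype.card K = 4) : (2 : K) = 0 := by
  have h4 : (4 : K) = 0 := by
    have := Nat.cast_card_eq_zero K
    rw [hK] at this
    exact_mod_cast this
  have : (2 : K) * 2 = 0 := by rw [← h4]; norm_num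
  exact mul_self_eq_zero.mp this

theorem f4_frob (hK : Fintype.card K = 4) (x : K) : x ^ 4 = x := by
  rw [← hK]; exact FiniteField.pow_card x

theorem f4_cube (hK : Fintype.card K = 4) {x : K} (hx : x ≠ 0) : x ^ 3 = 1 := by
  have h := f4_frob hK x
  have : x * (x ^ 3 - 1) = 0 := by linear_combination h
  rcases mul_eq_zero.mp this with h0 | h1
  · exact absurd h0 hx
  · exact sub_eq_zero.mp h1

theorem f4_omega (hK : Fintype.card K = 4) :
    ∃ ω : K, ω ≠ 0 ∧ ω ≠ 1 ∧ ω ^ 2 + ω + 1 = 0 := by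
  classical
  have : ∃ ω : K, ω ∉ ({0, 1} : Finset K) := by
    by_contra hcon
    push Not at hcon
    have hsub : (Finset.univ : Finset K) ⊆ {0, 1} := fun x _ => hcon x
    have h1 := Finset.card_le_card hsub
    rw [Finset.card_univ, hK] at h1
    have h2 : ({0, 1} : Finset K).card ≤ 2 := Finset.card_le_two
    omega
  obtain ⟨ω, hω⟩ := this
  simp only [Finset.mem_insert, Finset.mem_singleton, not_or] at hω
  refine ⟨ω, hω.1, hω.2, ?_⟩
  have h3 := f4_cube hK hω.1
  have : (ω - 1) * (ω ^ 2 + ω + 1) = 0 := by linear_combination h3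
  rcases mul_eq_zero.mp this with h | h
  · exact absurd (sub_eq_zero.mp h) hω.2
  · exact h

end F4

section Mat

variable {K : Type*} [Field K]

/-- Characteristic polynomial of a `3 × 3` matrix, in the form `det (M + l)`. -/
theorem det_add_smul_one (M : Matrix (Fin 3) (Fin 3) K) (l : K) :
    (M + l • (1 : Matrix (Fin 3) (Fin 3) K)).det =
      l ^ 3 + M.trace * l ^ 2 + M.adjugate.trace * l + M.det := by
  rw [Matrix.det_fin_three, Matrix.det_fin_three, Matrix.trace_fin_three, Matrix.trace_fin_three,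
    Matrix.adjugate_fin_three]
  simp [Matrix.add_apply, Matrix.smul_apply]
  ring

theorem trace_mul_self_char_two (h2 : (2 : K) = 0) (M : Matrix (Fin 3) (Fin 3) K) :
    (M * M).trace = M.trace ^ 2 := by
  rw [Matrix.trace_fin_three, Matrix.trace_fin_three]
  simp only [Matrix.mul_apply, Fin.sum_univ_three]
  linear_combination (M 0 1 * M 1 0 + M 0 2 * M 2 0 + M 1 2 * M 2 1 - M 0 0 * M 1 1
    - M 0 0 * M 2 2 - M 1 1 * M 2 2) * h2

/-- In characteristic two, a root `l` of `det (M + l)` gives an eigenvector for `l`. -/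
theorem exists_eigen_of_det (h2 : (2 : K) = 0) (M : Matrix (Fin 3) (Fin 3) K) (l : K)
    (h : (M + l • (1 : Matrix (Fin 3) (Fin 3) K)).det = 0) :
    ∃ v : Fin 3 → K, v ≠ 0 ∧ M *ᵥ v = l • v := by
  obtain ⟨v, hv, hMv⟩ := Matrix.exists_mulVec_eq_zero_iff.mpr h
  refine ⟨v, hv, ?_⟩
  rw [Matrix.add_mulVec, Matrix.smul_mulVec, Matrix.one_mulVec] at hMv
  have h3 : l • v + l • v = 0 := by
    rw [← add_smul, ← two_mul, h2, zero_mul, zero_smul]
  calc M *ᵥ v = M *ᵥ v + l • v + l • v := by rw [add_assoc, h3, add_zero]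
    _ = l • v := by rw [hMv, zero_add]

theorem pow_mulVec_eigen (M : Matrix (Fin 3) (Fin 3) K) (l : K) (v : Fin 3 → K)
    (h : M *ᵥ v = l • v) (n : ℕ) : (M ^ n) *ᵥ v = l ^ n • v := by
  induction n with
  | zero => simp
  | succ n ih =>
    rw [pow_succ, ← Matrix.mulVec_mulVec, h, Matrix.mulVec_smul, ih, smul_smul, pow_succ,
      mul_comm]

end Mat

section Main

variable {K : Type*} [Field K] [Fintype K]

theorem adjugate_trace_of_cube {K : Type*} [Field K] (h2 : (2 : K) = 0)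
    (M : Matrix (Fin 3) (Fin 3) K) (hdet : M.det = 1) (ζ : K) (hζ3 : ζ ^ 3 = 1)
    (h3 : M ^ 3 = ζ • (1 : Matrix (Fin 3) (Fin 3) K)) :
    M.adjugate.trace = ζ ^ 2 * M.trace ^ 2 := by
  have hadj : M.adjugate = ζ ^ 2 • (M * M) := by
    have h1 : M.adjugate * M = 1 := by rw [Matrix.adjugate_mul, hdet, one_smul]
    have h4 : M * (ζ ^ 2 • (M * M)) = 1 := by
      rw [Matrix.mul_smul, ← pow_two, ← pow_succ', h3, smul_smul, ← pow_succ, hζ3, one_smul]
    calc M.adjugate = M.adjugate * (M * (ζ ^ 2 • (M * M))) := by rw [h4, mul_one]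
      _ = (M.adjugate * M) * (ζ ^ 2 • (M * M)) := by rw [mul_assoc]
      _ = ζ ^ 2 • (M * M) := by rw [h1, one_mul]
  rw [hadj, Matrix.trace_smul, trace_mul_self_char_two h2, smul_eq_mul]

/-- `M³ = ζ`, `det M = 1` over `F₄` forces `ζ = 1`. -/
theorem cube_scalar_eq_one (hK : Fintype.card K = 4) (M : Matrix (Fin 3) (Fin 3) K)
    (hdet : M.det = 1) (ζ : K) (h3 : M ^ 3 = ζ • (1 : Matrix (Fin 3) (Fin 3) K)) : ζ = 1 := by
  have h2 := f4_two hK
  have hζ3 : ζ ^ 3 = 1 := by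
    have := congrArg Matrix.det h3
    rw [Matrix.det_pow, hdet, one_pow, Matrix.det_smul, Matrix.det_one, mul_one,
      Fintype.card_fin] at this
    exact this.symm
  have hσ := adjugate_trace_of_cube h2 M hdet ζ hζ3 h3
  have key : ∀ l : K, (M + l • (1 : Matrix (Fin 3) (Fin 3) K)).det = 0 → l ^ 3 = 1 → ζ = 1 := by
    intro l hl hl3
    obtain ⟨v, hv, hMv⟩ := exists_eigen_of_det h2 M l hl
    have h5 := pow_mulVec_eigen M l v hMv 3
    rw [h3, Matrix.smul_mulVec, Matrix.one_mulVec, hl3, one_smul] at h5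
    obtain ⟨i, hi⟩ : ∃ i, v i ≠ 0 := by
      by_contra hh
      exact hv (funext fun j => by_contra fun hj => hh ⟨j, hj⟩)
    have h6 := congrFun h5 i
    simp only [Pi.smul_apply, smul_eq_mul] at h6
    have : (ζ - 1) * v i = 0 := by linear_combination h6
    rcases mul_eq_zero.mp this with h | h
    · exact sub_eq_zero.mp h
    · exact absurd h hi
  by_cases hτ : M.trace = 0
  · apply key 1
    · rw [det_add_smul_one, hσ, hτ, hdet]; linear_combination h2
    · norm_num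
  · have hτ3 := f4_cube hK hτ
    apply key (M.trace * ζ ^ 2)
    · rw [det_add_smul_one, hσ, hdet]
      linear_combination (ζ ^ 6 + 2 * ζ ^ 4) * hτ3 + (ζ ^ 3 + 1 + 2 * ζ) * hζ3 + (1 + ζ) * h2
    · rw [mul_pow, hτ3, one_mul, ← pow_mul]
      calc ζ ^ (2 * 3) = (ζ ^ 3) ^ 2 := by ring
        _ = 1 := by rw [hζ3, one_pow]

theorem cubic_factor {K : Type*} [Field K] (ω : K) (hω : ω ^ 2 + ω + 1 = 0)
    (M : Matrix (Fin 3) (Fin 3) K) (τ : K) :
    (M + τ • (1 : Matrix (Fin 3) (Fin 3) K)) *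
      ((M + (τ * ω) • (1 : Matrix (Fin 3) (Fin 3) K)) *
        (M + (τ * ω ^ 2) • (1 : Matrix (Fin 3) (Fin 3) K))) =
      M ^ 3 + (τ ^ 3) • (1 : Matrix (Fin 3) (Fin 3) K) := by
  open Polynomial in
  have hs : (C ω) ^ 2 + C ω + 1 = (0 : K[X]) := by
    rw [← C_pow, ← C_add, ← C_1, ← C_add, hω, C_0]
  have hp : (X + C τ) * ((X + C (τ * ω)) * (X + C (τ * ω ^ 2))) = (X ^ 3 + C (τ ^ 3) : K[X]) := by
    simp only [C_mul, C_pow]
    linear_combination ((X + C τ) * (C τ * X + (C τ) ^ 2 * (C ω - 1))) * hs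
  have := congrArg (Polynomial.aeval M) hp
  simp only [Polynomial.aeval_mul, Polynomial.aeval_add, Polynomial.aeval_X, Polynomial.aeval_C,
    Polynomial.aeval_X_pow, Algebra.algebraMap_eq_smul_one] at this
  exact this

/-- `M³ = 1`, `det M = 1` over `F₄`, `M` not scalar: the trace vanishes. -/
theorem trace_eq_zero_of_cube (hK : Fintype.card K = 4) (ω : K) (hω : ω ^ 2 + ω + 1 = 0)
    (M : Matrix (Fin 3) (Fin 3) K) (hdet : M.det = 1) (h3 : M ^ 3 = 1)
    (hns : ∀ c : K, M ≠ c • (1 : Matrix (Fin 3) (Fin 3) K)) : M.trace = 0 := by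
  have h2 := f4_two hK
  by_contra hτ
  have hτ3 := f4_cube hK hτ
  have hσ := adjugate_trace_of_cube h2 M hdet 1 (one_pow 3) (by rw [h3, one_smul])
  rw [one_pow, one_mul] at hσ
  set τ := M.trace with hτdef
  have hfac := cubic_factor ω hω M τ
  rw [h3, hτ3, one_smul] at hfac
  have h11 : (1 : Matrix (Fin 3) (Fin 3) K) + 1 = 0 := by
    rw [← two_smul K (1 : Matrix (Fin 3) (Fin 3) K), h2, zero_smul]
  rw [h11] at hfac
  have hd1 : (M + (τ * ω) • (1 : Matrix (Fin 3) (Fin 3) K)).det = 1 := by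
    rw [det_add_smul_one, hσ, hdet]
    linear_combination (τ ^ 3 * ω) * hω
  have hd2 : (M + (τ * ω ^ 2) • (1 : Matrix (Fin 3) (Fin 3) K)).det = 1 := by
    rw [det_add_smul_one, hσ, hdet]
    linear_combination (τ ^ 3 * ω ^ 2 * (ω ^ 2 - ω + 1)) * hω
  set B := (M + (τ * ω) • (1 : Matrix (Fin 3) (Fin 3) K)) *
        (M + (τ * ω ^ 2) • (1 : Matrix (Fin 3) (Fin 3) K)) with hB
  have hdB : B.det = 1 := by rw [hB, Matrix.det_mul, hd1, hd2, one_mul]
  have hBB : B * B.adjugate = 1 := by rw [Matrix.mul_adjugate, hdB, one_smul]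
  have hzero : M + τ • (1 : Matrix (Fin 3) (Fin 3) K) = 0 := by
    calc M + τ • (1 : Matrix (Fin 3) (Fin 3) K)
        = (M + τ • (1 : Matrix (Fin 3) (Fin 3) K)) * (B * B.adjugate) := by rw [hBB, mul_one]
      _ = ((M + τ • (1 : Matrix (Fin 3) (Fin 3) K)) * B) * B.adjugate := (mul_assoc _ _ _).symm
      _ = 0 := by rw [hfac, zero_mul]
  apply hns (-τ)
  rw [neg_smul]
  exact eq_neg_of_add_eq_zero_left hzero

/-- Eigenvectors of `M` for `1, ω, ω²` are linearly independent. -/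
theorem eigen_indep {K : Type*} [Field K] (h2 : (2 : K) = 0) (ω : K) (hω : ω ^ 2 + ω + 1 = 0)
    (M : Matrix (Fin 3) (Fin 3) K) (v0 v1 v2 : Fin 3 → K)
    (hM0 : M *ᵥ v0 = (1 : K) • v0) (hM1 : M *ᵥ v1 = ω • v1) (hM2 : M *ᵥ v2 = ω ^ 2 • v2)
    (a b c : K) (h : a • v0 + b • v1 + c • v2 = 0) :
    a • v0 = 0 ∧ b • v1 = 0 ∧ c • v2 = 0 := by
  have e2 : a • v0 + (b * ω) • v1 + (c * ω ^ 2) • v2 = 0 := by
    have := congrArg (fun w => M *ᵥ w) h
    simp only [Matrix.mulVec_add, Matrix.mulVec_smul, hM0, hM1, hM2, Matrix.mulVec_zero,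
      smul_smul, mul_one] at this
    exact this
  have e3 : a • v0 + (b * ω * ω) • v1 + (c * ω ^ 2 * ω ^ 2) • v2 = 0 := by
    have := congrArg (fun w => M *ᵥ w) e2
    simp only [Matrix.mulVec_add, Matrix.mulVec_smul, hM0, hM1, hM2, Matrix.mulVec_zero,
      smul_smul, mul_one] at this
    exact this
  refine ⟨?_, ?_, ?_⟩
  · funext i
    have h1 := congrFun h i
    have h2' := congrFun e2 i
    have h3 := congrFun e3 i
    simp only [Pi.add_apply, Pi.smul_apply, smul_eq_mul, Pi.zero_apply] at h1 h2' h3 ⊢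
    linear_combination h1 + h2' + h3 - (a * v0 i) * h2 - (b * v1 i + c * v2 i * (ω ^ 2 - ω + 1)) * hω
  · funext i
    have h1 := congrFun h i
    have h2' := congrFun e2 i
    have h3 := congrFun e3 i
    simp only [Pi.add_apply, Pi.smul_apply, smul_eq_mul, Pi.zero_apply] at h1 h2' h3 ⊢
    linear_combination h1 + ω ^ 2 * h2' + ω * h3 - (b * v1 i) * h2 - (a * v0 i + b * v1 i * 2 * (ω - 1)
      + c * v2 i * (ω ^ 3 - ω + 1)) * hω
  · funext i
    have h1 := congrFun h i
    have h2' := congrFun e2 i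
    have h3 := congrFun e3 i
    simp only [Pi.add_apply, Pi.smul_apply, smul_eq_mul, Pi.zero_apply] at h1 h2' h3 ⊢
    linear_combination h1 + ω * h2' + ω ^ 2 * h3 - (c * v2 i) * h2 - (a * v0 i + b * v1 i * (ω ^ 2 - ω + 1)
      + c * v2 i * (ω - 1) * (ω ^ 3 + 2)) * hω

/-- Diagonalisation: `M ∈ SL₃(4)` non-scalar with scalar cube is conjugate to `diag(1, ω, ω²)`
by a matrix of determinant one. -/
theorem exists_diag_of_cube (hK : Fintype.card K = 4) (ω : K) (hω : ω ^ 2 + ω + 1 = 0)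
    (M : Matrix (Fin 3) (Fin 3) K) (hdet : M.det = 1) (ζ : K)
    (h3 : M ^ 3 = ζ • (1 : Matrix (Fin 3) (Fin 3) K))
    (hns : ∀ c : K, M ≠ c • (1 : Matrix (Fin 3) (Fin 3) K)) :
    ∃ P : Matrix (Fin 3) (Fin 3) K, P.det = 1 ∧ M * P = P * Matrix.diagonal ![1, ω, ω ^ 2] := by
  have h2 := f4_two hK
  have hζ := cube_scalar_eq_one hK M hdet ζ h3
  rw [hζ, one_smul] at h3
  have hτ := trace_eq_zero_of_cube hK ω hω M hdet h3 hns
  have hσ := adjugate_trace_of_cube h2 M hdet 1 (one_pow 3) (by rw [h3, one_smul])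
  rw [hτ] at hσ
  have hdetl : ∀ l : K, l ^ 3 = 1 → (M + l • (1 : Matrix (Fin 3) (Fin 3) K)).det = 0 := by
    intro l hl
    rw [det_add_smul_one, hσ, hτ, hdet, hl]; linear_combination h2
  have hω3 : ω ^ 3 = 1 := by linear_combination (ω - 1) * hω
  have hω6 : (ω ^ 2) ^ 3 = 1 := by rw [← pow_mul, mul_comm, pow_mul, hω3, one_pow]
  obtain ⟨v0, hv0, hM0⟩ := exists_eigen_of_det h2 M 1 (hdetl 1 (one_pow 3))
  obtain ⟨v1, hv1, hM1⟩ := exists_eigen_of_det h2 M ω (hdetl ω hω3)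
  obtain ⟨v2, hv2, hM2⟩ := exists_eigen_of_det h2 M (ω ^ 2) (hdetl (ω ^ 2) hω6)
  set P₀ : Matrix (Fin 3) (Fin 3) K := Matrix.of (fun i j => ![v0, v1, v2] j i) with hP₀
  have hMP : M * P₀ = P₀ * Matrix.diagonal ![1, ω, ω ^ 2] := by
    ext i j
    rw [Matrix.mul_diagonal]
    have e0 := congrFun hM0 i
    have e1 := congrFun hM1 i
    have e2 := congrFun hM2 i
    simp only [Matrix.mulVec, dotProduct, Fin.sum_univ_three, Pi.smul_apply, smul_eq_mul]
      at e0 e1 e2
    fin_cases j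
    · simp [hP₀, Matrix.mul_apply, Fin.sum_univ_three]; linear_combination e0
    · simp [hP₀, Matrix.mul_apply, Fin.sum_univ_three]; linear_combination e1
    · simp [hP₀, Matrix.mul_apply, Fin.sum_univ_three]; linear_combination e2
  have hP₀det : P₀.det ≠ 0 := by
    intro h0
    obtain ⟨c, hc, hPc⟩ := Matrix.exists_mulVec_eq_zero_iff.mpr h0
    have hsum : c 0 • v0 + c 1 • v1 + c 2 • v2 = 0 := by
      funext i
      have := congrFun hPc i
      simp only [Matrix.mulVec, dotProduct, Fin.sum_univ_three, hP₀] at this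
      simp at this ⊢
      linear_combination this
    obtain ⟨k0, k1, k2⟩ := eigen_indep h2 ω hω M v0 v1 v2 hM0 hM1 hM2 _ _ _ hsum
    have hz : ∀ (a : K) (v : Fin 3 → K), v ≠ 0 → a • v = 0 → a = 0 := by
      intro a v hv hav
      exact (smul_eq_zero.mp hav).resolve_right hv
    apply hc
    funext j
    fin_cases j
    · exact hz _ _ hv0 k0
    · exact hz _ _ hv1 k1
    · exact hz _ _ hv2 k2
  refine ⟨P₀ * Matrix.diagonal ![(P₀.det)⁻¹, 1, 1], ?_, ?_⟩
  · rw [Matrix.det_mul, Matrix.det_diagonal, Fin.prod_univ_three]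
    simp [hP₀det]
  · rw [← mul_assoc, hMP, mul_assoc, mul_assoc, Matrix.diagonal_mul_diagonal,
      Matrix.diagonal_mul_diagonal]
    congr 2
    funext i
    exact mul_comm _ _

omit [Fintype K] in
theorem sl3_f4_scalar_facts (g : Matrix.SpecialLinearGroup (Fin 3) K)
    (hg3 : g ^ 3 ∈ Subgroup.center (Matrix.SpecialLinearGroup (Fin 3) K))
    (hg : g ∉ Subgroup.center (Matrix.SpecialLinearGroup (Fin 3) K)) :
    (∃ ζ : K, (g : Matrix (Fin 3) (Fin 3) K) ^ 3 = ζ • (1 : Matrix (Fin 3) (Fin 3) K)) ∧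
      ∀ c : K, (g : Matrix (Fin 3) (Fin 3) K) ≠ c • (1 : Matrix (Fin 3) (Fin 3) K) := by
  constructor
  · obtain ⟨ζ, _, hζ⟩ := Matrix.SpecialLinearGroup.mem_center_iff.mp hg3
    exact ⟨ζ, by rw [← Matrix.SpecialLinearGroup.coe_pow, ← hζ, Matrix.scalar_apply,
      Matrix.smul_one_eq_diagonal]⟩
  · intro c hc
    apply hg
    rw [Matrix.SpecialLinearGroup.mem_center_iff]
    refine ⟨c, ?_, ?_⟩
    · have h1 : (g : Matrix (Fin 3) (Fin 3) K).det = 1 := g.2
      rw [hc, Matrix.det_smul, Matrix.det_one, mul_one] at h1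
      exact h1
    · rw [hc, Matrix.scalar_apply, Matrix.smul_one_eq_diagonal]

/-- In `SL₃(4)`, a non-central element with central cube is conjugate to `diag(1, ω, ω²)`. -/
theorem sl3_f4_exists_diag (hK : Fintype.card K = 4) (ω : K) (hω : ω ^ 2 + ω + 1 = 0)
    (g : Matrix.SpecialLinearGroup (Fin 3) K)
    (hg3 : g ^ 3 ∈ Subgroup.center (Matrix.SpecialLinearGroup (Fin 3) K))
    (hg : g ∉ Subgroup.center (Matrix.SpecialLinearGroup (Fin 3) K)) :
    ∃ Q : Matrix.SpecialLinearGroup (Fin 3) K,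
      ((Q * g * Q⁻¹ : Matrix.SpecialLinearGroup (Fin 3) K) : Matrix (Fin 3) (Fin 3) K) =
        Matrix.diagonal ![1, ω, ω ^ 2] := by
  obtain ⟨⟨ζ, h3⟩, hns⟩ := sl3_f4_scalar_facts g hg3 hg
  obtain ⟨P, hP, hMP⟩ := exists_diag_of_cube hK ω hω g g.2 ζ h3 hns
  set P' : Matrix.SpecialLinearGroup (Fin 3) K := ⟨P, hP⟩ with hP'
  refine ⟨P'⁻¹, ?_⟩
  have hinv : ((P'⁻¹ : Matrix.SpecialLinearGroup (Fin 3) K) : Matrix (Fin 3) (Fin 3) K) * P
      = 1 := by
    have := congrArg Subtype.val (inv_mul_cancel P')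
    rw [Matrix.SpecialLinearGroup.coe_mul] at this
    exact this
  rw [inv_inv, Matrix.SpecialLinearGroup.coe_mul, Matrix.SpecialLinearGroup.coe_mul]
  show _ * (g : Matrix (Fin 3) (Fin 3) K) * P = _
  rw [mul_assoc, hMP, ← mul_assoc, hinv, one_mul]

/-- In `SL₃(4)`, any two non-central elements with central cube are conjugate. -/
theorem sl3_f4_conj (hK : Fintype.card K = 4) (g h : Matrix.SpecialLinearGroup (Fin 3) K)
    (hg3 : g ^ 3 ∈ Subgroup.center (Matrix.SpecialLinearGroup (Fin 3) K))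
    (hg : g ∉ Subgroup.center (Matrix.SpecialLinearGroup (Fin 3) K))
    (hh3 : h ^ 3 ∈ Subgroup.center (Matrix.SpecialLinearGroup (Fin 3) K))
    (hh : h ∉ Subgroup.center (Matrix.SpecialLinearGroup (Fin 3) K)) :
    ∃ c : Matrix.SpecialLinearGroup (Fin 3) K, c * g * c⁻¹ = h := by
  obtain ⟨ω, -, -, hω⟩ := f4_omega hK
  obtain ⟨P, hP⟩ := sl3_f4_exists_diag hK ω hω g hg3 hg
  obtain ⟨Q, hQ⟩ := sl3_f4_exists_diag hK ω hω h hh3 hh
  have heq : P * g * P⁻¹ = Q * h * Q⁻¹ := Subtype.ext (hP.trans hQ.symm)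
  refine ⟨Q⁻¹ * P, ?_⟩
  have h1 : h = Q⁻¹ * (Q * h * Q⁻¹) * Q := by group
  rw [h1, ← heq]; group

/-- In `PSL₃(4)`, any two elements of order three are conjugate. -/
theorem psl3_f4_conj_order_three (hK : Fintype.card K = 4)
    (x y : Matrix.ProjectiveSpecialLinearGroup (Fin 3) K) (hx : orderOf x = 3)
    (hy : orderOf y = 3) : ∃ c : Matrix.ProjectiveSpecialLinearGroup (Fin 3) K,
      c * x * c⁻¹ = y := by
  obtain ⟨g, rfl⟩ := QuotientGroup.mk_surjective x
  obtain ⟨h, rfl⟩ := QuotientGroup.mk_surjective y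
  have key : ∀ g : Matrix.SpecialLinearGroup (Fin 3) K,
      orderOf (QuotientGroup.mk g : Matrix.ProjectiveSpecialLinearGroup (Fin 3) K) = 3 →
      g ^ 3 ∈ Subgroup.center (Matrix.SpecialLinearGroup (Fin 3) K) ∧
        g ∉ Subgroup.center (Matrix.SpecialLinearGroup (Fin 3) K) := by
    intro g hg
    constructor
    · have h1 := pow_orderOf_eq_one
        (QuotientGroup.mk g : Matrix.ProjectiveSpecialLinearGroup (Fin 3) K)
      rw [hg] at h1
      rw [← QuotientGroup.eq_one_iff, QuotientGroup.mk_pow]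
      exact h1
    · intro hc
      rw [← QuotientGroup.eq_one_iff] at hc
      rw [hc, orderOf_one] at hg
      omega
  obtain ⟨hg3, hg⟩ := key g hx
  obtain ⟨hh3, hh⟩ := key h hy
  obtain ⟨c, hc⟩ := sl3_f4_conj hK g h hg3 hg hh3 hh
  refine ⟨QuotientGroup.mk c, ?_⟩
  rw [← hc]; rfl

/-- A subgroup of order three is generated by an element of order three. -/
theorem exists_zpowers_of_card_three {G : Type*} [Group G] (X : Subgroup G)
    (hX : Nat.card X = 3) : ∃ x : G, orderOf x = 3 ∧ X = Subgroup.zpowers x := by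
  have : Finite X := Nat.finite_of_card_ne_zero (by rw [hX]; norm_num)
  rcases Subgroup.bot_or_exists_ne_one X with h | ⟨x, hxX, hx1⟩
  · rw [h, Subgroup.card_bot] at hX
    omega
  · have hdvd : orderOf x ∣ 3 := hX ▸ Subgroup.orderOf_dvd_natCard X hxX
    have hord : orderOf x = 3 := by
      rcases (Nat.dvd_prime (by norm_num : Nat.Prime 3)).mp hdvd with h | h
      · exact absurd (orderOf_eq_one_iff.mp h) hx1
      · exact h
    refine ⟨x, hord, ?_⟩
    symm
    apply Subgroup.eq_of_le_of_card_ge (Subgroup.zpowers_le.mpr hxX)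
    rw [Nat.card_zpowers, hord, hX]

/-- `PSL₃(4)`: all subgroups of order three are conjugate. -/
theorem psl3_f4_conj_subgroups (hK : Fintype.card K = 4)
    (X Y : Subgroup (Matrix.ProjectiveSpecialLinearGroup (Fin 3) K)) (hX : Nat.card X = 3)
    (hY : Nat.card Y = 3) : ∃ c : Matrix.ProjectiveSpecialLinearGroup (Fin 3) K,
      Subgroup.map (MulAut.conj c).toMonoidHom X = Y := by
  obtain ⟨x, hx, rfl⟩ := exists_zpowers_of_card_three X hX
  obtain ⟨y, hy, rfl⟩ := exists_zpowers_of_card_three Y hY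
  obtain ⟨c, hc⟩ := psl3_f4_conj_order_three hK x y hx hy
  refine ⟨c, ?_⟩
  rw [MonoidHom.map_zpowers]
  congr 1

/-- `PSL₃(4)` has no element of order fifteen. -/
theorem psl3_f4_order_ne_fifteen (hK : Fintype.card K = 4)
    (x : Matrix.ProjectiveSpecialLinearGroup (Fin 3) K) : orderOf x ≠ 15 := by
  intro hx
  obtain ⟨g, rfl⟩ := QuotientGroup.mk_surjective x
  obtain ⟨ω, hω0, hω1, hω⟩ := f4_omega hK
  have h2 := f4_two hK
  have h15 : g ^ 15 ∈ Subgroup.center (Matrix.SpecialLinearGroup (Fin 3) K) := by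
    rw [← QuotientGroup.eq_one_iff, QuotientGroup.mk_pow, ← hx, pow_orderOf_eq_one]
  have h53 : (g ^ 5) ^ 3 ∈ Subgroup.center (Matrix.SpecialLinearGroup (Fin 3) K) := by
    rw [← pow_mul]; exact h15
  have h5 : g ^ 5 ∉ Subgroup.center (Matrix.SpecialLinearGroup (Fin 3) K) := by
    intro hc
    rw [← QuotientGroup.eq_one_iff, QuotientGroup.mk_pow] at hc
    have := orderOf_dvd_of_pow_eq_one hc
    rw [hx] at this
    omega
  obtain ⟨Q, hQ⟩ := sl3_f4_exists_diag hK ω hω (g ^ 5) h53 h5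
  set g' := Q * g * Q⁻¹ with hg'
  have hg'5 : g' ^ 5 = Q * g ^ 5 * Q⁻¹ := by rw [hg', conj_pow]
  have hcomm : g' * (Q * g ^ 5 * Q⁻¹) = (Q * g ^ 5 * Q⁻¹) * g' := by
    rw [← hg'5, ← pow_succ', ← pow_succ]
  set A : Matrix (Fin 3) (Fin 3) K := (g' : Matrix (Fin 3) (Fin 3) K) with hA
  have hcommM : A * Matrix.diagonal ![1, ω, ω ^ 2] = Matrix.diagonal ![1, ω, ω ^ 2] * A := by
    rw [← hQ, hA, ← Matrix.SpecialLinearGroup.coe_mul, ← Matrix.SpecialLinearGroup.coe_mul, hcomm]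
  have a1 : (1 : K) ≠ ω := fun h => hω1 h.symm
  have a2 : (1 : K) ≠ ω ^ 2 := by
    intro h
    apply hω0
    linear_combination hω + h - h2
  have a3 : ω ≠ ω ^ 2 := by
    intro h
    have : ω * (ω - 1) = 0 := by linear_combination -h
    rcases mul_eq_zero.mp this with h' | h'
    · exact hω0 h'
    · exact hω1 (sub_eq_zero.mp h')
  have hd : ∀ i j : Fin 3, i ≠ j → (![1, ω, ω ^ 2] : Fin 3 → K) i ≠ ![1, ω, ω ^ 2] j := by
    intro i j hij
    fin_cases i <;> fin_cases j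
    · exact absurd rfl hij
    · exact a1
    · exact a2
    · exact a1.symm
    · exact absurd rfl hij
    · exact a3
    · exact a2.symm
    · exact a3.symm
    · exact absurd rfl hij
  have hoff : ∀ i j : Fin 3, i ≠ j → A i j = 0 := by
    intro i j hij
    have h1 := congrFun (congrFun hcommM i) j
    rw [Matrix.mul_diagonal, Matrix.diagonal_mul] at h1
    have h3 : A i j * ((![1, ω, ω ^ 2] : Fin 3 → K) j - ![1, ω, ω ^ 2] i) = 0 := by
      linear_combination h1
    rcases mul_eq_zero.mp h3 with h | h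
    · exact h
    · exact absurd (sub_eq_zero.mp h).symm (hd i j hij)
  have hAd : A = Matrix.diagonal (fun i => A i i) := by
    ext i j
    by_cases hij : i = j
    · subst hij; rw [Matrix.diagonal_apply_eq]
    · rw [Matrix.diagonal_apply_ne _ hij, hoff i j hij]
  have hdetA : A.det = 1 := g'.2
  have hne : ∀ i, A i i ≠ 0 := by
    intro i hi
    have hdet2 : (Matrix.diagonal fun i => A i i).det = 1 := by rw [← hAd]; exact hdetA
    rw [Matrix.det_diagonal, Finset.prod_eq_zero (f := fun j => A j j) (Finset.mem_univ i) hi]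
      at hdet2
    exact zero_ne_one hdet2
  have hA3 : A ^ 3 = 1 := by
    rw [hAd, Matrix.diagonal_pow, ← Matrix.diagonal_one]
    congr 1
    funext i
    exact f4_cube hK (hne i)
  have hg'3 : g' ^ 3 = 1 := by
    apply Subtype.ext
    rw [Matrix.SpecialLinearGroup.coe_pow]
    exact hA3
  have hg3 : g ^ 3 = 1 := by
    have h1 : g = Q⁻¹ * g' * Q⁻¹⁻¹ := by rw [hg']; group
    rw [h1, conj_pow, hg'3]; group
  have hx3 : (QuotientGroup.mk g : Matrix.ProjectiveSpecialLinearGroup (Fin 3) K) ^ 3 = 1 := by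
    rw [← QuotientGroup.mk_pow, hg3]; rfl
  have := orderOf_dvd_of_pow_eq_one hx3
  rw [hx] at this
  omega

end Main

end Cfsg.Agent.H51
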