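import Mathlib
import Cfsg.Agent.H52.QSDefs

/-!
# QS-FAC (helper51, for helper52, S2787)

A non-nilpotent endomorphism of a finite `𝔽_p`-module has an irreducible factor `f ≠ X` of its
minimal polynomial with a nonzero `f`-torsion vector.
-/

set_option autoImplicit false

namespace Cfsg.Agent.H51.QS

open Cfsg.Agent.H52.QS

universe u

theorem stFac : StFac.{u} := by
  intro p _ M _ _ _ T hT
  classical
  have hfin : Module.Finite (ZMod p) M := Module.Finite.of_finite
  have hint : IsIntegral (ZMod p) T := Algebra.IsIntegral.isIntegral T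
  have hμ0 : minpoly (ZMod p) T ≠ 0 := minpoly.ne_zero hint
  have hμT : Polynomial.aeval T (minpoly (ZMod p) T) = 0 := minpoly.aeval _ _
  obtain ⟨h, hμh, hXh⟩ :=
    Polynomial.exists_eq_pow_rootMultiplicity_mul_and_not_dvd (minpoly (ZMod p) T) hμ0 0
  rw [Polynomial.C_0, sub_zero] at hμh hXh
  generalize Polynomial.rootMultiplicity 0 (minpoly (ZMod p) T) = a at hμh
  have hh0 : h ≠ 0 := by
    rintro rfl
    exact hμ0 (by rw [hμh, mul_zero])
  have hhu : ¬ IsUnit h := by
    intro hu
    obtain ⟨c, hc, rfl⟩ := Polynomial.isUnit_iff.1 hu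
    have h1 : Polynomial.aeval T (Polynomial.X ^ a * Polynomial.C c) = 0 := by
      rw [← hμh]; exact hμT
    simp only [map_mul, map_pow, Polynomial.aeval_X, Polynomial.aeval_C] at h1
    apply hT a
    have hc' : IsUnit (algebraMap (ZMod p) (Module.End (ZMod p) M) c) := hc.map _
    exact (hc'.mul_left_eq_zero).1 h1
  obtain ⟨f, hf, hfh⟩ := WfDvdMonoid.exists_irreducible_factor hhu hh0
  obtain ⟨g', hg'⟩ := hfh
  refine ⟨f, hf, ?_, ?_⟩
  · intro h0
    apply hXh
    have hXf : Polynomial.X ∣ f :=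
      Polynomial.X_dvd_iff.2 (by rw [Polynomial.coeff_zero_eq_eval_zero]; exact h0)
    exact hXf.trans ⟨g', hg'⟩
  · have hμfg : minpoly (ZMod p) T = f * (Polynomial.X ^ a * g') := by
      rw [hμh, hg']; ring
    generalize Polynomial.X ^ a * g' = g at hμfg
    have hg0 : g ≠ 0 := by
      rintro rfl
      rw [mul_zero] at hμfg
      exact hμ0 hμfg
    have hgT : Polynomial.aeval T g ≠ 0 := by
      intro h0
      have hdeg := Polynomial.natDegree_le_natDegree (minpoly.degree_le_of_ne_zero (ZMod p) T hg0 h0)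
      rw [hμfg, Polynomial.natDegree_mul hf.ne_zero hg0] at hdeg
      have hfdeg : 0 < f.natDegree :=
        Polynomial.natDegree_pos_iff_degree_pos.2 (Polynomial.degree_pos_of_irreducible hf)
      omega
    obtain ⟨u, hu⟩ : ∃ u, Polynomial.aeval T g u ≠ 0 := by
      by_contra hcon
      push Not at hcon
      exact hgT (LinearMap.ext hcon)
    refine ⟨Polynomial.aeval T g u, hu, ?_⟩
    rw [← Module.End.mul_apply, ← map_mul, ← hμfg, hμT]
    rfl

example : Cfsg.Agent.H52.QS.StFac.{u} := Cfsg.Agent.H51.QS.stFac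

end Cfsg.Agent.H51.QS
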