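import Mathlib
import Cfsg.Agent.H52.QSDefs

/-!
# QS-NIL (helper51, for helper52, S2787)

If `X² = Y² = 0` and `X * Y` is nilpotent, the monoid generated by `1 + X`, `1 + Y` consists of
`p`-elements: the chain `V₀ = ⊤`, `V_{i+1} = X V_i ⊔ Y V_i` reaches `⊥` (it sits inside the ranges
of the two alternating words of length `i`), and `(g - 1) V_i ≤ V_{i+1}` for `g` in the monoid.
-/

set_option autoImplicit false

namespace Cfsg.Agent.H51.QS

open Cfsg.Agent.H52.QS

universe u

section

variable {R : Type*} {M : Type*} [Ring R] [AddCommGroup M] [Module R M]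

/-- the alternating words `(X Y X ⋯, Y X Y ⋯)` of length `i + 1` -/
def altW (X Y : Module.End R M) : ℕ → Module.End R M × Module.End R M
  | 0 => (X, Y)
  | i + 1 => (X * (altW X Y i).2, Y * (altW X Y i).1)

theorem altW_even (X Y : Module.End R M) (j : ℕ) :
    (altW X Y (2 * j)).1 = (X * Y) ^ j * X ∧ (altW X Y (2 * j)).2 = Y * (X * Y) ^ j := by
  induction j with
  | zero => simp [altW]
  | succ j ih =>
    have e : 2 * (j + 1) = (2 * j + 1) + 1 := by ring
    rw [e]
    simp only [altW, ih.1, ih.2]
    constructor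
    · rw [pow_succ']; simp only [mul_assoc]
    · rw [pow_succ']; simp only [mul_assoc]

theorem X_mul_altW (X Y : Module.End R M) (hXX : X * X = 0) (i : ℕ) :
    X * (altW X Y i).1 = 0 := by
  cases i with
  | zero => simpa [altW] using hXX
  | succ i => simp only [altW]; rw [← mul_assoc, hXX, zero_mul]

theorem Y_mul_altW (X Y : Module.End R M) (hYY : Y * Y = 0) (i : ℕ) :
    Y * (altW X Y i).2 = 0 := by
  cases i with
  | zero => simpa [altW] using hYY
  | succ i => simp only [altW]; rw [← mul_assoc, hYY, zero_mul]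

/-- the chain `V₀ = ⊤`, `V_{i+1} = X V_i ⊔ Y V_i` -/
def filt (X Y : Module.End R M) : ℕ → Submodule R M
  | 0 => ⊤
  | i + 1 => (filt X Y i).map X ⊔ (filt X Y i).map Y

theorem filt_succ (X Y : Module.End R M) (i : ℕ) :
    filt X Y (i + 1) = (filt X Y i).map X ⊔ (filt X Y i).map Y := rfl

theorem filt_anti (X Y : Module.End R M) (i : ℕ) : filt X Y (i + 1) ≤ filt X Y i := by
  induction i with
  | zero => exact le_top
  | succ i ih =>
    rw [filt_succ X Y (i + 1), filt_succ X Y i]
    exact sup_le_sup (Submodule.map_mono ih) (Submodule.map_mono ih)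

theorem filt_words (X Y : Module.End R M) (hXX : X * X = 0) (hYY : Y * Y = 0) (i : ℕ) :
    ∀ v ∈ filt X Y (i + 1), ∃ u u' : M, v = (altW X Y i).1 u + (altW X Y i).2 u' := by
  induction i with
  | zero =>
    intro v hv
    rw [filt_succ] at hv
    obtain ⟨x, hx, y, hy, rfl⟩ := Submodule.mem_sup.1 hv
    obtain ⟨u, -, rfl⟩ := Submodule.mem_map.1 hx
    obtain ⟨u', -, rfl⟩ := Submodule.mem_map.1 hy
    exact ⟨u, u', rfl⟩
  | succ i ih =>
    intro v hv
    rw [filt_succ] at hv
    obtain ⟨x, hx, y, hy, rfl⟩ := Submodule.mem_sup.1 hv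
    obtain ⟨x', hx', rfl⟩ := Submodule.mem_map.1 hx
    obtain ⟨y', hy', rfl⟩ := Submodule.mem_map.1 hy
    obtain ⟨u1, u1', rfl⟩ := ih x' hx'
    obtain ⟨u2, u2', rfl⟩ := ih y' hy'
    refine ⟨u1', u2, ?_⟩
    have h1 : X ((altW X Y i).1 u1) = 0 := by
      rw [← Module.End.mul_apply, X_mul_altW X Y hXX i]; rfl
    have h2 : Y ((altW X Y i).2 u2') = 0 := by
      rw [← Module.End.mul_apply, Y_mul_altW X Y hYY i]; rfl
    simp only [map_add, h1, h2, zero_add, add_zero, altW, Module.End.mul_apply]

theorem closure_filt (X Y : Module.End R M) (g : Module.End R M)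
    (hg : g ∈ Submonoid.closure ({1 + X, 1 + Y} : Set (Module.End R M))) :
    ∀ i, ∀ v ∈ filt X Y i, g v - v ∈ filt X Y (i + 1) := by
  induction hg using Submonoid.closure_induction with
  | mem g hg =>
    intro i v hv
    rw [filt_succ]
    rcases hg with rfl | rfl
    · have e : (1 + X) v - v = X v := by simp
      rw [e]
      exact Submodule.mem_sup_left (Submodule.mem_map_of_mem hv)
    · have e : (1 + Y) v - v = Y v := by simp
      rw [e]
      exact Submodule.mem_sup_right (Submodule.mem_map_of_mem hv)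
  | one =>
    intro i v hv
    simp
  | mul g h hg hh ihg ihh =>
    intro i v hv
    have h1 : h v ∈ filt X Y i := by
      have h2 := Submodule.add_mem _ (filt_anti X Y i (ihh i v hv)) hv
      simpa using h2
    have h3 := Submodule.add_mem _ (ihg i (h v) h1) (ihh i v hv)
    have e : (g * h) v - v = (g (h v) - h v) + (h v - v) := by
      rw [Module.End.mul_apply]; abel
    rw [e]; exact h3

theorem pow_filt (X Y g : Module.End R M)
    (hg : ∀ i, ∀ v ∈ filt X Y i, g v - v ∈ filt X Y (i + 1)) (j : ℕ) (v : M) :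
    ((g - 1) ^ j) v ∈ filt X Y j := by
  induction j with
  | zero => exact Submodule.mem_top
  | succ j ih =>
    rw [pow_succ', Module.End.mul_apply]
    have h := hg j _ ih
    simpa using h

end

theorem stNil : StNil.{u} := by
  intro p _ M _ _ X Y hXX hYY k hk g hg
  have hfilt := closure_filt X Y g hg
  have hN : (g - 1) ^ (2 * k + 1) = 0 := by
    ext v
    obtain ⟨u, u', huv⟩ := filt_words X Y hXX hYY (2 * k) _ (pow_filt X Y g hfilt (2 * k + 1) v)
    rw [huv, (altW_even X Y k).1, (altW_even X Y k).2, hk]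
    simp
  rcases subsingleton_or_nontrivial (Module.End (ZMod p) M) with hs | hn
  · exact ⟨0, Subsingleton.elim _ _⟩
  · have hinj : Function.Injective (algebraMap (ZMod p) (Module.End (ZMod p) M)) :=
      (algebraMap (ZMod p) (Module.End (ZMod p) M)).injective
    have hchar : CharP (Module.End (ZMod p) M) p := charP_of_injective_algebraMap hinj p
    refine ⟨2 * k + 1, ?_⟩
    have hg1 : g = (g - 1) + 1 := by abel
    have hle : 2 * k + 1 ≤ p ^ (2 * k + 1) :=
      (Nat.lt_pow_self (Fact.out : p.Prime).one_lt).le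
    rw [hg1, add_pow_char_pow_of_commute _ _ (Commute.one_right _), one_pow,
      pow_eq_zero_of_le hle hN, zero_add]

example : Cfsg.Agent.H52.QS.StNil.{u} := Cfsg.Agent.H51.QS.stNil

end Cfsg.Agent.H51.QS
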