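import Mathlib
import Cfsg.Agent.H52.QSDefs

/-!
# QS-Q (helper51, for helper52, S2787): the operator identity

`X² = Y² = 0`, `x = 1 + X`, `y = 1 + Y`, `x y x = y x y`, `(x y x)² = 1`, no `2`-torsion `⟹ X = Y`.
-/

set_option autoImplicit false
set_option linter.unusedSimpArgs false

namespace Cfsg.Agent.H51.QS

open Cfsg.Agent.H52.QS

universe u

theorem stQ : StQ.{u} := by
  intro E _ h2 X Y hXX hYY hbr hsq
  have hXX' : ∀ a : E, X * (X * a) = 0 := fun a => by rw [← mul_assoc, hXX, zero_mul]
  have hYY' : ∀ a : E, Y * (Y * a) = 0 := fun a => by rw [← mul_assoc, hYY, zero_mul]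
  -- the braid element
  have hw : (1 + X) * (1 + Y) * (1 + X) = 1 + X + X + Y + X * Y + Y * X + X * (Y * X) := by
    simp only [mul_add, add_mul, mul_one, one_mul, mul_assoc, hXX]
    abel
  have hw' : (1 + Y) * (1 + X) * (1 + Y) = 1 + Y + Y + X + X * Y + Y * X + Y * (X * Y) := by
    simp only [mul_add, add_mul, mul_one, one_mul, mul_assoc, hYY]
    abel
  rw [hw] at hsq
  rw [hw, hw'] at hbr
  -- (*) X + XYX = Y + YXY
  have hstar : X + X * (Y * X) = Y + Y * (X * Y) := by
    have h := sub_eq_zero.2 hbr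
    rw [← sub_eq_zero]
    rw [← h]; abel
  -- T = XY satisfies T + T² = 0
  have hT : X * Y + X * (Y * (X * Y)) = 0 := by
    have h := congrArg (X * ·) hstar
    simp only [mul_add, hXX, hXX', zero_add] at h
    exact h.symm
  have hS : Y * X + Y * (X * (Y * X)) = 0 := by
    have h := congrArg (· * X) hstar
    simp only [add_mul, mul_assoc, hXX, mul_zero, zero_add] at h
    exact h.symm
  have hT2 : X * (Y * (X * Y)) = -(X * Y) := eq_neg_of_add_eq_zero_right hT
  have hS2 : Y * (X * (Y * X)) = -(Y * X) := eq_neg_of_add_eq_zero_right hS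
  have hS2' : ∀ a : E, Y * (X * (Y * (X * a))) = -(Y * (X * a)) := fun a => by
    have h := congrArg (· * a) hS2
    simpa only [mul_assoc, neg_mul] using h
  generalize hwdef : 1 + X + X + Y + X * Y + Y * X + X * (Y * X) = w at hsq
  have ha : w * (X * Y) = Y * (X * Y) := by
    rw [← hwdef]
    simp only [add_mul, one_mul, mul_assoc, hXX', hYY', hT2, mul_neg, neg_neg, add_zero, zero_add,
      mul_zero, neg_zero]
    abel
  have hb : w * (Y * (X * Y)) = -(X * Y) := by
    rw [← hwdef]
    simp only [add_mul, one_mul, mul_assoc, hXX', hYY', hT2, mul_neg, neg_neg, add_zero, zero_add,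
      mul_zero, neg_zero]
    abel
  have hT0 : X * Y = 0 := by
    apply h2
    have h : w * w * (X * Y) = X * Y := by rw [hsq, one_mul]
    rw [mul_assoc, ha, hb] at h
    calc X * Y + X * Y = -(X * Y) + X * Y := by rw [h]
      _ = 0 := neg_add_cancel _
  have hc : Y * X * w = Y * (X * Y) := by
    rw [← hwdef]
    simp only [mul_add, mul_one, mul_assoc, hXX, hXX', hYY, hYY', hS2, hS2', mul_neg, neg_neg,
      add_zero, zero_add, mul_zero, neg_zero]
    abel
  have hd : Y * (X * Y) * w = -(Y * X) := by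
    rw [← hwdef]
    simp only [mul_add, mul_one, mul_assoc, hXX, hXX', hYY, hYY', hS2, hS2', mul_neg, neg_neg,
      add_zero, zero_add, mul_zero, neg_zero]
    abel
  have hS0 : Y * X = 0 := by
    apply h2
    have h : Y * X * (w * w) = Y * X := by rw [hsq, mul_one]
    rw [← mul_assoc, hc, hd] at h
    calc Y * X + Y * X = -(Y * X) + Y * X := by rw [h]
      _ = 0 := neg_add_cancel _
  rw [hS0, hT0, mul_zero, mul_zero, add_zero, add_zero] at hstar
  exact hstar

example : Cfsg.Agent.H52.QS.StQ.{u} := Cfsg.Agent.H51.QS.stQ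

end Cfsg.Agent.H51.QS
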