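import Cfsg.Agent.H51.Qd

set_option autoImplicit false
open Cfsg Matrix

namespace Cfsg.Agent.H51

section act
variable {R : Type*} [CommRing R]

/-- The affine action on the plane. -/
def affAct (M : affSub R) (v : Fin 2 → R) : Fin 2 → R :=
  (blockA M : Matrix (Fin 2) (Fin 2) R).mulVec v + transl M

theorem affAct_mul (M N : affSub R) (v : Fin 2 → R) : affAct (M * N) v = affAct M (affAct N v) := by
  unfold affAct
  rw [blockA_mul, transl_mul, Matrix.mulVec_add]
  show ((blockA M).1 * (blockA N).1).mulVec v + _ = _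
  rw [← Matrix.mulVec_mulVec]
  abel

theorem affAct_one (v : Fin 2 → R) : affAct (1 : affSub R) v = v := by
  unfold affAct
  rw [blockA_one, transl_one]
  simp

/-- The affine action as a permutation representation. -/
def affPerm (R : Type*) [CommRing R] : affSub R →* Equiv.Perm (Fin 2 → R) where
  toFun M := ⟨affAct M, affAct M⁻¹,
    fun v => by rw [← affAct_mul, inv_mul_cancel, affAct_one],
    fun v => by rw [← affAct_mul, mul_inv_cancel, affAct_one]⟩
  map_one' := Equiv.ext affAct_one
  map_mul' M N := Equiv.ext (affAct_mul M N)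

theorem affPerm_apply (M : affSub R) (v : Fin 2 → R) : affPerm R M v = affAct M v := rfl

theorem affPerm_injective [Nontrivial R] : Function.Injective (affPerm R) := by
  rw [injective_iff_map_eq_one]
  intro M hM
  have h0 : affAct M 0 = 0 := by rw [← affPerm_apply, hM]; rfl
  have ht : transl M = 0 := by
    unfold affAct at h0
    simpa using h0
  have h1 : affAct M ![1, 0] = ![1, 0] := by rw [← affPerm_apply, hM]; rfl
  have h2 : affAct M ![0, 1] = ![0, 1] := by rw [← affPerm_apply, hM]; rfl
  unfold affAct at h1 h2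
  rw [ht, add_zero] at h1 h2
  apply aff_ext _ (by rw [ht, transl_one])
  rw [blockA_one]
  apply Subtype.ext
  have a00 := congrFun h1 0
  have a10 := congrFun h1 1
  have a01 := congrFun h2 0
  have a11 := congrFun h2 1
  simp [Matrix.mulVec, dotProduct] at a00 a10 a01 a11
  ext i j
  fin_cases i <;> fin_cases j <;> simp [a00, a10, a01, a11]

end act

section two

/-- the affine map swapping two points of the plane over `ZMod 2`. -/
def swapM (x y : Fin 2 → ZMod 2) : affSub (ZMod 2) :=
  mkAff ⟨!![1 + (x 0 + y 0) * (x 1 + y 1), (x 0 + y 0) * (x 0 + y 0);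
           (x 1 + y 1) * (x 1 + y 1), 1 + (x 1 + y 1) * (x 0 + y 0)], by
      rw [Matrix.det_fin_two_of]
      have h2 : (2 : ZMod 2) = 0 := by decide
      linear_combination ((x 0 + y 0) * (x 1 + y 1)) * h2⟩
    (fun i => (x i + y i) * ((x 0 + y 0) * x 1 + (x 1 + y 1) * x 0 + 1))

theorem swapM_act : ∀ x y v : Fin 2 → ZMod 2, x ≠ y → affAct (swapM x y) v = Equiv.swap x y v := by
  decide

theorem affPerm_surjective_two : Function.Surjective (affPerm (ZMod 2)) := by
  rw [← MonoidHom.range_eq_top, eq_top_iff, ← Equiv.Perm.closure_isSwap, Subgroup.closure_le]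
  rintro σ ⟨x, y, hxy, rfl⟩
  exact ⟨swapM x y, Equiv.ext (swapM_act x y · hxy)⟩

theorem qd_two_equiv (Q : Subgroup (SpecialLinearGroup (Fin 3) (ZMod 2))) (hQ : Q = affSub (ZMod 2)) :
    Nonempty (↥Q ≃* Equiv.Perm (Fin 4)) := by
  subst hQ
  have e1 : ↥(affSub (ZMod 2)) ≃* Equiv.Perm (Fin 2 → ZMod 2) :=
    MulEquiv.ofBijective (affPerm (ZMod 2)) ⟨affPerm_injective, affPerm_surjective_two⟩
  have e2 : (Fin 2 → ZMod 2) ≃ Fin 4 := Fintype.equivFinOfCardEq (by simp)
  exact ⟨e1.trans (Equiv.permCongrHom e2)⟩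

end two

end Cfsg.Agent.H51
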