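import Mathlib
import Cfsg.Agent.H51.RsDefs
import Cfsg.Agent.H41.Stem

/-!
# S2113: abstract main theorem

A finite group `G` with a Ree datum (`n = 3^(m+1)`, `|K| = 3^(2m+1)`, `m ≥ 1`), of the order of
`²G₂(q)`, whose Sylow 2-subgroups are self-centralising with normaliser of order 168 and which has
cyclic subgroups of the four torus orders, has trivial Schur multiplier — given the three
top-level pieces `StFinal3`, `StTwoGlue`, `StCyc`.
-/

set_option autoImplicit false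

namespace Cfsg.Agent.H51.Rs

open Cfsg Cfsg.Agent.H96.Ro

universe u

theorem main (hF3 : StFinal3.{u, u, u}) (hTwo : StTwoGlue.{u, u}) (hCyc : StCyc.{u})
    {K : Type u} [Field K] [Fintype K] [CharP K 3] {m : ℕ} (hm : 1 ≤ m)
    (hK : Fintype.card K = 3 ^ (2 * m + 1))
    {G : Type u} [Group G] [Finite G] (D : Datum K G (3 ^ (m + 1)))
    (hcard : Nat.card G =
      (3 ^ (2 * m + 1)) ^ 3 * (3 ^ (2 * m + 1) - 1) * ((3 ^ (2 * m + 1)) ^ 3 + 1))
    (hS : ∀ S : Sylow 2 G, Subgroup.centralizer ((S : Subgroup G) : Set G) = S ∧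
      Nat.card (Subgroup.normalizer ((S : Subgroup G) : Set G)) = 168)
    (hA : ∀ k ∈ ({(3 ^ (2 * m + 1) - 1) / 2, (3 ^ (2 * m + 1) + 1) / 4,
        3 ^ (2 * m + 1) - 3 ^ (m + 1) + 1, 3 ^ (2 * m + 1) + 3 ^ (m + 1) + 1} : Set ℕ),
      ∃ A : Subgroup G, IsCyclic A ∧ Nat.card A = k) :
    HasCyclicSchurMultiplier G 1 := by
  apply Cfsg.Agent.H41.hasCyclicSchurMultiplier_one_of_ker
  apply Cfsg.Agent.H41.stem_ker_eq_bot
  intro p hp
  by_cases hp2 : p = 2
  · subst hp2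
    have : Fact (Nat.Prime 2) := ⟨hp⟩
    obtain ⟨S⟩ : Nonempty (Sylow 2 G) := inferInstance
    refine ⟨(S : Subgroup G), ?_, S.not_dvd_index⟩
    intro Γ _ σ hσ hc
    exact hTwo G m hm hcard S (hS S).1 (hS S).2 Γ σ hσ hc
  by_cases hp3 : p = 3
  · subst hp3
    have : Fact (Nat.Prime 3) := ⟨hp⟩
    obtain ⟨P, hP⟩ := D.syl
    refine ⟨(P : Subgroup G), ?_, P.not_dvd_index⟩
    intro Γ _ σ hσ hc
    let E : Ext K G (3 ^ (m + 1)) Γ :=
      { D := D
        σ := σ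
        surj := hσ
        central := fun z hz x => Subgroup.mem_center_iff.1 (hc (MonoidHom.mem_ker.2 hz)) x }
    exact hF3 K m hm hK G Γ E (P : Subgroup G) (fun x => hP x)
  · obtain ⟨A, hAc, hAi⟩ := hCyc G m hm hcard hA p hp hp2 hp3
    have := hAc
    exact ⟨A, Cfsg.Agent.H41.NoStem.noStemIn A (Cfsg.Agent.H41.noStem_of_isCyclic _), hAi⟩

end Cfsg.Agent.H51.Rs
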