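import Cfsg.Agent.H96.RoDatum
import Cfsg.Agent.H67.RoArith
import Cfsg.Agent.H51.RsMain

/-!
# S2113: the concrete side — `²G₂(q)` via helper96's Ree datum of `twistedG2 K (3^m)`
-/

set_option autoImplicit false

namespace Cfsg.Agent.H51.Rs

open Cfsg Cfsg.Lie Cfsg.Agent.H22 Cfsg.Agent.H22.Ree Cfsg.Agent.H96.Ro

universe u

/-- the Schur multiplier of `²G₂(q)` is trivial, from a Ree context, the order (S1069), the Sylow
2-normaliser (S1157), the cyclic tori (S1158) and the three top-level pieces -/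
theorem ree_schur_trivial (hF3 : StFinal3.{u, u, u}) (hTwo : StTwoGlue.{u, u}) (hCyc : StCyc.{u})
    {K : Type u} [Field K] [CharP K 3] [Fintype K] {m : ℕ} (C : Ctx K (3 ^ m))
    (hm : 1 ≤ m) (hK : Fintype.card K = 3 ^ (2 * m + 1)) (hcan : CanonG2 K) (hW : WeylG2 K)
    (hcard : Nat.card ↥(twistedG2 K (3 ^ m)) =
      (3 ^ (2 * m + 1)) ^ 3 * (3 ^ (2 * m + 1) - 1) * ((3 ^ (2 * m + 1)) ^ 3 + 1))
    (hS : ∀ S : Sylow 2 ↥(twistedG2 K (3 ^ m)),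
      Subgroup.centralizer ((S : Subgroup ↥(twistedG2 K (3 ^ m))) : Set ↥(twistedG2 K (3 ^ m))) = S ∧
      Nat.card (Subgroup.normalizer
        ((S : Subgroup ↥(twistedG2 K (3 ^ m))) : Set ↥(twistedG2 K (3 ^ m)))) = 168)
    (hA : ∀ kn ∈ ({((3 ^ (2 * m + 1) - 1) / 2, 2 * (3 ^ (2 * m + 1) - 1)),
        ((3 ^ (2 * m + 1) + 1) / 4, 6 * (3 ^ (2 * m + 1) + 1)),
        (3 ^ (2 * m + 1) - 3 ^ (m + 1) + 1, 6 * (3 ^ (2 * m + 1) - 3 ^ (m + 1) + 1)),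
        (3 ^ (2 * m + 1) + 3 ^ (m + 1) + 1, 6 * (3 ^ (2 * m + 1) + 3 ^ (m + 1) + 1))} :
          Set (ℕ × ℕ)),
      ∃ A : Subgroup ↥(twistedG2 K (3 ^ m)), IsCyclic A ∧ Nat.card A = kn.1 ∧
        Nat.card (Subgroup.normalizer (A : Set ↥(twistedG2 K (3 ^ m)))) = kn.2 ∧
        ∀ A₀ : Subgroup ↥(twistedG2 K (3 ^ m)), A₀ ≤ A → A₀ ≠ ⊥ →
          Subgroup.normalizer (A₀ : Set ↥(twistedG2 K (3 ^ m))) =
            Subgroup.normalizer (A : Set ↥(twistedG2 K (3 ^ m)))) :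
    HasCyclicSchurMultiplier ↥(twistedG2 K (3 ^ m)) 1 := by
  obtain ⟨a1, -, -, a4, -, -, -⟩ := Cfsg.Agent.H67.Ro.arith.{u} K m hm hK
  have hfin : Finite ↥(twistedG2 K (3 ^ m)) := inferInstance
  refine main hF3 hTwo hCyc hm hK (datum C hK hcan hW a1 a4) hcard hS ?_
  intro k hk
  simp only [Set.mem_insert_iff, Set.mem_singleton_iff] at hk
  rcases hk with rfl | rfl | rfl | rfl
  · obtain ⟨A, h1, h2, -⟩ := hA ((3 ^ (2 * m + 1) - 1) / 2, 2 * (3 ^ (2 * m + 1) - 1))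
      (by simp)
    exact ⟨A, h1, h2⟩
  · obtain ⟨A, h1, h2, -⟩ := hA ((3 ^ (2 * m + 1) + 1) / 4, 6 * (3 ^ (2 * m + 1) + 1))
      (by simp)
    exact ⟨A, h1, h2⟩
  · obtain ⟨A, h1, h2, -⟩ := hA (3 ^ (2 * m + 1) - 3 ^ (m + 1) + 1,
      6 * (3 ^ (2 * m + 1) - 3 ^ (m + 1) + 1)) (by simp)
    exact ⟨A, h1, h2⟩
  · obtain ⟨A, h1, h2, -⟩ := hA (3 ^ (2 * m + 1) + 3 ^ (m + 1) + 1,
      6 * (3 ^ (2 * m + 1) + 3 ^ (m + 1) + 1)) (by simp)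
    exact ⟨A, h1, h2⟩

end Cfsg.Agent.H51.Rs
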