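import Mathlib
import Cfsg.Agent.H51.RsDefs

/-!
# S2113: glue `PAIRGEN + ARITH ⇒ StPairs`
-/

set_option autoImplicit false

namespace Cfsg.Agent.H51.Rs

open Cfsg.Agent.H96.Ro

universe u w

theorem pairs (hG : StPairGen.{u, w}) (hA : StArithA) (hB : StArithB) (hC : StArithC) :
    StPairs.{u, w} := by
  intro K _ _ m hm hK
  refine ⟨?_, ?_, ?_, ?_, ?_, ?_⟩
  · exact hG K (2 * m + 1) hK 1 1 (fun i hi j hj => (hA m hm i hi j hj).1)
  · exact hG K (2 * m + 1) hK _ 1 (fun i hi j hj => (hA m hm i hi j hj).2.1)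
  · exact hG K (2 * m + 1) hK _ 1 (fun i hi j hj => (hB m hm i hi j hj).1)
  · exact hG K (2 * m + 1) hK _ _ (fun i hi j hj => (hB m hm i hi j hj).2)
  · exact hG K (2 * m + 1) hK _ _ (fun i hi j hj => (hA m hm i hi j hj).2.2)
  · exact hG K (2 * m + 1) hK _ _ (fun i hi j hj => hC m hm i hi j hj)

example (hG : StPairGen.{u, w}) (hA : StArithA) (hB : StArithB) (hC : StArithC) :
    StPairs.{u, w} := pairs hG hA hB hC

end Cfsg.Agent.H51.Rs
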