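import Mathlib
import Cfsg.Agent.H51.RsDefs
import Cfsg.Agent.H51.RsPairs
import Cfsg.Agent.H71.RsPairGen
import Cfsg.Agent.H12.RsArith
import Cfsg.Agent.H12.RsNuKer
import Cfsg.Agent.H12.RsCyc
import Cfsg.Agent.H5.RsStep1
import Cfsg.Agent.H5.RsStep2
import Cfsg.Agent.H5.RsNuMul
import Cfsg.Agent.H91.RsStep3
import Cfsg.Agent.H37.RsStep4
import Cfsg.Agent.H37.RsStep5
import Cfsg.Agent.H20.RsStep6
import Cfsg.Agent.H63.RsNuZeta
import Cfsg.Agent.H27.RsNuB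
import Cfsg.Agent.H27.RsFinal3
import Cfsg.Agent.H15.RsTwo
import Cfsg.Agent.H70.RsTwoGlue

/-!
# S2113: all team pieces plugged in (hypothesis-free top-level Props)
-/

set_option autoImplicit false

namespace Cfsg.Agent.H51.Rs

universe u v w

theorem pairs_pc : StPairs.{u, w} :=
  pairs Cfsg.Agent.H71.Rs.pairGen Cfsg.Agent.H12.Rs.arithA Cfsg.Agent.H12.Rs.arithB
    Cfsg.Agent.H12.Rs.arithC

theorem step1_pc : StStep1.{u, v, w} := Cfsg.Agent.H5.Rs.step1 pairs_pc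

theorem step2_pc : StStep2.{u, v, w} := Cfsg.Agent.H5.Rs.step2 pairs_pc step1_pc

theorem step3_pc : StStep3.{u, v, w} := Cfsg.Agent.H91.Rs.step3 pairs_pc step1_pc step2_pc

theorem step4_pc : StStep4.{u, v, w} := Cfsg.Agent.H37.Rs.step4 step1_pc step2_pc step3_pc

theorem step5_pc : StStep5.{u, v, w} := Cfsg.Agent.H37.Rs.step5 step1_pc step2_pc step3_pc

theorem step6_pc : StStep6.{u, v, w} :=
  Cfsg.Agent.H20.Rs.step6 pairs_pc step1_pc step3_pc step5_pc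

theorem nuMul_pc : StNuMul.{u, v, w} := Cfsg.Agent.H5.Rs.nuMul step1_pc

theorem nuKer_pc : StNuKer.{u, v, w} := Cfsg.Agent.H12.Rs.nuKer

theorem nuZeta_pc : StNuZeta.{u, v, w} := Cfsg.Agent.H63.Rs.nuZeta step3_pc

theorem nuB_pc : StNuB.{u, v, w} :=
  Cfsg.Agent.H27.Rs.nuB pairs_pc step1_pc step3_pc step5_pc nuMul_pc nuZeta_pc

theorem final3_pc : StFinal3.{u, v, w} :=
  Cfsg.Agent.H27.Rs.final3 step1_pc step3_pc step4_pc step6_pc nuMul_pc nuKer_pc nuZeta_pc nuB_pc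

theorem two_pc : StTwo.{v, w} := Cfsg.Agent.H15.Rs.two

theorem twoGlue_pc : StTwoGlue.{v, w} := Cfsg.Agent.H70.Rs.twoGlue two_pc

theorem cyc_pc : StCyc.{v} := Cfsg.Agent.H12.Rs.cyc

end Cfsg.Agent.H51.Rs
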