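import Mathlib
import Cfsg.Agent.H99.S4Defs

/-!
# S6000-GEN (helper51, for helper99): normal form of the elements of `R = 4 ∘ 2^{1+4}` in a
symplectic basis
-/

set_option autoImplicit false
set_option linter.style.haveILetI false
open scoped MatrixGroups

namespace Cfsg.Agent.H51.S4

open Cfsg.Agent.H99.S4

universe u

section alg

variable {F : Type u} [Field F] {M : Type*} [Ring M] [Algebra F M]

theorem semi_pow (P T : M) (σ : F) (h : P * T = σ • (T * P)) (n : ℕ) :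
    P ^ n * T = σ ^ n • (T * P ^ n) := by
  induction n with
  | zero => simp
  | succ n ih =>
    calc P ^ (n + 1) * T = P ^ n * (P * T) := by rw [pow_succ, mul_assoc]
      _ = σ • (P ^ n * T * P) := by rw [h, mul_smul_comm, mul_assoc]
      _ = σ ^ (n + 1) • (T * P ^ (n + 1)) := by
          rw [ih, smul_mul_assoc, smul_smul, mul_assoc, ← pow_succ, ← pow_succ']

theorem semi_mul (P Q T : M) (σ τ : F) (hP : P * T = σ • (T * P)) (hQ : Q * T = τ • (T * Q)) :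
    P * Q * T = (σ * τ) • (T * (P * Q)) := by
  calc P * Q * T = P * (Q * T) := mul_assoc _ _ _
    _ = τ • (P * T * Q) := by rw [hQ, mul_smul_comm, mul_assoc]
    _ = (σ * τ) • (T * (P * Q)) := by rw [hP, smul_mul_assoc, smul_smul, mul_assoc, mul_comm τ σ]

theorem semi_word (A B C D T : M) (σa σb σc σd : F) (hA : A * T = σa • (T * A))
    (hB : B * T = σb • (T * B)) (hC : C * T = σc • (T * C)) (hD : D * T = σd • (T * D))
    (s : F) (e f g l : ℕ) :
    (s • (A ^ e * B ^ f * C ^ g * D ^ l)) * T =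
      (σa ^ e * σb ^ f * σc ^ g * σd ^ l) • (T * (s • (A ^ e * B ^ f * C ^ g * D ^ l))) := by
  have h := semi_mul _ _ T _ _ (semi_mul _ _ T _ _ (semi_mul _ _ T _ _ (semi_pow A T σa hA e)
    (semi_pow B T σb hB f)) (semi_pow C T σc hC g)) (semi_pow D T σd hD l)
  rw [smul_mul_assoc, h, mul_smul_comm, smul_comm]

end alg

/-- A scalar multiple of an invertible matrix vanishes only for the zero scalar. -/
theorem smul_unit_eq_zero {F : Type u} [Field F] (c : F) (x : G4 F)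
    (h : c • (x : M4 F) = 0) : c = 0 := by
  have h1 : c • (1 : M4 F) = 0 := by
    rw [← Units.mul_inv x, ← smul_mul_assoc, h, zero_mul]
  have h2 := congrFun (congrFun h1 0) 0
  simpa using h2

/-- **S6000-GEN**. -/
theorem genS : StGen.{u} := by
  intro F _ R i h2 hS a b c d hB h hh
  classical
  have hisq := hS.isq
  have hi0 : i ≠ 0 := by
    intro h0
    rw [h0, mul_zero] at hisq
    exact one_ne_zero (neg_eq_zero.1 hisq.symm)
  -- signs
  have key2 : ∀ n m : ℕ, n < 2 → m < 2 → (-1 : F) ^ n = (-1) ^ m → n = m := by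
    intro n m hn hm h
    have hn' : n = 0 ∨ n = 1 := by omega
    have hm' : m = 0 ∨ m = 1 := by omega
    rcases hn' with rfl | rfl <;> rcases hm' with rfl | rfl
    · rfl
    · exfalso
      rw [pow_zero, pow_one] at h
      exact h2 (by linear_combination h)
    · exfalso
      rw [pow_zero, pow_one] at h
      exact h2 (by linear_combination -h)
    · rfl
  have hord : orderOf i = 4 := by
    haveI : Fact (Nat.Prime 2) := ⟨Nat.prime_two⟩
    have h1 : ¬ i ^ 2 ^ 1 = 1 := by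
      rw [pow_one, pow_two, hisq]
      intro h
      exact h2 (by linear_combination -h)
    have h3 : i ^ 2 ^ (1 + 1) = 1 := by
      have : i ^ 2 ^ (1 + 1) = (i * i) * (i * i) := by ring
      rw [this, hisq]
      ring
    exact orderOf_eq_prime_pow h1 h3
  have key4 : ∀ n m : ℕ, n < 4 → m < 4 → i ^ n = i ^ m → n = m := by
    intro n m hn hm h
    exact pow_injOn_Iio_orderOf (by rw [hord]; exact hn) (by rw [hord]; exact hm) h
  -- the scalar unit
  obtain ⟨ι, hι⟩ : ∃ ι : G4 F, (ι : M4 F) = i • (1 : M4 F) :=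
    ⟨Units.map (algebraMap F (M4 F)).toMonoidHom (Units.mk0 i hi0),
      Algebra.algebraMap_eq_smul_one i⟩
  have hιR : ι ∈ R := hS.imem ι hι
  -- the word map
  have hmem : ∀ k e f g l : ℕ, ι ^ k * a ^ e * b ^ f * c ^ g * d ^ l ∈ R := fun k e f g l =>
    R.mul_mem (R.mul_mem (R.mul_mem (R.mul_mem (R.pow_mem hιR k) (R.pow_mem hB.ha e))
      (R.pow_mem hB.hb f)) (R.pow_mem hB.hc g)) (R.pow_mem hB.hd l)
  have hval : ∀ k e f g l : ℕ, ((ι ^ k * a ^ e * b ^ f * c ^ g * d ^ l : G4 F) : M4 F) =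
      i ^ k • ((a : M4 F) ^ e * (b : M4 F) ^ f * (c : M4 F) ^ g * (d : M4 F) ^ l) := by
    intro k e f g l
    rw [Units.val_mul, Units.val_mul, Units.val_mul, Units.val_mul, Units.val_pow_eq_pow_val,
      Units.val_pow_eq_pow_val, Units.val_pow_eq_pow_val, Units.val_pow_eq_pow_val,
      Units.val_pow_eq_pow_val, hι, smul_pow, one_pow]
    simp only [smul_mul_assoc, one_mul]
  -- commutation relations in the form `P * T = σ • (T * P)`
  have one' : ∀ P T : M4 F, P * T = T * P → P * T = (1 : F) • (T * P) := by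
    intro P T h
    rw [one_smul, h]
  have neg' : ∀ P T : M4 F, P * T = -(T * P) → P * T = (-1 : F) • (T * P) := by
    intro P T h
    rw [neg_smul, one_smul, h]
  have sa := semi_word (a : M4 F) (b : M4 F) (c : M4 F) (d : M4 F) (a : M4 F) 1 (-1) 1 1
    (one' _ _ rfl) (neg' _ _ (by rw [hB.ab, neg_neg])) (one' _ _ hB.ac.symm)
    (one' _ _ hB.ad.symm)
  have sb := semi_word (a : M4 F) (b : M4 F) (c : M4 F) (d : M4 F) (b : M4 F) (-1) 1 1 1
    (neg' _ _ hB.ab) (one' _ _ rfl) (one' _ _ hB.bc.symm) (one' _ _ hB.bd.symm)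
  have sc := semi_word (a : M4 F) (b : M4 F) (c : M4 F) (d : M4 F) (c : M4 F) 1 1 1 (-1)
    (one' _ _ hB.ac) (one' _ _ hB.bc) (one' _ _ rfl) (neg' _ _ (by rw [hB.cd, neg_neg]))
  have sd := semi_word (a : M4 F) (b : M4 F) (c : M4 F) (d : M4 F) (d : M4 F) 1 1 (-1) 1
    (one' _ _ hB.ad) (one' _ _ hB.bd) (neg' _ _ hB.cd) (one' _ _ rfl)
  simp only [one_pow, one_mul, mul_one] at sa sb sc sd
  -- injectivity of the word map
  let Φ : Fin 4 × Fin 2 × Fin 2 × Fin 2 × Fin 2 → R := fun t =>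
    ⟨ι ^ (t.1 : ℕ) * a ^ (t.2.1 : ℕ) * b ^ (t.2.2.1 : ℕ) * c ^ (t.2.2.2.1 : ℕ) *
      d ^ (t.2.2.2.2 : ℕ), hmem _ _ _ _ _⟩
  have hΦinj : Function.Injective Φ := by
    rintro ⟨k, e, f, g, l⟩ ⟨k', e', f', g', l'⟩ htt
    have hgrp : ι ^ (k : ℕ) * a ^ (e : ℕ) * b ^ (f : ℕ) * c ^ (g : ℕ) * d ^ (l : ℕ) =
        ι ^ (k' : ℕ) * a ^ (e' : ℕ) * b ^ (f' : ℕ) * c ^ (g' : ℕ) * d ^ (l' : ℕ) :=
      congrArg Subtype.val htt
    have hmat := congrArg (fun x : G4 F => (x : M4 F)) hgrp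
    simp only [hval] at hmat
    -- the four signs
    have sign : ∀ (t : G4 F) (σ σ' : F),
        (i ^ (k : ℕ) • ((a : M4 F) ^ (e : ℕ) * (b : M4 F) ^ (f : ℕ) * (c : M4 F) ^ (g : ℕ) *
          (d : M4 F) ^ (l : ℕ))) * (t : M4 F) = σ • ((t : M4 F) *
          (i ^ (k : ℕ) • ((a : M4 F) ^ (e : ℕ) * (b : M4 F) ^ (f : ℕ) * (c : M4 F) ^ (g : ℕ) *
          (d : M4 F) ^ (l : ℕ)))) →
        (i ^ (k' : ℕ) • ((a : M4 F) ^ (e' : ℕ) * (b : M4 F) ^ (f' : ℕ) * (c : M4 F) ^ (g' : ℕ) *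
          (d : M4 F) ^ (l' : ℕ))) * (t : M4 F) = σ' • ((t : M4 F) *
          (i ^ (k' : ℕ) • ((a : M4 F) ^ (e' : ℕ) * (b : M4 F) ^ (f' : ℕ) *
          (c : M4 F) ^ (g' : ℕ) * (d : M4 F) ^ (l' : ℕ)))) → σ = σ' := by
      intro t σ σ' h1 h2'
      rw [← hmat] at h2'
      rw [h1] at h2'
      rw [← hval, ← Units.val_mul] at h2'
      have h3 : (σ - σ') • ((t * (ι ^ (k : ℕ) * a ^ (e : ℕ) * b ^ (f : ℕ) * c ^ (g : ℕ) *
          d ^ (l : ℕ)) : G4 F) : M4 F) = 0 := by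
        rw [sub_smul, h2', sub_self]
      exact sub_eq_zero.1 (smul_unit_eq_zero _ _ h3)
    have hf : (f : ℕ) = f' := key2 _ _ f.2 f'.2 (sign a _ _ (sa _ _ _ _ _) (sa _ _ _ _ _))
    have he : (e : ℕ) = e' := key2 _ _ e.2 e'.2 (sign b _ _ (sb _ _ _ _ _) (sb _ _ _ _ _))
    have hl : (l : ℕ) = l' := key2 _ _ l.2 l'.2 (sign c _ _ (sc _ _ _ _ _) (sc _ _ _ _ _))
    have hg : (g : ℕ) = g' := key2 _ _ g.2 g'.2 (sign d _ _ (sd _ _ _ _ _) (sd _ _ _ _ _))
    rw [he, hf, hg, hl] at hgrp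
    have hk1 : ι ^ (k : ℕ) = ι ^ (k' : ℕ) := by
      have := mul_right_cancel (mul_right_cancel (mul_right_cancel (mul_right_cancel hgrp)))
      exact this
    have hk2 := congrArg (fun x : G4 F => (x : M4 F)) hk1
    simp only [Units.val_pow_eq_pow_val, hι, smul_pow, one_pow] at hk2
    have hk3 : i ^ (k : ℕ) = i ^ (k' : ℕ) := by
      have := congrFun (congrFun hk2 0) 0
      simpa using this
    have hk : (k : ℕ) = k' := key4 _ _ k.2 k'.2 hk3
    rw [Fin.ext hk, Fin.ext he, Fin.ext hf, Fin.ext hg, Fin.ext hl]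
  haveI : Finite R := Nat.finite_of_card_ne_zero (by rw [hS.card]; norm_num)
  have hbij : Function.Bijective Φ := by
    apply hΦinj.bijective_of_nat_card_le
    rw [hS.card]
    simp [Nat.card_eq_fintype_card]
  obtain ⟨t, ht⟩ := hbij.2 ⟨h, hh⟩
  refine ⟨t.1, t.2.1, t.2.2.1, t.2.2.2.1, t.2.2.2.2, ?_⟩
  have h5 := hval (t.1 : ℕ) (t.2.1 : ℕ) (t.2.2.1 : ℕ) (t.2.2.2.1 : ℕ) (t.2.2.2.2 : ℕ)
  have h6 : (ι ^ (t.1 : ℕ) * a ^ (t.2.1 : ℕ) * b ^ (t.2.2.1 : ℕ) * c ^ (t.2.2.2.1 : ℕ) *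
      d ^ (t.2.2.2.2 : ℕ) : G4 F) = h := congrArg Subtype.val ht
  rw [h6] at h5
  exact h5

end Cfsg.Agent.H51.S4
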