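import Mathlib
import Cfsg.Agent.H99.S4Defs
import Cfsg.Agent.H51.S4Gen

/-!
# S6000-ORD5 (helper51, for helper99): a non-scalar element of the normaliser of
`R = 4 ∘ 2^{1+4}` with scalar fifth power

`t₁ = a, t₂ = b, t₃ = s c, t₄ = s d, t₅ = s v` (`s = i a b`, `v = i c d`) are pairwise anticommuting
involutions of `R`; the rotations `g_j = 1 + t_j t_{j+1}` permute them cyclically up to sign, so
`w = g₁ g₂ g₃ g₄` has `w⁵` commuting with `R`.
-/

set_option autoImplicit false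
set_option linter.style.haveILetI false
open scoped MatrixGroups

namespace Cfsg.Agent.H51.S4

open Cfsg.Agent.H99.S4

universe u

section ring

variable {F : Type u} [Field F] {M : Type*} [Ring M] [Algebra F M]

theorem flip_anti {X Y : M} (h : X * Y = -(Y * X)) : Y * X = -(X * Y) := by rw [h, neg_neg]

theorem quat_sq (P Q : M) (i : F) (hi : i * i = -1) (hPP : P * P = 1) (hQQ : Q * Q = 1)
    (hPQ : P * Q = -(Q * P)) : (i • (P * Q)) * (i • (P * Q)) = 1 := by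
  have hQP : Q * P = -(P * Q) := flip_anti hPQ
  have h1 : (P * Q) * (P * Q) = -1 := by
    calc (P * Q) * (P * Q) = P * (Q * P) * Q := by simp only [mul_assoc]
      _ = -(P * P * (Q * Q)) := by rw [hQP]; simp only [mul_neg, neg_mul, mul_assoc]
      _ = -1 := by rw [hPP, hQQ, mul_one]
  rw [smul_mul_smul_comm, h1, hi]
  simp

theorem quat_left (P Q : M) (i : F) (hPQ : P * Q = -(Q * P)) :
    (i • (P * Q)) * P = -(P * (i • (P * Q))) := by
  have hQP : Q * P = -(P * Q) := flip_anti hPQ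
  rw [smul_mul_assoc, mul_smul_comm, mul_assoc P Q P, hQP, mul_neg, smul_neg]

theorem quat_right (P Q : M) (i : F) (hPQ : P * Q = -(Q * P)) :
    (i • (P * Q)) * Q = -(Q * (i • (P * Q))) := by
  have hQP : Q * P = -(P * Q) := flip_anti hPQ
  rw [smul_mul_assoc, mul_smul_comm, ← mul_assoc Q P Q, hQP, neg_mul, smul_neg, neg_neg]

theorem rot_sq (X Y : M) (hXX : X * X = 1) (hYY : Y * Y = 1) (hXY : X * Y = -(Y * X)) :
    (X * Y) * (X * Y) = -1 := by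
  have hYX : Y * X = -(X * Y) := flip_anti hXY
  calc (X * Y) * (X * Y) = X * (Y * X) * Y := by simp only [mul_assoc]
    _ = -(X * X * (Y * Y)) := by rw [hYX]; simp only [mul_neg, neg_mul, mul_assoc]
    _ = -1 := by rw [hXX, hYY, mul_one]

theorem rot_x (X Y : M) (hXX : X * X = 1) (hXY : X * Y = -(Y * X)) : (X * Y) * X = -Y := by
  have hYX : Y * X = -(X * Y) := flip_anti hXY
  rw [mul_assoc X Y X, hYX, mul_neg, ← mul_assoc X X Y, hXX, one_mul]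

theorem rot_y (X Y : M) (hYY : Y * Y = 1) : (X * Y) * Y = X := by
  rw [mul_assoc X Y Y, hYY, mul_one]

theorem rot_anti_x (X Y : M) (hXX : X * X = 1) (hXY : X * Y = -(Y * X)) :
    (X * Y) * X = -(X * (X * Y)) := by
  rw [rot_x X Y hXX hXY, ← mul_assoc X X Y, hXX, one_mul]

theorem rot_anti_y (X Y : M) (hYY : Y * Y = 1) (hXY : X * Y = -(Y * X)) :
    (X * Y) * Y = -(Y * (X * Y)) := by
  have hYX : Y * X = -(X * Y) := flip_anti hXY
  rw [rot_y X Y hYY, ← mul_assoc Y X Y, hYX, neg_mul, rot_y X Y hYY, neg_neg]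

theorem rot_comm (X Y Z : M) (hXZ : X * Z = -(Z * X)) (hYZ : Y * Z = -(Z * Y)) :
    (X * Y) * Z = Z * (X * Y) := by
  rw [mul_assoc X Y Z, hYZ, mul_neg, ← mul_assoc X Z Y, hXZ, neg_mul, neg_neg, mul_assoc Z X Y]

theorem prod_sq (S Y : M) (hSS : S * S = 1) (hYY : Y * Y = 1) (hSY : S * Y = Y * S) :
    (S * Y) * (S * Y) = 1 := by
  calc (S * Y) * (S * Y) = S * (Y * S) * Y := by simp only [mul_assoc]
    _ = S * S * (Y * Y) := by rw [← hSY]; simp only [mul_assoc]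
    _ = 1 := by rw [hSS, hYY, mul_one]

theorem prod_anti (S Y X : M) (hSX : S * X = -(X * S)) (hYX : Y * X = X * Y) :
    (S * Y) * X = -(X * (S * Y)) := by
  rw [mul_assoc S Y X, hYX, ← mul_assoc S X Y, hSX, neg_mul, mul_assoc X S Y]

theorem prod_prod (S Y Y' : M) (hSS : S * S = 1) (hSY : S * Y = Y * S) :
    (S * Y) * (S * Y') = Y * Y' := by
  calc (S * Y) * (S * Y') = S * (Y * S) * Y' := by simp only [mul_assoc]
    _ = S * S * (Y * Y') := by rw [← hSY]; simp only [mul_assoc]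
    _ = Y * Y' := by rw [hSS, one_mul]

theorem prod_prod_anti (S Y Y' : M) (hSS : S * S = 1) (hSY : S * Y = Y * S)
    (hSY' : S * Y' = Y' * S) (hYY' : Y * Y' = -(Y' * Y)) :
    (S * Y) * (S * Y') = -((S * Y') * (S * Y)) := by
  rw [prod_prod S Y Y' hSS hSY, prod_prod S Y' Y hSS hSY', hYY']

theorem semi_mul' (P Q T T' T'' : M) (σ τ : F) (hQ : Q * T = τ • (T' * Q))
    (hP : P * T' = σ • (T'' * P)) : P * Q * T = (σ * τ) • (T'' * (P * Q)) := by
  calc P * Q * T = P * (Q * T) := mul_assoc _ _ _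
    _ = τ • (P * T' * Q) := by rw [hQ, mul_smul_comm, mul_assoc]
    _ = (σ * τ) • (T'' * (P * Q)) := by
        rw [hP, smul_mul_assoc, smul_smul, mul_assoc, mul_comm τ σ]

theorem push4 (G₁ G₂ G₃ G₄ T₀ T₁ T₂ T₃ T₄ : M) (c₁ c₂ c₃ c₄ : F)
    (h₄ : G₄ * T₀ = c₄ • (T₁ * G₄)) (h₃ : G₃ * T₁ = c₃ • (T₂ * G₃))
    (h₂ : G₂ * T₂ = c₂ • (T₃ * G₂)) (h₁ : G₁ * T₃ = c₁ • (T₄ * G₁)) :
    G₁ * G₂ * G₃ * G₄ * T₀ = (c₁ * c₂ * c₃ * c₄) • (T₄ * (G₁ * G₂ * G₃ * G₄)) :=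
  semi_mul' (G₁ * G₂ * G₃) G₄ T₀ T₁ T₄ (c₁ * c₂ * c₃) c₄ h₄
    (semi_mul' (G₁ * G₂) G₃ T₁ T₂ T₄ (c₁ * c₂) c₃ h₃ (semi_mul' G₁ G₂ T₂ T₃ T₄ c₁ c₂ h₂ h₁))

theorem chain_step (W X Y Z : M) (c c' : F) (n : ℕ) (h1 : W * X = c • (Y * W))
    (h2 : W ^ n * Y = c' • (Z * W ^ n)) : W ^ (n + 1) * X = (c * c') • (Z * W ^ (n + 1)) := by
  calc W ^ (n + 1) * X = W ^ n * (W * X) := by rw [pow_succ, mul_assoc]
    _ = c • (W ^ n * Y * W) := by rw [h1, mul_smul_comm, mul_assoc]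
    _ = (c * c') • (Z * W ^ (n + 1)) := by
        rw [h2, smul_mul_assoc, smul_smul, mul_assoc, ← pow_succ]

theorem five_cycle (W X₀ X₁ X₂ X₃ X₄ : M) (c₀ c₁ c₂ c₃ c₄ : F)
    (h₀ : W * X₀ = c₀ • (X₁ * W)) (h₁ : W * X₁ = c₁ • (X₂ * W)) (h₂ : W * X₂ = c₂ • (X₃ * W))
    (h₃ : W * X₃ = c₃ • (X₄ * W)) (h₄ : W * X₄ = c₄ • (X₀ * W)) :
    W ^ 5 * X₀ = (c₀ * (c₁ * (c₂ * (c₃ * c₄)))) • (X₀ * W ^ 5) := by
  have b : W ^ 1 * X₄ = c₄ • (X₀ * W ^ 1) := by rw [pow_one]; exact h₄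
  exact chain_step W X₀ X₁ X₀ c₀ _ 4 h₀ (chain_step W X₁ X₂ X₀ c₁ _ 3 h₁
    (chain_step W X₂ X₃ X₀ c₂ _ 2 h₂ (chain_step W X₃ X₄ X₀ c₃ _ 1 h₃ b)))

end ring

theorem conj_mat {F : Type u} [Field F] (g h h' : G4 F) (hc : g * h * g⁻¹ = h') :
    (g : M4 F) * (h : M4 F) = (h' : M4 F) * (g : M4 F) := by
  have h1 : g * h = h' * g := by rw [← hc]; group
  rw [← Units.val_mul, ← Units.val_mul, h1]

/-- The action of the rotation attached to `e = x * y` on `x`, `y` and on the elements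
anticommuting with both. -/
theorem rot_action {F : Type u} [Field F] (R : Subgroup (G4 F)) (x y g : G4 F) (X Y : M4 F)
    (hxX : (x : M4 F) = X) (hyY : (y : M4 F) = Y) (hx : x ∈ R) (hy : y ∈ R)
    (hXX : X * X = 1) (hYY : Y * Y = 1) (hXY : X * Y = -(Y * X))
    (hcomm : ∀ h ∈ R, ((x * y : G4 F) : M4 F) * (h : M4 F) =
      (h : M4 F) * ((x * y : G4 F) : M4 F) → g * h * g⁻¹ = h)
    (hanti : ∀ h ∈ R, ((x * y : G4 F) : M4 F) * (h : M4 F) =
      -((h : M4 F) * ((x * y : G4 F) : M4 F)) → g * h * g⁻¹ = (x * y) * h) :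
    (g : M4 F) * X = (-1 : F) • (Y * (g : M4 F)) ∧
    (g : M4 F) * Y = (1 : F) • (X * (g : M4 F)) ∧
    ∀ z ∈ R, ∀ Z : M4 F, (z : M4 F) = Z → X * Z = -(Z * X) → Y * Z = -(Z * Y) →
      (g : M4 F) * Z = (1 : F) • (Z * (g : M4 F)) := by
  subst hxX hyY
  have hE : ((x * y : G4 F) : M4 F) = (x : M4 F) * (y : M4 F) := Units.val_mul x y
  refine ⟨?_, ?_, ?_⟩
  · have h1 := hanti x hx (by rw [hE]; exact rot_anti_x _ _ hXX hXY)
    have h2 := conj_mat g x _ h1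
    rw [h2, Units.val_mul, hE, rot_x _ _ hXX hXY, neg_mul, neg_smul, one_smul]
  · have h1 := hanti y hy (by rw [hE]; exact rot_anti_y _ _ hYY hXY)
    have h2 := conj_mat g y _ h1
    rw [h2, Units.val_mul, hE, rot_y _ _ hYY, one_smul]
  · intro z hz Z hzZ hXZ hYZ
    subst hzZ
    have h1 := hcomm z hz (by rw [hE]; exact rot_comm _ _ _ hXZ hYZ)
    have h2 := conj_mat g z _ h1
    rw [h2, one_smul]

/-- **S6000-ORD5**. -/
theorem ord5 (hrot : StRot.{u}) (hgen : StGen.{u}) : StOrd5.{u} := by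
  intro F _ R i h2 hS a b c d hB
  have hisq := hS.isq
  have hi0 : i ≠ 0 := by
    intro h0
    rw [h0, mul_zero] at hisq
    exact one_ne_zero (neg_eq_zero.1 hisq.symm)
  obtain ⟨ι, hι⟩ : ∃ ι : G4 F, (ι : M4 F) = i • (1 : M4 F) :=
    ⟨Units.map (algebraMap F (M4 F)).toMonoidHom (Units.mk0 i hi0),
      Algebra.algebraMap_eq_smul_one i⟩
  have hιR : ι ∈ R := hS.imem ι hι
  -- the matrices of the basis
  obtain ⟨A, hA⟩ : ∃ A : M4 F, (a : M4 F) = A := ⟨_, rfl⟩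
  obtain ⟨B, hBm⟩ : ∃ B : M4 F, (b : M4 F) = B := ⟨_, rfl⟩
  obtain ⟨C, hC⟩ : ∃ C : M4 F, (c : M4 F) = C := ⟨_, rfl⟩
  obtain ⟨D, hD⟩ : ∃ D : M4 F, (d : M4 F) = D := ⟨_, rfl⟩
  have hAA : A * A = 1 := by rw [← hA]; exact hB.aa
  have hBB : B * B = 1 := by rw [← hBm]; exact hB.bb
  have hCC : C * C = 1 := by rw [← hC]; exact hB.cc
  have hDD : D * D = 1 := by rw [← hD]; exact hB.dd
  have hAB : A * B = -(B * A) := by rw [← hA, ← hBm]; exact hB.ab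
  have hCD : C * D = -(D * C) := by rw [← hC, ← hD]; exact hB.cd
  have hAC : Commute A C := by rw [← hA, ← hC]; exact hB.ac
  have hAD : Commute A D := by rw [← hA, ← hD]; exact hB.ad
  have hBC : Commute B C := by rw [← hBm, ← hC]; exact hB.bc
  have hBD : Commute B D := by rw [← hBm, ← hD]; exact hB.bd
  -- the two commuting quaternion triples
  obtain ⟨S, hSdef⟩ : ∃ S : M4 F, S = i • (A * B) := ⟨_, rfl⟩
  obtain ⟨V, hVdef⟩ : ∃ V : M4 F, V = i • (C * D) := ⟨_, rfl⟩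
  have hSS : S * S = 1 := by rw [hSdef]; exact quat_sq A B i hisq hAA hBB hAB
  have hSA : S * A = -(A * S) := by rw [hSdef]; exact quat_left A B i hAB
  have hSB : S * B = -(B * S) := by rw [hSdef]; exact quat_right A B i hAB
  have hVV : V * V = 1 := by rw [hVdef]; exact quat_sq C D i hisq hCC hDD hCD
  have hVC : V * C = -(C * V) := by rw [hVdef]; exact quat_left C D i hCD
  have hVD : V * D = -(D * V) := by rw [hVdef]; exact quat_right C D i hCD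
  have hSC : Commute S C := by rw [hSdef]; exact (hAC.mul_left hBC).smul_left i
  have hSD : Commute S D := by rw [hSdef]; exact (hAD.mul_left hBD).smul_left i
  have hSV : Commute S V := by rw [hVdef]; exact (hSC.mul_right hSD).smul_right i
  have hVA : Commute V A := by rw [hVdef]; exact (hAC.symm.mul_left hAD.symm).smul_left i
  have hVB : Commute V B := by rw [hVdef]; exact (hBC.symm.mul_left hBD.symm).smul_left i
  -- the five involutions
  obtain ⟨T₃, hT₃def⟩ : ∃ T : M4 F, T = S * C := ⟨_, rfl⟩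
  obtain ⟨T₄, hT₄def⟩ : ∃ T : M4 F, T = S * D := ⟨_, rfl⟩
  obtain ⟨T₅, hT₅def⟩ : ∃ T : M4 F, T = S * V := ⟨_, rfl⟩
  have sq3 : T₃ * T₃ = 1 := by rw [hT₃def]; exact prod_sq S C hSS hCC hSC.eq
  have sq4 : T₄ * T₄ = 1 := by rw [hT₄def]; exact prod_sq S D hSS hDD hSD.eq
  have sq5 : T₅ * T₅ = 1 := by rw [hT₅def]; exact prod_sq S V hSS hVV hSV.eq
  have a31 : T₃ * A = -(A * T₃) := by rw [hT₃def]; exact prod_anti S C A hSA hAC.symm.eq
  have a41 : T₄ * A = -(A * T₄) := by rw [hT₄def]; exact prod_anti S D A hSA hAD.symm.eq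
  have a51 : T₅ * A = -(A * T₅) := by rw [hT₅def]; exact prod_anti S V A hSA hVA.eq
  have a32 : T₃ * B = -(B * T₃) := by rw [hT₃def]; exact prod_anti S C B hSB hBC.symm.eq
  have a42 : T₄ * B = -(B * T₄) := by rw [hT₄def]; exact prod_anti S D B hSB hBD.symm.eq
  have a52 : T₅ * B = -(B * T₅) := by rw [hT₅def]; exact prod_anti S V B hSB hVB.eq
  have a34 : T₃ * T₄ = -(T₄ * T₃) := by
    rw [hT₃def, hT₄def]; exact prod_prod_anti S C D hSS hSC.eq hSD.eq hCD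
  have a35 : T₃ * T₅ = -(T₅ * T₃) := by
    rw [hT₃def, hT₅def]; exact prod_prod_anti S C V hSS hSC.eq hSV.eq (flip_anti hVC)
  have a45 : T₄ * T₅ = -(T₅ * T₄) := by
    rw [hT₄def, hT₅def]; exact prod_prod_anti S D V hSS hSD.eq hSV.eq (flip_anti hVD)
  have a12 : A * B = -(B * A) := hAB
  have a21 : B * A = -(A * B) := flip_anti a12
  have a13 : A * T₃ = -(T₃ * A) := flip_anti a31
  have a14 : A * T₄ = -(T₄ * A) := flip_anti a41
  have a15 : A * T₅ = -(T₅ * A) := flip_anti a51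
  have a23 : B * T₃ = -(T₃ * B) := flip_anti a32
  have a24 : B * T₄ = -(T₄ * B) := flip_anti a42
  have a25 : B * T₅ = -(T₅ * B) := flip_anti a52
  have a43 : T₄ * T₃ = -(T₃ * T₄) := flip_anti a34
  have a53 : T₅ * T₃ = -(T₃ * T₅) := flip_anti a35
  -- the group elements
  have ht₃R : ι * a * b * c ∈ R :=
    R.mul_mem (R.mul_mem (R.mul_mem hιR hB.ha) hB.hb) hB.hc
  have ht₄R : ι * a * b * d ∈ R :=
    R.mul_mem (R.mul_mem (R.mul_mem hιR hB.ha) hB.hb) hB.hd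
  have ht₅R : ι * a * b * (ι * c * d) ∈ R :=
    R.mul_mem (R.mul_mem (R.mul_mem hιR hB.ha) hB.hb) (R.mul_mem (R.mul_mem hιR hB.hc) hB.hd)
  have ht₃ : ((ι * a * b * c : G4 F) : M4 F) = T₃ := by
    rw [hT₃def, hSdef, Units.val_mul, Units.val_mul, Units.val_mul, hι, hA, hBm, hC]
    simp only [smul_mul_assoc, one_mul]
  have ht₄ : ((ι * a * b * d : G4 F) : M4 F) = T₄ := by
    rw [hT₄def, hSdef, Units.val_mul, Units.val_mul, Units.val_mul, hι, hA, hBm, hD]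
    simp only [smul_mul_assoc, one_mul]
  have ht₅ : ((ι * a * b * (ι * c * d) : G4 F) : M4 F) = T₅ := by
    rw [hT₅def, hSdef, hVdef, Units.val_mul, Units.val_mul, Units.val_mul, Units.val_mul,
      Units.val_mul, hι, hA, hBm, hC, hD]
    simp only [smul_mul_assoc, one_mul]
  -- the four rotations
  have he1 : ((a * b : G4 F) : M4 F) * ((a * b : G4 F) : M4 F) = -1 := by
    rw [Units.val_mul, hA, hBm]; exact rot_sq A B hAA hBB a12
  obtain ⟨g₁, -, hg₁N, hg₁c, hg₁a⟩ := hrot F R i h2 hS (a * b) (R.mul_mem hB.ha hB.hb) he1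
  obtain ⟨r11, r12, r1z⟩ := rot_action R a b g₁ A B hA hBm hB.ha hB.hb hAA hBB a12 hg₁c hg₁a
  have r13 := r1z _ ht₃R T₃ ht₃ a13 a23
  have r14 := r1z _ ht₄R T₄ ht₄ a14 a24
  have r15 := r1z _ ht₅R T₅ ht₅ a15 a25
  have he2 : ((b * (ι * a * b * c) : G4 F) : M4 F) * ((b * (ι * a * b * c) : G4 F) : M4 F) =
      -1 := by
    rw [Units.val_mul, ht₃, hBm]; exact rot_sq B T₃ hBB sq3 a23
  obtain ⟨g₂, -, hg₂N, hg₂c, hg₂a⟩ := hrot F R i h2 hS (b * (ι * a * b * c))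
    (R.mul_mem hB.hb ht₃R) he2
  obtain ⟨r22, r23, r2z⟩ := rot_action R b (ι * a * b * c) g₂ B T₃ hBm ht₃ hB.hb ht₃R hBB sq3
    a23 hg₂c hg₂a
  have r21 := r2z _ hB.ha A hA a21 a31
  have r24 := r2z _ ht₄R T₄ ht₄ a24 a34
  have r25 := r2z _ ht₅R T₅ ht₅ a25 a35
  have he3 : ((ι * a * b * c * (ι * a * b * d) : G4 F) : M4 F) *
      ((ι * a * b * c * (ι * a * b * d) : G4 F) : M4 F) = -1 := by
    rw [Units.val_mul, ht₃, ht₄]; exact rot_sq T₃ T₄ sq3 sq4 a34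
  obtain ⟨g₃, -, hg₃N, hg₃c, hg₃a⟩ := hrot F R i h2 hS (ι * a * b * c * (ι * a * b * d))
    (R.mul_mem ht₃R ht₄R) he3
  obtain ⟨r33, r34, r3z⟩ := rot_action R (ι * a * b * c) (ι * a * b * d) g₃ T₃ T₄ ht₃ ht₄ ht₃R
    ht₄R sq3 sq4 a34 hg₃c hg₃a
  have r31 := r3z _ hB.ha A hA a31 a41
  have r32 := r3z _ hB.hb B hBm a32 a42
  have r35 := r3z _ ht₅R T₅ ht₅ a35 a45
  have he4 : ((ι * a * b * d * (ι * a * b * (ι * c * d)) : G4 F) : M4 F) *
      ((ι * a * b * d * (ι * a * b * (ι * c * d)) : G4 F) : M4 F) = -1 := by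
    rw [Units.val_mul, ht₄, ht₅]; exact rot_sq T₄ T₅ sq4 sq5 a45
  obtain ⟨g₄, -, hg₄N, hg₄c, hg₄a⟩ := hrot F R i h2 hS
    (ι * a * b * d * (ι * a * b * (ι * c * d))) (R.mul_mem ht₄R ht₅R) he4
  obtain ⟨r44, r45, r4z⟩ := rot_action R (ι * a * b * d) (ι * a * b * (ι * c * d)) g₄ T₄ T₅ ht₄
    ht₅ ht₄R ht₅R sq4 sq5 a45 hg₄c hg₄a
  have r41 := r4z _ hB.ha A hA a41 a51
  have r42 := r4z _ hB.hb B hBm a42 a52
  have r43 := r4z _ ht₃R T₃ ht₃ a43 a53
  -- the element `w`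
  obtain ⟨W, hW⟩ : ∃ W : M4 F, W = (g₁ : M4 F) * (g₂ : M4 F) * (g₃ : M4 F) * (g₄ : M4 F) :=
    ⟨_, rfl⟩
  have hwW : ((g₁ * g₂ * g₃ * g₄ : G4 F) : M4 F) = W := by
    rw [hW, Units.val_mul, Units.val_mul, Units.val_mul]
  have R1 : W * A = (-1 : F) • (B * W) := by
    have h := push4 (g₁ : M4 F) (g₂ : M4 F) (g₃ : M4 F) (g₄ : M4 F) A A A A B _ _ _ _
      r41 r31 r21 r11
    rw [← hW] at h
    rw [h]
    norm_num
  have R2 : W * B = (-1 : F) • (T₃ * W) := by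
    have h := push4 (g₁ : M4 F) (g₂ : M4 F) (g₃ : M4 F) (g₄ : M4 F) B B B T₃ T₃ _ _ _ _
      r42 r32 r22 r13
    rw [← hW] at h
    rw [h]
    norm_num
  have R3 : W * T₃ = (-1 : F) • (T₄ * W) := by
    have h := push4 (g₁ : M4 F) (g₂ : M4 F) (g₃ : M4 F) (g₄ : M4 F) T₃ T₃ T₄ T₄ T₄ _ _ _ _
      r43 r33 r24 r14
    rw [← hW] at h
    rw [h]
    norm_num
  have R4 : W * T₄ = (-1 : F) • (T₅ * W) := by
    have h := push4 (g₁ : M4 F) (g₂ : M4 F) (g₃ : M4 F) (g₄ : M4 F) T₄ T₅ T₅ T₅ T₅ _ _ _ _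
      r44 r35 r25 r15
    rw [← hW] at h
    rw [h]
    norm_num
  have R5 : W * T₅ = (1 : F) • (A * W) := by
    have h := push4 (g₁ : M4 F) (g₂ : M4 F) (g₃ : M4 F) (g₄ : M4 F) T₅ T₄ T₃ B A _ _ _ _
      r45 r34 r23 r12
    rw [← hW] at h
    rw [h]
    norm_num
  -- `W ^ 5` commutes with the `T`'s
  have c1 : Commute (W ^ 5) A := by
    have h := five_cycle W A B T₃ T₄ T₅ _ _ _ _ _ R1 R2 R3 R4 R5
    show W ^ 5 * A = A * W ^ 5
    rw [h]
    norm_num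
  have c2 : Commute (W ^ 5) B := by
    have h := five_cycle W B T₃ T₄ T₅ A _ _ _ _ _ R2 R3 R4 R5 R1
    show W ^ 5 * B = B * W ^ 5
    rw [h]
    norm_num
  have c3 : Commute (W ^ 5) T₃ := by
    have h := five_cycle W T₃ T₄ T₅ A B _ _ _ _ _ R3 R4 R5 R1 R2
    show W ^ 5 * T₃ = T₃ * W ^ 5
    rw [h]
    norm_num
  have c4 : Commute (W ^ 5) T₄ := by
    have h := five_cycle W T₄ T₅ A B T₃ _ _ _ _ _ R4 R5 R1 R2 R3
    show W ^ 5 * T₄ = T₄ * W ^ 5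
    rw [h]
    norm_num
  have cS : Commute (W ^ 5) S := by rw [hSdef]; exact (c1.mul_right c2).smul_right i
  have cC : Commute (W ^ 5) C := by
    have h := cS.mul_right c3
    rw [hT₃def, ← mul_assoc, hSS, one_mul] at h
    exact h
  have cD : Commute (W ^ 5) D := by
    have h := cS.mul_right c4
    rw [hT₄def, ← mul_assoc, hSS, one_mul] at h
    exact h
  -- hence with `R`
  have hcommR : ∀ x ∈ R, W ^ 5 * (x : M4 F) = (x : M4 F) * W ^ 5 := by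
    intro x hx
    obtain ⟨k, e, f, g, l, hx5⟩ := hgen F R i h2 hS a b c d hB x hx
    rw [hx5, hA, hBm, hC, hD]
    exact ((((c1.pow_right e).mul_right (c2.pow_right f)).mul_right (cC.pow_right g)).mul_right
      (cD.pow_right l)).smul_right (i ^ k)
  obtain ⟨l, hl⟩ := hS.commutant (W ^ 5) hcommR
  refine ⟨g₁ * g₂ * g₃ * g₄, l, ?_, ?_, ?_⟩
  · exact Subgroup.mul_mem _ (Subgroup.mul_mem _ (Subgroup.mul_mem _ hg₁N hg₂N) hg₃N) hg₄N
  · rw [hwW]
    exact hl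
  · intro t ht
    rw [hwW] at ht
    -- `W` scalar commutes with `B`, so `W * (A + B) = 0`
    have h1 : W * B = B * W := by rw [ht]; simp
    have h3 : W * (A + B) = 0 := by
      rw [mul_add, R1, h1]
      simp
    have h4 : A + B = 0 := by
      have h5 : (((g₁ * g₂ * g₃ * g₄)⁻¹ : G4 F) : M4 F) * W = 1 := by
        rw [← hwW]
        exact Units.inv_mul _
      calc A + B = (((g₁ * g₂ * g₃ * g₄)⁻¹ : G4 F) : M4 F) * W * (A + B) := by
            rw [h5, one_mul]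
        _ = 0 := by rw [mul_assoc, h3, mul_zero]
    have h6 : A = -B := eq_neg_of_add_eq_zero_left h4
    have h7 := hAB
    rw [h6, neg_mul, mul_neg, neg_neg, hBB] at h7
    have h8 := congrFun (congrFun h7 0) 0
    simp only [Matrix.neg_apply, Matrix.one_apply_eq] at h8
    exact h2 (by linear_combination -h8)

end Cfsg.Agent.H51.S4
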