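import Mathlib
import Cfsg.Agent.H9.S77Defs

/-!
# S0429-MEET (helper51, for helper9)

In an srg(77,16,0,4), two distinct planes meet in exactly 5 vertices.
-/

set_option autoImplicit false
open Finset Classical Cfsg.Agent.H9.S77

namespace Cfsg.Agent.H51.S77

universe u
variable {V : Type u} [Fintype V]

/-- Two distinct planes meet in at most one vertex or in a line. -/
theorem inter_card_cases (G : SimpleGraph V) (hL : StLine G) (hSub : StSub G) (hU : StUniq G)
    (C C' : Finset V) (hC : IsPlane G C) (hC' : IsPlane G C') (hne : C ≠ C') :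
    (C ∩ C').card ≤ 1 ∨ (C ∩ C').card = 5 := by
  by_cases h1 : (C ∩ C').card ≤ 1
  · left; exact h1
  · right
    push Not at h1
    obtain ⟨u, hu, v, hv, huv⟩ := Finset.one_lt_card.1 h1
    rw [Finset.mem_inter] at hu hv
    have hna : NA G u v := ⟨huv, hC.1 u hu.1 v hv.1⟩
    have hsub1 := (hSub C hC u hu.1 v hv.1 huv).1
    have hsub2 := (hSub C' hC' u hu.2 v hv.2 huv).1
    have heq : C ∩ C' = Ln G u v := by
      apply Finset.Subset.antisymm
      · intro w hw
        by_contra hwL
        rw [Finset.mem_inter] at hw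
        exact hne (hU C C' hC hC' u v w hu.1 hv.1 hw.1 hu.2 hv.2 hw.2 huv hwL)
      · intro w hw
        exact Finset.mem_inter.2 ⟨hsub1 hw, hsub2 hw⟩
    rw [heq]
    exact (hL u v hna).1

/-- **S0429-MEET**. -/
theorem meet : Cfsg.Agent.H9.S77.PieceMeet.{u} := by
  intro V _ G h hL hSub hU hP hN C hC C' hC' hne
  have hCp : IsPlane G C := (Finset.mem_filter.1 hC).2
  have hC'p : IsPlane G C' := (Finset.mem_filter.1 hC').2
  -- for each ordered pair of distinct vertices of `C`: exactly one other plane through them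
  have hone : ∀ p ∈ C.offDiag,
      (((planes G).erase C).filter (fun D => p.1 ∈ D ∧ p.2 ∈ D)).card = 1 := by
    intro p hp
    rw [Finset.mem_offDiag] at hp
    have hna : NA G p.1 p.2 := ⟨hp.2.2, hCp.1 p.1 hp.1 p.2 hp.2.1⟩
    have h2 := hP p.1 p.2 hna
    have e : ((planes G).erase C).filter (fun D => p.1 ∈ D ∧ p.2 ∈ D) =
        ((planes G).filter (fun D => p.1 ∈ D ∧ p.2 ∈ D)).erase C := by
      ext D
      simp only [Finset.mem_filter, Finset.mem_erase]
      tauto
    rw [e, Finset.card_erase_of_mem (Finset.mem_filter.2 ⟨hC, hp.1, hp.2.1⟩), h2]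
  have hdc : ∑ D ∈ (planes G).erase C,
      ((C ∩ D).card * (C ∩ D).card - (C ∩ D).card) = 420 := by
    have e1 : ∀ D ∈ (planes G).erase C, (C ∩ D).card * (C ∩ D).card - (C ∩ D).card =
        (C.offDiag.filter (fun p => p.1 ∈ D ∧ p.2 ∈ D)).card := by
      intro D _
      rw [← Finset.offDiag_card]
      congr 1
      ext p
      simp only [Finset.mem_offDiag, Finset.mem_inter, Finset.mem_filter]
      tauto
    rw [Finset.sum_congr rfl e1]
    calc ∑ D ∈ (planes G).erase C, (C.offDiag.filter (fun p => p.1 ∈ D ∧ p.2 ∈ D)).card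
        = ∑ D ∈ (planes G).erase C, ∑ p ∈ C.offDiag,
            (if p.1 ∈ D ∧ p.2 ∈ D then 1 else 0) :=
          Finset.sum_congr rfl (fun D _ => Finset.card_filter _ _)
      _ = ∑ p ∈ C.offDiag, ∑ D ∈ (planes G).erase C,
            (if p.1 ∈ D ∧ p.2 ∈ D then 1 else 0) := Finset.sum_comm
      _ = ∑ p ∈ C.offDiag,
            (((planes G).erase C).filter (fun D => p.1 ∈ D ∧ p.2 ∈ D)).card :=
          Finset.sum_congr rfl (fun p _ => (Finset.card_filter _ _).symm)
      _ = ∑ p ∈ C.offDiag, 1 := Finset.sum_congr rfl hone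
      _ = 420 := by
          rw [Finset.sum_const, Finset.offDiag_card, hCp.2]
          rfl
  have hcardP : ((planes G).erase C).card = 21 := by
    rw [Finset.card_erase_of_mem hC, hN]
  have hle : ∀ D ∈ (planes G).erase C,
      (C ∩ D).card * (C ∩ D).card - (C ∩ D).card ≤ 20 := by
    intro D hD
    rw [Finset.mem_erase] at hD
    have hDp : IsPlane G D := (Finset.mem_filter.1 hD.2).2
    rcases inter_card_cases G hL hSub hU C D hCp hDp (Ne.symm hD.1) with h1 | h5
    · have h01 : (C ∩ D).card = 0 ∨ (C ∩ D).card = 1 := by omega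
      rcases h01 with h0 | h0 <;> rw [h0] <;> norm_num
    · rw [h5]
  have hC'mem : C' ∈ (planes G).erase C := Finset.mem_erase.2 ⟨Ne.symm hne, hC'⟩
  by_contra h5
  have hlt : (C ∩ C').card * (C ∩ C').card - (C ∩ C').card < 20 := by
    rcases inter_card_cases G hL hSub hU C C' hCp hC'p hne with h1 | h5'
    · have h01 : (C ∩ C').card = 0 ∨ (C ∩ C').card = 1 := by omega
      rcases h01 with h0 | h0 <;> rw [h0] <;> norm_num
    · exact absurd h5' h5
  have hsum := Finset.sum_lt_sum hle ⟨C', hC'mem, hlt⟩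
  rw [hdc, Finset.sum_const, hcardP] at hsum
  norm_num at hsum

example : Cfsg.Agent.H9.S77.PieceMeet.{u} := meet

end Cfsg.Agent.H51.S77
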