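import Mathlib
import Cfsg.Agent.H9.S77Defs

/-!
# S0429-PERP (helper51, for helper9)

In an srg(77,16,0,4): if `o, x, y` are pairwise non-adjacent with exactly one common neighbour,
there is no edge between the lines `Ln o x` and `Ln o y`.
-/

set_option autoImplicit false
open Finset Classical Cfsg.Agent.H9.S77

namespace Cfsg.Agent.H51.S77

universe u
variable {V : Type u} [Fintype V]

theorem mem_Wset {G : SimpleGraph V} {u v w : V} :
    w ∈ Wset G u v ↔ w ≠ u ∧ w ≠ v ∧ ¬ G.Adj u w ∧ ¬ G.Adj v w := by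
  simp [Wset]

theorem mem_Zset {G : SimpleGraph V} {u v w : V} :
    w ∈ Zset G u v ↔ w ∈ Wset G u v ∧ tc G u v w = 0 := by
  simp [Zset]

theorem mem_Ln {G : SimpleGraph V} {u v w : V} :
    w ∈ Ln G u v ↔ w = u ∨ w = v ∨ w ∈ Zset G u v := by
  simp [Ln]

theorem left_mem_Ln (G : SimpleGraph V) (u v : V) : u ∈ Ln G u v := mem_Ln.2 (Or.inl rfl)

theorem right_mem_Ln (G : SimpleGraph V) (u v : V) : v ∈ Ln G u v :=
  mem_Ln.2 (Or.inr (Or.inl rfl))

theorem tc_comm23 (G : SimpleGraph V) (a b c : V) : tc G a b c = tc G a c b := by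
  unfold tc
  rw [Finset.inter_right_comm]

/-- `t(o,x,s)` as a count over `M(o,x)`. -/
theorem tc_eq_sum (G : SimpleGraph V) (o x s : V) :
    tc G o x s = ∑ m ∈ nb G o ∩ nb G x, if G.Adj m s then 1 else 0 := by
  unfold tc
  rw [← Finset.card_filter]
  congr 1
  ext m
  simp only [Finset.mem_inter, mem_nb, Finset.mem_filter]
  constructor
  · rintro ⟨⟨h1, h2⟩, h3⟩
    exact ⟨⟨h1, h2⟩, h3.symm⟩
  · rintro ⟨⟨h1, h2⟩, h3⟩
    exact ⟨⟨h1, h2⟩, h3.symm⟩

/-- The number of neighbours of `m` in a set, as a sum. -/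
theorem card_nb_inter (G : SimpleGraph V) (m : V) (L : Finset V) :
    (nb G m ∩ L).card = ∑ s ∈ L, if G.Adj m s then 1 else 0 := by
  rw [← Finset.card_filter]
  congr 1
  ext s
  simp only [Finset.mem_inter, mem_nb, Finset.mem_filter]
  exact and_comm

/-- Double count of the edges between `M(o,x)` and the line `Ln o y`. -/
theorem sum_tc_line (G : SimpleGraph V) (h : Hyp G) (hL : StLine G) (hT : StTwo G)
    (o x y : V) (hox : NA G o x) (hoy : NA G o y) :
    ∑ s ∈ Ln G o y, tc G o x s = 8 := by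
  have hM : (nb G o ∩ nb G x).card = 4 := h.mu o x hox.1 hox.2
  have hco := (hL o y hoy).2.1
  have h2 : ∀ m ∈ nb G o ∩ nb G x, (nb G m ∩ Ln G o y).card = 2 := by
    intro m hm
    rw [Finset.mem_inter, mem_nb, mem_nb] at hm
    have hmL : m ∉ Ln G o y := by
      intro hmL
      exact hco m hmL o (left_mem_Ln G o y) hm.1.symm
    rcases hT o y hoy m hmL with h0 | h0
    · exfalso
      rw [Finset.card_eq_zero] at h0
      have : o ∈ nb G m ∩ Ln G o y := by
        rw [Finset.mem_inter, mem_nb]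
        exact ⟨hm.1.symm, left_mem_Ln G o y⟩
      rw [h0] at this
      exact absurd this (Finset.notMem_empty o)
    · exact h0
  have h3 : ∑ m ∈ nb G o ∩ nb G x, (nb G m ∩ Ln G o y).card = 8 := by
    rw [Finset.sum_const_nat h2, hM]
  rw [← h3]
  rw [Finset.sum_congr rfl (fun s _ => tc_eq_sum G o x s),
    Finset.sum_congr rfl (fun m _ => card_nb_inter G m (Ln G o y))]
  exact Finset.sum_comm

/-- Step 1: `x` has no neighbour on the line `Ln o y`. -/
theorem no_nb_line (G : SimpleGraph V) (h : Hyp G) (hK : StK33 G) (hL : StLine G) (hT : StTwo G)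
    (o x y : V) (hox : NA G o x) (hoy : NA G o y) (hxy : NA G x y) (ht : tc G o x y = 1) :
    x ∉ Ln G o y ∧ ∀ s ∈ Ln G o y, ¬ G.Adj x s := by
  have hxL : x ∉ Ln G o y := by
    rw [mem_Ln]
    rintro (hx | hx | hx)
    · exact hox.1 hx.symm
    · exact hxy.1 hx
    · rw [mem_Zset, tc_comm23, ht] at hx
      exact one_ne_zero hx.2
  refine ⟨hxL, ?_⟩
  by_contra hcon
  push Not at hcon
  obtain ⟨s₀, hs₀, hadj⟩ := hcon
  have hS := sum_tc_line G h hL hT o x y hox hoy
  have hM : (nb G o ∩ nb G x).card = 4 := h.mu o x hox.1 hox.2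
  -- `x` has exactly two neighbours on the line, both in `Z(o,y)`
  have hc2 : (nb G x ∩ Ln G o y).card = 2 := by
    rcases hT o y hoy x hxL with h0 | h0
    · exfalso
      rw [Finset.card_eq_zero] at h0
      have : s₀ ∈ nb G x ∩ Ln G o y := by
        rw [Finset.mem_inter, mem_nb]
        exact ⟨hadj, hs₀⟩
      rw [h0] at this
      exact absurd this (Finset.notMem_empty s₀)
    · exact h0
  have hZ3 : (Zset G o y).card = 3 := (hK o y hoy).2.1
  have hfil : (Zset G o y).filter (fun z => G.Adj x z) = nb G x ∩ Ln G o y := by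
    ext z
    simp only [Finset.mem_filter, Finset.mem_inter, mem_nb, mem_Ln]
    constructor
    · rintro ⟨hz, ha⟩
      exact ⟨ha, Or.inr (Or.inr hz)⟩
    · rintro ⟨ha, hz | hz | hz⟩
      · rw [hz] at ha
        exact absurd ha.symm hox.2
      · rw [hz] at ha
        exact absurd ha hxy.2
      · exact ⟨hz, ha⟩
  have hoZ : o ∉ insert y (Zset G o y) := by
    rw [Finset.mem_insert]
    rintro (ho | ho)
    · exact hoy.1 ho
    · rw [mem_Zset, mem_Wset] at ho
      exact ho.1.1 rfl
  have hyZ : y ∉ Zset G o y := by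
    intro hy
    rw [mem_Zset, mem_Wset] at hy
    exact hy.1.2.1 rfl
  have hsum : ∑ s ∈ Ln G o y, tc G o x s =
      tc G o x o + (tc G o x y + ∑ z ∈ Zset G o y, tc G o x z) := by
    unfold Ln
    rw [Finset.sum_insert hoZ, Finset.sum_insert hyZ]
  have hto : tc G o x o = 4 := by
    unfold tc
    rw [Finset.inter_right_comm, Finset.inter_self]
    exact hM
  have hz0 : ∀ z ∈ (Zset G o y).filter (fun z => G.Adj x z), tc G o x z = 0 := by
    intro z hz
    rw [Finset.mem_filter] at hz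
    unfold tc
    rw [Finset.card_eq_zero, Finset.eq_empty_iff_forall_notMem]
    intro m hm
    simp only [Finset.mem_inter, mem_nb] at hm
    exact h.tri x m z hm.1.2 hz.2 hm.2.symm
  have hz2 : ∀ z ∈ (Zset G o y).filter (fun z => ¬ G.Adj x z), tc G o x z ≤ 2 := by
    intro z hz
    rw [Finset.mem_filter, mem_Zset, mem_Wset] at hz
    apply (hK o x hox).1
    rw [mem_Wset]
    refine ⟨hz.1.1.1, ?_, hz.1.1.2.2.1, hz.2⟩
    rintro rfl
    exact hxL (mem_Ln.2 (Or.inr (Or.inr (mem_Zset.2 ⟨mem_Wset.2 hz.1.1, hz.1.2⟩))))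
  have hcard1 : ((Zset G o y).filter (fun z => ¬ G.Adj x z)).card = 1 := by
    have := Finset.card_filter_add_card_filter_not (s := Zset G o y) (fun z => G.Adj x z)
    rw [hfil, hc2, hZ3] at this
    omega
  have hZsum : ∑ z ∈ Zset G o y, tc G o x z ≤ 2 := by
    rw [← Finset.sum_filter_add_sum_filter_not (Zset G o y) (fun z => G.Adj x z),
      Finset.sum_eq_zero hz0, zero_add]
    calc ∑ z ∈ (Zset G o y).filter (fun z => ¬ G.Adj x z), tc G o x z
        ≤ ((Zset G o y).filter (fun z => ¬ G.Adj x z)).card • 2 :=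
          Finset.sum_le_card_nsmul _ _ _ hz2
      _ = 2 := by rw [hcard1]; rfl
  rw [hsum, hto, ht] at hS
  omega

/-- Step 1': every vertex of `Ln o y` other than `o` has exactly one common neighbour with
`o, x`. -/
theorem tc_line_eq_one (G : SimpleGraph V) (h : Hyp G) (hK : StK33 G) (hL : StLine G)
    (hT : StTwo G) (o x y : V) (hox : NA G o x) (hoy : NA G o y) (hxy : NA G x y)
    (ht : tc G o x y = 1) : ∀ s ∈ Ln G o y, s ≠ o → tc G o x s = 1 := by
  obtain ⟨hxL, hno⟩ := no_nb_line G h hK hL hT o x y hox hoy hxy ht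
  have hS := sum_tc_line G h hL hT o x y hox hoy
  have hM : (nb G o ∩ nb G x).card = 4 := h.mu o x hox.1 hox.2
  have hto : tc G o x o = 4 := by
    unfold tc
    rw [Finset.inter_right_comm, Finset.inter_self]
    exact hM
  have hcard5 : (Ln G o y).card = 5 := (hL o y hoy).1
  have hco := (hL o y hoy).2.1
  have hoL : o ∈ Ln G o y := left_mem_Ln G o y
  have hS4 : ∑ s ∈ (Ln G o y).erase o, tc G o x s = 4 := by
    have := Finset.add_sum_erase (Ln G o y) (fun s => tc G o x s) hoL
    rw [hS, hto] at this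
    omega
  have hge : ∀ s ∈ (Ln G o y).erase o, 1 ≤ tc G o x s := by
    intro s hs
    rw [Finset.mem_erase] at hs
    by_contra hlt
    have h0 : tc G o x s = 0 := by omega
    have hsx : s ≠ x := by
      rintro rfl
      exact hxL hs.2
    have hsZ : s ∈ Zset G o x := by
      rw [mem_Zset, mem_Wset]
      exact ⟨⟨hs.1, hsx, fun ha => hco o hoL s hs.2 ha, hno s hs.2⟩, h0⟩
    have hsL : s ∈ Ln G o x := mem_Ln.2 (Or.inr (Or.inr hsZ))
    have e1 : Ln G o s = Ln G o x :=
      (hL o x hox).2.2.2 o (left_mem_Ln G o x) s hsL (Ne.symm hs.1)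
    have e2 : Ln G o s = Ln G o y :=
      (hL o y hoy).2.2.2 o hoL s hs.2 (Ne.symm hs.1)
    apply hxL
    rw [← e2, e1]
    exact right_mem_Ln G o x
  intro s hs hso
  have hs' : s ∈ (Ln G o y).erase o := Finset.mem_erase.2 ⟨hso, hs⟩
  by_contra hne
  have h2 : 2 ≤ tc G o x s := by
    have := hge s hs'
    omega
  have hsplit := Finset.add_sum_erase ((Ln G o y).erase o) (fun s => tc G o x s) hs'
  have hc3 : (((Ln G o y).erase o).erase s).card = 3 := by
    rw [Finset.card_erase_of_mem hs', Finset.card_erase_of_mem hoL, hcard5]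
  have hge3 : (((Ln G o y).erase o).erase s).card • 1 ≤
      ∑ s' ∈ ((Ln G o y).erase o).erase s, tc G o x s' := by
    apply Finset.card_nsmul_le_sum
    intro s' hs''
    exact hge s' (Finset.mem_of_mem_erase hs'')
  rw [hc3] at hge3
  simp only [smul_eq_mul, mul_one] at hge3
  omega

/-- **S0429-PERP**. -/
theorem perp : Cfsg.Agent.H9.S77.PiecePerp.{u} := by
  intro V _ G h hK hL hT o x y hox hoy hxy ht x' hx' y' hy'
  by_cases hyo : y' = o
  · rw [hyo]
    exact (hL o x hox).2.1 x' hx' o (left_mem_Ln G o x)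
  · obtain ⟨hxL, hno⟩ := no_nb_line G h hK hL hT o x y hox hoy hxy ht
    have ht' : tc G o x y' = 1 := tc_line_eq_one G h hK hL hT o x y hox hoy hxy ht y' hy' hyo
    have hoy' : NA G o y' :=
      ⟨Ne.symm hyo, fun ha => (hL o y hoy).2.1 o (left_mem_Ln G o y) y' hy' ha⟩
    have hy'x : NA G y' x := by
      refine ⟨?_, fun ha => hno y' hy' ha.symm⟩
      rintro rfl
      exact hxL hy'
    have ht'' : tc G o y' x = 1 := by rw [tc_comm23]; exact ht'
    obtain ⟨-, hno'⟩ := no_nb_line G h hK hL hT o y' x hoy' hox hy'x ht''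
    exact fun ha => hno' x' hx' ha.symm

example : Cfsg.Agent.H9.S77.PiecePerp.{u} := perp

end Cfsg.Agent.H51.S77
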