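import Cfsg.Agent.H51.StWA

set_option autoImplicit false

/-!
# S2311, piece WC (helper51 for helper68): the longest element of a finite exchange system
-/

namespace Cfsg.Agent.H51.St

open Cfsg Cfsg.H8Exch Cfsg.Agent.H68.St

variable {W : Type*} [Group W] {ι : Type*}

namespace ES

variable {f : ι → W} {Ps : ι → Set W}

theorem len_eq_zero' (E : ES f Ps) {w : W} (h : len f w = 0) : w = 1 :=
  len_eq_zero f E.hf2 E.hgen h

theorem len_gen' (E : ES f Ps) (i : ι) : len f (f i) = 1 :=
  len_gen f E.hf2 E.hgen Ps E.hA E.hB E.hC i

/-- (R), additivity. -/
theorem add_len (E : ES f Ps) (Y : Set ι) {w v : W}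
    (hw : ∀ j ∈ Y, len f w < len f (w * f j)) (hv : v ∈ Subgroup.closure (f '' Y)) :
    len f (w * v) = len f w + len f v :=
  red_len_mul f E.hf2 E.hgen Ps E.hA E.hB E.hC Y hw hv

/-- (R), existence. -/
theorem exists_coset_min (E : ES f Ps) (Y : Set ι) (w : W) :
    ∃ m e, e ∈ Subgroup.closure (f '' Y) ∧ w = m * e ∧ ∀ j ∈ Y, len f m < len f (m * f j) := by
  obtain ⟨d, hd, u, hu, v, hv, h⟩ := red_exists f E.hf2 E.hgen Ps E.hA E.hB E.hC ∅ Y w
  rw [Set.image_empty, Subgroup.closure_empty] at hu
  rw [Subgroup.mem_bot.1 hu, one_mul] at h
  exact ⟨d, v, hv, h, hd.2⟩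

/-- (D): the last letter. -/
theorem exists_last (E : ES f Ps) (Y : Set ι) {z : W} (hz : z ∈ Subgroup.closure (f '' Y))
    (hz1 : z ≠ 1) :
    ∃ c ∈ Y, ∃ d' ∈ Subgroup.closure (f '' Y), z = d' * f c ∧ len f d' + 1 = len f z := by
  obtain ⟨l, hlR, hl⟩ := exists_isRed f E.hf2 E.hgen z
  rcases List.eq_nil_or_concat' l with rfl | ⟨t, i, rfl⟩
  · exact absurd hl.symm hz1
  · have hmem := letters_of_isRed f E.hf2 E.hgen Ps E.hA E.hB E.hC (X := Y) (t ++ [i]) hlR
      (by rw [hl]; exact hz) i (by simp)
    obtain ⟨c, hcY, hc⟩ := hmem
    have htR : IsRed f t := isRed_of_concat f E.hf2 E.hgen hlR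
    unfold IsRed at hlR htR
    rw [wprod_append, wprod_singleton, ← hc] at hl
    rw [wprod_append, wprod_singleton, ← hc, hl, List.length_append, List.length_singleton] at hlR
    refine ⟨c, hcY, wprod f t, ?_, hl.symm, ?_⟩
    · have : wprod f t = z * f c := by rw [← hl, mul_assoc, E.hf2, mul_one]
      rw [this]
      exact mul_mem hz (mem_gen Y hcY)
    · rw [htR, hlR]

/-- (DL0) -/
theorem dl0 (E : ES f Ps) (a b : ι) (e : W)
    (he : e ∈ Subgroup.closure (f '' ({a, b} : Set ι)))
    (hea : len f (e * f a) < len f e) (heb : len f (e * f b) < len f e) :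
    ∀ d ∈ Subgroup.closure (f '' ({a, b} : Set ι)), len f (e * d) + len f d = len f e := by
  have key : ∀ n : ℕ, ∀ d ∈ Subgroup.closure (f '' ({a, b} : Set ι)), len f d = n →
      len f (e * d) + len f d = len f e := by
    intro n
    induction n using Nat.strong_induction_on with
    | _ n ih =>
      intro d hd hdn
      by_cases hd1 : d = 1
      · subst hd1
        rw [mul_one, len_one, add_zero]
      · obtain ⟨c, hcY, d', hd', hdc, hlen⟩ := E.exists_last _ hd hd1
        rw [Set.mem_insert_iff, Set.mem_singleton_iff] at hcY
        have ih1 := ih (len f d') (by omega) d' hd' rfl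
        have hedc : e * d = (e * d') * f c := by rw [hdc, mul_assoc]
        have claim : len f (e * d' * f c) < len f (e * d') := by
          by_contra hnot
          have hgt : len f (e * d') < len f (e * d' * f c) := by
            have := E.lenR_ne c (e * d')
            omega
          have hc_desc : len f (e * f c) < len f e := by
            rcases hcY with h | h
            · rw [h]; exact hea
            · rw [h]; exact heb
          by_cases hd'1 : d' = 1
          · rw [hd'1, mul_one] at hgt
            omega
          · obtain ⟨c', hc'Y, d'', hd'', hd'c, hlen'⟩ := E.exists_last _ hd' hd'1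
            rw [Set.mem_insert_iff, Set.mem_singleton_iff] at hc'Y
            have hfc : f c' ≠ f c := by
              intro hcc
              have e1 : d = d'' := by rw [hdc, hd'c, hcc, mul_assoc, E.hf2, mul_one]
              rw [e1] at hlen
              omega
            have ih2 := ih (len f d'') (by omega) d'' hd'' rfl
            have hz' : e * d' * f c' = e * d'' := by
              rw [hd'c, mul_assoc, mul_assoc, E.hf2, mul_one]
            have hgt' : len f (e * d') < len f (e * d' * f c') := by
              rw [hz']; omega
            have hz1 : e * d' = 1 := by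
              by_contra hz1
              obtain ⟨y, hyY, z', -, hzy, hlz⟩ := E.exists_last _ (mul_mem he hd') hz1
              rw [Set.mem_insert_iff, Set.mem_singleton_iff] at hyY
              have hy : f y = f c ∨ f y = f c' := by
                by_cases hyc : y = c
                · exact Or.inl (congrArg f hyc)
                · by_cases hyc' : y = c'
                  · exact Or.inr (congrArg f hyc')
                  · exfalso
                    have hcc : c' = c := by
                      rcases hyY with h1 | h1 <;> rcases hcY with h2 | h2 <;>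
                        rcases hc'Y with h3 | h3 <;>
                        first
                          | exact absurd (h1.trans h2.symm) hyc
                          | exact absurd (h1.trans h3.symm) hyc'
                          | exact h3.trans h2.symm
                    exact hfc (congrArg f hcc)
              have hdesc : len f (e * d' * f y) < len f (e * d') := by
                have e2 : e * d' * f y = z' := by rw [hzy, mul_assoc, E.hf2, mul_one]
                rw [e2]; omega
              rcases hy with hy | hy
              · rw [hy] at hdesc; omega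
              · rw [hy] at hdesc; omega
            have hd'e : d' = e⁻¹ := eq_inv_of_mul_eq_one_right hz1
            have hlen_d' : len f d' = len f e := by rw [hd'e, E.len_inv]
            have hee := ih (len f e) (by omega) e he rfl
            have hee1 : e * e = 1 := E.len_eq_zero' (by omega)
            have he_inv : e⁻¹ = e := inv_eq_of_mul_eq_one_left hee1
            have e3 : d = e * f c := by rw [hdc, hd'e, he_inv]
            rw [e3] at hlen
            omega
        have h1 := E.lenR' c (e * d')
        rw [hedc]
        omega
  intro d hd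
  exact key _ d hd rfl

/-- (DL) -/
theorem dl (E : ES f Ps) (a b : ι) (v : W) (hva : len f (v * f a) < len f v)
    (hvb : len f (v * f b) < len f v) :
    ∀ d ∈ Subgroup.closure (f '' ({a, b} : Set ι)), len f (v * d) + len f d = len f v := by
  obtain ⟨m, e, he, hve, hm⟩ := E.exists_coset_min {a, b} v
  have hlen : ∀ x ∈ Subgroup.closure (f '' ({a, b} : Set ι)),
      len f (m * x) = len f m + len f x := fun x hx => E.add_len _ hm hx
  have ha : f a ∈ Subgroup.closure (f '' ({a, b} : Set ι)) := mem_gen _ (Set.mem_insert _ _)
  have hb : f b ∈ Subgroup.closure (f '' ({a, b} : Set ι)) :=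
    mem_gen _ (Set.mem_insert_of_mem _ rfl)
  have h2 := hlen e he
  rw [← hve] at h2
  have hea : len f (e * f a) < len f e := by
    have h1 := hlen (e * f a) (mul_mem he ha)
    rw [← mul_assoc, ← hve] at h1
    omega
  have heb : len f (e * f b) < len f e := by
    have h1 := hlen (e * f b) (mul_mem he hb)
    rw [← mul_assoc, ← hve] at h1
    omega
  intro d hd
  have h0 := E.dl0 a b e he hea heb d hd
  have h1 := hlen (e * d) (mul_mem he hd)
  rw [← mul_assoc, ← hve] at h1
  omega

/-- (M) -/
theorem all_desc (E : ES f Ps) (w : W) (hw : ∀ i, len f (w * f i) < len f w) :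
    ∀ x, len f (w * x) + len f x = len f w := by
  have key : ∀ n : ℕ, ∀ x, len f x = n → len f (w * x) + len f x = len f w := by
    intro n
    induction n using Nat.strong_induction_on with
    | _ n ih =>
      intro x hxn
      obtain ⟨l, hlR, hl⟩ := exists_isRed f E.hf2 E.hgen x
      rcases List.eq_nil_or_concat' l with rfl | ⟨t, b, rfl⟩
      · rw [wprod_nil] at hl
        rw [← hl, mul_one, len_one, add_zero]
      · rcases List.eq_nil_or_concat' t with rfl | ⟨t, a, rfl⟩
        · rw [List.nil_append, wprod_singleton] at hl
          have h1 := hw b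
          have h2 := E.lenR' b w
          rw [← hl, E.len_gen']
          omega
        · have htR : IsRed f t :=
            isRed_of_concat f E.hf2 E.hgen (isRed_of_concat f E.hf2 E.hgen hlR)
          have hx_len : len f x = t.length + 2 := by
            unfold IsRed at hlR
            rw [hl] at hlR
            rw [hlR]
            simp
          have hxt : x * f b * f a = wprod f t := by
            rw [← hl, wprod_append, wprod_append, wprod_singleton, wprod_singleton]
            simp only [mul_assoc]
            rw [mul_mul_cancel_gen f E.hf2, E.hf2, mul_one]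
          obtain ⟨y, d, hd, hxy, hy⟩ := E.exists_coset_min {a, b} x
          have hlen : ∀ z ∈ Subgroup.closure (f '' ({a, b} : Set ι)),
              len f (y * z) = len f y + len f z := fun z hz => E.add_len _ hy hz
          have ha : f a ∈ Subgroup.closure (f '' ({a, b} : Set ι)) :=
            mem_gen _ (Set.mem_insert _ _)
          have hb : f b ∈ Subgroup.closure (f '' ({a, b} : Set ι)) :=
            mem_gen _ (Set.mem_insert_of_mem _ rfl)
          have hy2 : len f y + 2 ≤ len f x := by
            have h1 := hlen (d * f b * f a) (mul_mem (mul_mem hd hb) ha)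
            have e : y * (d * f b * f a) = wprod f t := by
              rw [← hxt, hxy]; group
            rw [e] at h1
            have h2 : len f (wprod f t) = t.length := htR
            omega
          have hxlen : len f x = len f y + len f d := by
            rw [hxy]; exact hlen d hd
          have ihy := ih (len f y) (by omega) y rfl
          have hva : len f (w * y * f a) < len f (w * y) := by
            have h1 := hlen (f a) ha
            rw [E.len_gen'] at h1
            have h2 := ih (len f (y * f a)) (by omega) (y * f a) rfl
            rw [← mul_assoc] at h2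
            omega
          have hvb : len f (w * y * f b) < len f (w * y) := by
            have h1 := hlen (f b) hb
            rw [E.len_gen'] at h1
            have h2 := ih (len f (y * f b)) (by omega) (y * f b) rfl
            rw [← mul_assoc] at h2
            omega
          have h3 := E.dl a b (w * y) hva hvb d hd
          rw [mul_assoc, ← hxy] at h3
          omega
  intro x
  exact key _ x rfl

end ES

/-- **Piece WC of S2311**: the longest element of a finite exchange system. -/
theorem exists_longest [Finite W] (f : ι → W) (hf2 : ∀ i, f i * f i = 1) (hgen : Subgroup.closure (Set.range f) = ⊤) (Ps : ι → Set W) (hA : ∀ i, (1 : W) ∈ Ps i) (hB : ∀ i w, w ∈ Ps i → f i * w ∉ Ps i) (hC : ∀ i j w, w ∈ Ps i → w * f j ∉ Ps i → f i * w = w * f j) : ∃ w0 : W, (∀ i, len f (f i * w0) < len f w0) ∧ (∀ i, len f (w0 * f i) < len f w0) ∧ (∀ w, (∀ i, len f (f i * w) < len f w) → w = w0) ∧ (∀ w, (∀ i, len f (w * f i) < len f w) → w = w0) := by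
  have E : ES f Ps := ⟨hf2, hgen, hA, hB, hC⟩
  obtain ⟨w0, hmax⟩ := Finite.exists_max (fun w : W => len f w)
  have hR0 : ∀ i, len f (w0 * f i) < len f w0 := fun i => by
    have h1 := hmax (w0 * f i)
    have h2 := E.lenR_ne i w0
    omega
  have hL0 : ∀ i, len f (f i * w0) < len f w0 := fun i => by
    have h1 := hmax (f i * w0)
    have h2 := E.lenL_ne i w0
    omega
  have huniq : ∀ w, (∀ i, len f (w * f i) < len f w) → w = w0 := by
    intro w hw
    have h1 := E.all_desc w hw (w⁻¹ * w0)
    rw [mul_inv_cancel_left] at h1
    have h2 := hmax w
    have h3 : w⁻¹ * w0 = 1 := E.len_eq_zero' (by omega)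
    exact inv_mul_eq_one.1 h3
  have hinv0 : w0⁻¹ = w0 := huniq w0⁻¹ (fun i => by
    have h1 := hmax (w0⁻¹ * f i)
    have h2 := E.lenR_ne i w0⁻¹
    have h3 := E.len_inv w0
    omega)
  refine ⟨w0, hL0, hR0, ?_, huniq⟩
  intro w hw
  have h1 : w⁻¹ = w0 := huniq w⁻¹ (fun i => by
    have e : w⁻¹ * f i = (f i * w)⁻¹ := by rw [mul_inv_rev, inv_gen f hf2]
    rw [e, E.len_inv, E.len_inv]
    exact hw i)
  rw [← inv_inv w, h1, hinv0]

end Cfsg.Agent.H51.St
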