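import Cfsg.Agent.H45.UDefs

set_option autoImplicit false
set_option linter.unusedSimpArgs false
set_option linter.unusedSectionVars false

/-!
# Block-matrix lemmas for the unitary group in hyperbolic coordinates (helper51, for S2412)
-/

namespace Cfsg.Agent.H51.U

open Matrix Cfsg.Agent.H45.U

variable {F : Type*} [Field F] {m d : Type*} [Fintype m] [DecidableEq m] [Fintype d]
  [DecidableEq d]

theorem b3_mul (A₁₁ A₁₂ : Matrix m m F) (A₁₃ : Matrix m d F) (A₂₁ A₂₂ : Matrix m m F)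
    (A₂₃ : Matrix m d F) (A₃₁ A₃₂ : Matrix d m F) (A₃₃ : Matrix d d F)
    (B₁₁ B₁₂ : Matrix m m F) (B₁₃ : Matrix m d F) (B₂₁ B₂₂ : Matrix m m F)
    (B₂₃ : Matrix m d F) (B₃₁ B₃₂ : Matrix d m F) (B₃₃ : Matrix d d F) :
    blk3 A₁₁ A₁₂ A₁₃ A₂₁ A₂₂ A₂₃ A₃₁ A₃₂ A₃₃ * blk3 B₁₁ B₁₂ B₁₃ B₂₁ B₂₂ B₂₃ B₃₁ B₃₂ B₃₃ =
      blk3 (A₁₁ * B₁₁ + A₁₂ * B₂₁ + A₁₃ * B₃₁) (A₁₁ * B₁₂ + A₁₂ * B₂₂ + A₁₃ * B₃₂)
        (A₁₁ * B₁₃ + A₁₂ * B₂₃ + A₁₃ * B₃₃)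
        (A₂₁ * B₁₁ + A₂₂ * B₂₁ + A₂₃ * B₃₁) (A₂₁ * B₁₂ + A₂₂ * B₂₂ + A₂₃ * B₃₂)
        (A₂₁ * B₁₃ + A₂₂ * B₂₃ + A₂₃ * B₃₃)
        (A₃₁ * B₁₁ + A₃₂ * B₂₁ + A₃₃ * B₃₁) (A₃₁ * B₁₂ + A₃₂ * B₂₂ + A₃₃ * B₃₂)
        (A₃₁ * B₁₃ + A₃₂ * B₂₃ + A₃₃ * B₃₃) := by
  ext (i | i | i) (j | j | j) <;>
    simp [blk3, Matrix.mul_apply, Fintype.sum_sum_type, Matrix.add_apply, add_assoc]

theorem b3_ct (σ : F →+* F) (A₁₁ A₁₂ : Matrix m m F) (A₁₃ : Matrix m d F)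
    (A₂₁ A₂₂ : Matrix m m F) (A₂₃ : Matrix m d F) (A₃₁ A₃₂ : Matrix d m F)
    (A₃₃ : Matrix d d F) :
    ct σ (blk3 A₁₁ A₁₂ A₁₃ A₂₁ A₂₂ A₂₃ A₃₁ A₃₂ A₃₃) =
      blk3 (ct σ A₁₁) (ct σ A₂₁) (ct σ A₃₁) (ct σ A₁₂) (ct σ A₂₂) (ct σ A₃₂)
        (ct σ A₁₃) (ct σ A₂₃) (ct σ A₃₃) := by
  ext (i | i | i) (j | j | j) <;> simp [blk3, ct_apply]

theorem b3_one : blk3 (1 : Matrix m m F) 0 (0 : Matrix m d F) 0 1 0 0 0 (1 : Matrix d d F) = 1 := by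
  unfold blk3
  rw [fromCols_zero, fromRows_zero, fromBlocks_one, fromBlocks_one]

theorem hH_eq (σ : F →+* F) (u v : m ⊕ (m ⊕ d) → F) :
    hH σ u v = ((Hm : Matrix (m ⊕ (m ⊕ d)) (m ⊕ (m ⊕ d)) F) *ᵥ u) ⬝ᵥ (fun k => σ (v k)) := by
  simp [hH, Hm, blk3, dotProduct, Matrix.mulVec, Fintype.sum_sum_type, Matrix.one_apply]
  ring

theorem pres_of (σ : F →+* F) (M : Matrix (m ⊕ (m ⊕ d)) (m ⊕ (m ⊕ d)) F)
    (hM : ct σ M * Hm * M = Hm) (u v : m ⊕ (m ⊕ d) → F) :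
    hH σ (M *ᵥ u) (M *ᵥ v) = hH σ u v := by
  rw [hH_eq, hH_eq]
  have e1 : (fun k => σ ((M *ᵥ v) k)) = (M.map σ) *ᵥ (fun k => σ (v k)) := by
    funext k
    simp [Matrix.mulVec, dotProduct, map_sum, map_mul]
  rw [e1, Matrix.dotProduct_mulVec, ← Matrix.mulVec_transpose]
  show (ct σ M *ᵥ (Hm *ᵥ M *ᵥ u)) ⬝ᵥ _ = _
  rw [Matrix.mulVec_mulVec, Matrix.mulVec_mulVec, hM]

theorem det_eU (σ : F →+* F) (c : Matrix m d F) (S : Matrix m m F) : (eU σ c S).det = 1 := by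
  unfold eU blk3
  rw [fromRows_zero, det_fromBlocks_zero₂₁, det_fromBlocks_zero₁₂]
  simp

theorem b3_congr {A₁₁ A₁₂ : Matrix m m F} {A₁₃ : Matrix m d F} {A₂₁ A₂₂ : Matrix m m F}
    {A₂₃ : Matrix m d F} {A₃₁ A₃₂ : Matrix d m F} {A₃₃ : Matrix d d F}
    {B₁₁ B₁₂ : Matrix m m F} {B₁₃ : Matrix m d F} {B₂₁ B₂₂ : Matrix m m F}
    {B₂₃ : Matrix m d F} {B₃₁ B₃₂ : Matrix d m F} {B₃₃ : Matrix d d F}
    (h₁₁ : A₁₁ = B₁₁) (h₁₂ : A₁₂ = B₁₂) (h₁₃ : A₁₃ = B₁₃) (h₂₁ : A₂₁ = B₂₁) (h₂₂ : A₂₂ = B₂₂)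
    (h₂₃ : A₂₃ = B₂₃) (h₃₁ : A₃₁ = B₃₁) (h₃₂ : A₃₂ = B₃₂) (h₃₃ : A₃₃ = B₃₃) :
    blk3 A₁₁ A₁₂ A₁₃ A₂₁ A₂₂ A₂₃ A₃₁ A₃₂ A₃₃ = blk3 B₁₁ B₁₂ B₁₃ B₂₁ B₂₂ B₂₃ B₃₁ B₃₂ B₃₃ := by
  subst h₁₁ h₁₂ h₁₃ h₂₁ h₂₂ h₂₃ h₃₁ h₃₂ h₃₃
  rfl

/-! ### Unitarity of the basic elements -/

theorem eU_gram (σ : F →+* F) (hσ : ∀ a, σ (σ a) = a) (c : Matrix m d F) (S : Matrix m m F)
    (h : S + ct σ S + c * ct σ c = 0) : ct σ (eU σ c S) * Hm * eU σ c S = Hm := by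
  unfold eU Hm
  rw [b3_ct, b3_mul, b3_mul]
  simp only [ct_one, ct_zero, ct_neg, ct_ct σ hσ, Matrix.mul_zero, Matrix.zero_mul,
    Matrix.one_mul, Matrix.mul_one, Matrix.neg_mul, Matrix.mul_neg, add_zero, zero_add,
    neg_zero, neg_neg]
  rw [h, add_neg_cancel, add_neg_cancel]

theorem dU_gram (σ : F →+* F) (hσ : ∀ a, σ (σ a) = a) (A A' : Matrix m m F) (t : Matrix d d F)
    (hA' : A' * A = 1) (htt : ct σ t * t = 1) : ct σ (dU σ A A' t) * Hm * dU σ A A' t = Hm := by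
  unfold dU Hm
  rw [b3_ct, b3_mul, b3_mul]
  simp only [ct_one, ct_zero, ct_neg, ct_ct σ hσ, Matrix.mul_zero, Matrix.zero_mul,
    Matrix.one_mul, Matrix.mul_one, Matrix.neg_mul, Matrix.mul_neg, add_zero, zero_add,
    neg_zero, neg_neg]
  rw [← ct_mul, hA', ct_one, htt]

theorem nU_gram (σ : F →+* F) (hσ : ∀ a, σ (σ a) = a) (G G' : Matrix m m F) (ν : Matrix d d F)
    (hG' : G' * G = 1) (hνν : ct σ ν * ν = 1) : ct σ (nU σ G G' ν) * Hm * nU σ G G' ν = Hm := by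
  unfold nU Hm
  rw [b3_ct, b3_mul, b3_mul]
  simp only [ct_one, ct_zero, ct_neg, ct_ct σ hσ, Matrix.mul_zero, Matrix.zero_mul,
    Matrix.one_mul, Matrix.mul_one, Matrix.neg_mul, Matrix.mul_neg, add_zero, zero_add,
    neg_zero, neg_neg]
  rw [← ct_mul, hG', ct_one, hνν]

/-! ### The relations -/

theorem eU_zero (σ : F →+* F) : eU σ (0 : Matrix m d F) 0 = 1 := by
  unfold eU
  rw [ct_zero, neg_zero, b3_one]

/-- (R1) -/
theorem eU_mul (σ : F →+* F) (c c' : Matrix m d F) (S S' : Matrix m m F) :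
    eU σ c S * eU σ c' S' = eU σ (c + c') (S + S' - c * ct σ c') := by
  unfold eU
  rw [b3_mul]
  simp only [Matrix.mul_zero, Matrix.zero_mul, Matrix.one_mul, Matrix.mul_one, Matrix.neg_mul,
    Matrix.mul_neg, add_zero, zero_add, neg_zero, neg_neg]
  refine b3_congr rfl ?_ ?_ rfl rfl rfl rfl ?_ rfl
  · abel
  · abel
  · rw [ct_add]; abel

/-- (R2) -/
theorem dU_mul_eU (σ : F →+* F) (A A' : Matrix m m F) (t t' : Matrix d d F) (c : Matrix m d F)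
    (S : Matrix m m F) (hA' : A' * A = 1) (ht' : t' * t = 1) (htu : ct σ t' = t) :
    dU σ A A' t * eU σ c S = eU σ (A * c * t') (A * S * ct σ A) * dU σ A A' t := by
  unfold eU dU
  rw [b3_mul, b3_mul]
  simp only [Matrix.mul_zero, Matrix.zero_mul, Matrix.one_mul, Matrix.mul_one, Matrix.neg_mul,
    Matrix.mul_neg, add_zero, zero_add, neg_zero, neg_neg]
  refine b3_congr rfl ?_ ?_ rfl rfl rfl rfl ?_ rfl
  · rw [Matrix.mul_assoc (A * S), ← ct_mul, hA', ct_one, Matrix.mul_one]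
  · rw [Matrix.mul_assoc (A * c), ht', Matrix.mul_one]
  · rw [ct_mul, ct_mul, htu, Matrix.mul_assoc, Matrix.mul_assoc, ← ct_mul, hA', ct_one,
      Matrix.mul_one]

/-- (R3) -/
theorem nU_mul_eU (σ : F →+* F) (G G' : Matrix m m F) (ν ν' : Matrix d d F) (c : Matrix m d F)
    (S : Matrix m m F) (hG' : G' * G = 1) (hν' : ν' * ν = 1) (hνu : ct σ ν' = ν) :
    nU σ G G' ν * eU σ c S = eL σ (G * c * ν') (G * S * ct σ G) * nU σ G G' ν := by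
  unfold eU eL nU
  rw [b3_mul, b3_mul]
  simp only [Matrix.mul_zero, Matrix.zero_mul, Matrix.one_mul, Matrix.mul_one, Matrix.neg_mul,
    Matrix.mul_neg, add_zero, zero_add, neg_zero, neg_neg]
  refine b3_congr rfl rfl rfl rfl ?_ ?_ rfl ?_ rfl
  · rw [Matrix.mul_assoc (G * S), ← ct_mul, hG', ct_one, Matrix.mul_one]
  · rw [Matrix.mul_assoc (G * c), hν', Matrix.mul_one]
  · rw [ct_mul, ct_mul, hνu, Matrix.mul_assoc, Matrix.mul_assoc, ← ct_mul, hG', ct_one,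
      Matrix.mul_one]

theorem dU_mul_dU (σ : F →+* F) (A A' A₂ A₂' : Matrix m m F) (t t₂ : Matrix d d F) :
    dU σ A A' t * dU σ A₂ A₂' t₂ = dU σ (A * A₂) (A₂' * A') (t * t₂) := by
  unfold dU
  rw [b3_mul]
  simp only [Matrix.mul_zero, Matrix.zero_mul, Matrix.one_mul, Matrix.mul_one, Matrix.neg_mul,
    Matrix.mul_neg, add_zero, zero_add, neg_zero, neg_neg]
  rw [ct_mul]

theorem dU_one (σ : F →+* F) : dU σ (1 : Matrix m m F) 1 (1 : Matrix d d F) = 1 := by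
  unfold dU
  rw [ct_one, b3_one]

theorem dU_pow (σ : F →+* F) (B B' : Matrix m m F) (t : Matrix d d F) (q : ℕ) :
    dU σ B B' t ^ q = dU σ (B ^ q) (B' ^ q) (t ^ q) := by
  induction q with
  | zero => simp only [pow_zero]; exact (dU_one σ).symm
  | succ q ih => rw [pow_succ, ih, dU_mul_dU, ← pow_succ, ← pow_succ, ← pow_succ']

/-- (R4) -/
theorem dU_nU_dU (σ : F →+* F) (A A' B B' G G' : Matrix m m F) (s t ν : Matrix d d F)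
    (h1 : ct σ A' * G * B = G) (h2 : A * ct σ G' * ct σ B' = ct σ G') (h3 : s * ν * t = ν) :
    dU σ A A' s * nU σ G G' ν * dU σ B B' t = nU σ G G' ν := by
  unfold dU nU
  rw [b3_mul, b3_mul]
  simp only [Matrix.mul_zero, Matrix.zero_mul, Matrix.one_mul, Matrix.mul_one, Matrix.neg_mul,
    Matrix.mul_neg, add_zero, zero_add, neg_zero, neg_neg]
  rw [h1, h2, h3]

/-! ### Unitary pairs -/

theorem pair_mul (σ : F →+* F) (hσ : ∀ a, σ (σ a) = a) {c c' : Matrix m d F}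
    {S S' : Matrix m m F} (h : S + ct σ S + c * ct σ c = 0)
    (h' : S' + ct σ S' + c' * ct σ c' = 0) :
    (S + S' - c * ct σ c') + ct σ (S + S' - c * ct σ c') + (c + c') * ct σ (c + c') = 0 := by
  rw [ct_sub, ct_add, ct_mul, ct_ct σ hσ, ct_add, Matrix.add_mul, Matrix.mul_add,
    Matrix.mul_add]
  have e : S + S' - c * ct σ c' + (ct σ S + ct σ S' - c' * ct σ c) +
      (c * ct σ c + c * ct σ c' + (c' * ct σ c + c' * ct σ c')) =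
      (S + ct σ S + c * ct σ c) + (S' + ct σ S' + c' * ct σ c') := by abel
  rw [e, h, h', add_zero]

theorem pair_inv (σ : F →+* F) (hσ : ∀ a, σ (σ a) = a) {c : Matrix m d F}
    {S : Matrix m m F} (h : S + ct σ S + c * ct σ c = 0) :
    ct σ S + ct σ (ct σ S) + (-c) * ct σ (-c) = 0 := by
  rw [ct_ct σ hσ, ct_neg, Matrix.neg_mul, Matrix.mul_neg, neg_neg, ← h]
  abel

theorem pair_conj (σ : F →+* F) (hσ : ∀ a, σ (σ a) = a) {c : Matrix m d F}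
    {S : Matrix m m F} (h : S + ct σ S + c * ct σ c = 0) (A : Matrix m m F)
    (t' : Matrix d d F) (htt : t' * ct σ t' = 1) :
    A * S * ct σ A + ct σ (A * S * ct σ A) + (A * c * t') * ct σ (A * c * t') = 0 := by
  have e : A * S * ct σ A + ct σ (A * S * ct σ A) + (A * c * t') * ct σ (A * c * t') =
      A * (S + ct σ S + c * ct σ c) * ct σ A := by
    rw [ct_mul σ (A * S), ct_mul σ A S, ct_ct σ hσ, ct_mul σ (A * c), ct_mul σ A c]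
    have e2 : A * c * t' * (ct σ t' * (ct σ c * ct σ A)) = A * (c * ct σ c) * ct σ A := by
      rw [Matrix.mul_assoc (A * c), ← Matrix.mul_assoc t', htt, Matrix.one_mul]
      simp only [Matrix.mul_assoc]
    rw [e2, Matrix.mul_add, Matrix.mul_add, Matrix.add_mul, Matrix.add_mul,
      Matrix.mul_assoc A (ct σ S)]
  rw [e, h, Matrix.mul_zero, Matrix.zero_mul]

end Cfsg.Agent.H51.U
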