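import Cfsg.Agent.H51.UBlk

set_option autoImplicit false
set_option linter.unusedSimpArgs false
set_option linter.unusedSectionVars false

/-!
# S2412, pieces AB and C (helper51 for helper45): two generators of the unitary group
-/

namespace Cfsg.Agent.H51.U

open Matrix Cfsg.Agent.H45.U

variable {F : Type*} [Field F] {m d : Type*} [Fintype m] [DecidableEq m] [Fintype d]
  [DecidableEq d]

theorem uh_ext {σ : F →+* F} {g h : ↥(UH σ m d)} (e : g.1.1 = h.1.1) : g = h :=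
  Subtype.ext (Subtype.ext e)

theorem uh_mul {σ : F →+* F} (g h : ↥(UH σ m d)) : (g * h).1.1 = g.1.1 * h.1.1 := rfl

theorem uh_one {σ : F →+* F} : (1 : ↥(UH σ m d)).1.1 = 1 := rfl

theorem uh_pow {σ : F →+* F} (g : ↥(UH σ m d)) (q : ℕ) : (g ^ q).1.1 = g.1.1 ^ q := by
  induction q with
  | zero => rfl
  | succ q ih => rw [pow_succ, pow_succ, uh_mul, ih]

/-- an element of `UH` from its matrix. -/
def mkU (σ : F →+* F) (M : Matrix (m ⊕ (m ⊕ d)) (m ⊕ (m ⊕ d)) F) (hdet : M.det = 1)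
    (hM : ct σ M * Hm * M = Hm) : ↥(UH σ m d) :=
  ⟨⟨M, hdet⟩, fun u v => pres_of σ M hM u v⟩

theorem mkU_coe (σ : F →+* F) (M : Matrix (m ⊕ (m ⊕ d)) (m ⊕ (m ⊕ d)) F) (hdet : M.det = 1)
    (hM : ct σ M * Hm * M = Hm) : (mkU σ M hdet hM).1.1 = M := rfl

theorem mat_cancel_right {σ : F →+* F} (a : ↥(UH σ m d))
    {M N : Matrix (m ⊕ (m ⊕ d)) (m ⊕ (m ⊕ d)) F} (h : M * a.1.1 = N * a.1.1) : M = N := by
  have e : a.1.1 * (a⁻¹).1.1 = 1 := by rw [← uh_mul, mul_inv_cancel, uh_one]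
  calc M = M * (a.1.1 * (a⁻¹).1.1) := by rw [e, mul_one]
    _ = N * (a.1.1 * (a⁻¹).1.1) := by rw [← mul_assoc, h, mul_assoc]
    _ = N := by rw [e, mul_one]

/-- the element with matrix `eU σ c S`. -/
def mkE (σ : F →+* F) (hσ : ∀ a, σ (σ a) = a) (c : Matrix m d F) (S : Matrix m m F)
    (h : S + ct σ S + c * ct σ c = 0) : ↥(UH σ m d) :=
  mkU σ (eU σ c S) (det_eU σ c S) (eU_gram σ hσ c S h)

theorem mkE_coe (σ : F →+* F) (hσ : ∀ a, σ (σ a) = a) (c : Matrix m d F) (S : Matrix m m F)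
    (h : S + ct σ S + c * ct σ c = 0) : (mkE σ hσ c S h).1.1 = eU σ c S := rfl

theorem inv_eU {σ : F →+* F} (hσ : ∀ a, σ (σ a) = a) (g : ↥(UH σ m d)) (c : Matrix m d F)
    (S : Matrix m m F) (hg : g.1.1 = eU σ c S) (h : S + ct σ S + c * ct σ c = 0) :
    (g⁻¹).1.1 = eU σ (-c) (ct σ S) := by
  have e : g * mkE σ hσ (-c) (ct σ S) (pair_inv σ hσ h) = 1 := by
    apply uh_ext
    rw [uh_mul, hg, mkE_coe, eU_mul, uh_one, add_neg_cancel, ct_neg, Matrix.mul_neg,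
      sub_neg_eq_add, h, eU_zero]
  rw [inv_eq_of_mul_eq_one_right e]
  rfl

/-- two elements with the same `c`-part differ by a central element. -/
theorem div_eU {σ : F →+* F} (hσ : ∀ a, σ (σ a) = a) (g₁ g₂ : ↥(UH σ m d)) (c : Matrix m d F)
    (T₁ T₂ : Matrix m m F) (h₁ : g₁.1.1 = eU σ c T₁) (h₂ : g₂.1.1 = eU σ c T₂)
    (hT₂ : T₂ + ct σ T₂ + c * ct σ c = 0) : (g₁ * g₂⁻¹).1.1 = eU σ 0 (T₁ - T₂) := by
  rw [uh_mul, h₁, inv_eU hσ g₂ c T₂ h₂ hT₂, eU_mul, add_neg_cancel, ct_neg, Matrix.mul_neg,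
    sub_neg_eq_add]
  congr 1
  have : ct σ T₂ + c * ct σ c = -T₂ := by
    rw [eq_neg_iff_add_eq_zero, ← hT₂]; abel
  rw [add_assoc, this, sub_eq_add_neg]

/-- the standing data of pieces AB and C. -/
structure Dat (σ : F →+* F) (q : ℕ) (B B' G G' : Matrix m m F) (t t' ν ν' : Matrix d d F)
    (c₀ : Matrix m d F) (S₀ : Matrix m m F) : Prop where
  hσ : ∀ a, σ (σ a) = a
  hB : B * B' = 1
  hB' : B' * B = 1
  hG : G * G' = 1
  hG' : G' * G = 1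
  ht : t * t' = 1
  ht' : t' * t = 1
  htu : ct σ t' = t
  hν : ν * ν' = 1
  hν' : ν' * ν = 1
  hνu : ct σ ν' = ν
  hGB : G * B = ct σ (B ^ q) * G
  htν : t ^ q * ν * t = ν
  hdeta : (dU σ B B' t).det = 1
  hdetn : (nU σ G G' ν).det = 1
  hS₀ : S₀ + ct σ S₀ + c₀ * ct σ c₀ = 0

namespace Dat

variable {σ : F →+* F} {q : ℕ} {B B' G G' : Matrix m m F} {t t' ν ν' : Matrix d d F}
  {c₀ : Matrix m d F} {S₀ : Matrix m m F}

theorem ct_t (D : Dat σ q B B' G G' t t' ν ν' c₀ S₀) : ct σ t = t' := by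
  rw [← D.htu, ct_ct σ D.hσ]

theorem ct_ν (D : Dat σ q B B' G G' t t' ν ν' c₀ S₀) : ct σ ν = ν' := by
  rw [← D.hνu, ct_ct σ D.hσ]

/-- the torus element. -/
def a (D : Dat σ q B B' G G' t t' ν ν' c₀ S₀) : ↥(UH σ m d) :=
  mkU σ (dU σ B B' t) D.hdeta (dU_gram σ D.hσ B B' t D.hB' (by rw [D.ct_t, D.ht']))

/-- the Weyl element. -/
def n (D : Dat σ q B B' G G' t t' ν ν' c₀ S₀) : ↥(UH σ m d) :=
  mkU σ (nU σ G G' ν) D.hdetn (nU_gram σ D.hσ G G' ν D.hG' (by rw [D.ct_ν, D.hν']))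

/-- the unipotent element. -/
def g₀ (D : Dat σ q B B' G G' t t' ν ν' c₀ S₀) : ↥(UH σ m d) :=
  mkE σ D.hσ c₀ S₀ D.hS₀

/-- the second generator. -/
def b (D : Dat σ q B B' G G' t t' ν ν' c₀ S₀) : ↥(UH σ m d) := D.g₀ * D.n

theorem a_coe (D : Dat σ q B B' G G' t t' ν ν' c₀ S₀) : D.a.1.1 = dU σ B B' t := rfl

theorem n_coe (D : Dat σ q B B' G G' t t' ν ν' c₀ S₀) : D.n.1.1 = nU σ G G' ν := rfl

theorem g₀_coe (D : Dat σ q B B' G G' t t' ν ν' c₀ S₀) : D.g₀.1.1 = eU σ c₀ S₀ := rfl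

theorem conj_a (D : Dat σ q B B' G G' t t' ν ν' c₀ S₀) (g : ↥(UH σ m d)) (c : Matrix m d F)
    (S : Matrix m m F) (hg : g.1.1 = eU σ c S) :
    (D.a * g * D.a⁻¹).1.1 = eU σ (B * c * t') (B * S * ct σ B) := by
  apply mat_cancel_right D.a
  rw [← uh_mul, inv_mul_cancel_right, uh_mul, hg, a_coe,
    dU_mul_eU σ B B' t t' c S D.hB' D.ht' D.htu]

theorem pow_inv_B (D : Dat σ q B B' G G' t t' ν ν' c₀ S₀) (k : ℕ) : B' ^ k * B ^ k = 1 := by
  have hc : Commute B' B := by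
    show B' * B = B * B'
    rw [D.hB, D.hB']
  rw [← hc.mul_pow, D.hB', one_pow]

theorem pow_B_inv (D : Dat σ q B B' G G' t t' ν ν' c₀ S₀) (k : ℕ) : B ^ k * B' ^ k = 1 := by
  have hc : Commute B B' := by
    show B * B' = B' * B
    rw [D.hB, D.hB']
  rw [← hc.mul_pow, D.hB, one_pow]

theorem pow_inv_t (D : Dat σ q B B' G G' t t' ν ν' c₀ S₀) (k : ℕ) : t' ^ k * t ^ k = 1 := by
  have hc : Commute t' t := by
    show t' * t = t * t'
    rw [D.ht, D.ht']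
  rw [← hc.mul_pow, D.ht', one_pow]

theorem conj_aq (D : Dat σ q B B' G G' t t' ν ν' c₀ S₀) (k : ℕ) (g : ↥(UH σ m d))
    (c : Matrix m d F) (S : Matrix m m F) (hg : g.1.1 = eU σ c S) :
    (D.a ^ k * g * (D.a ^ k)⁻¹).1.1 = eU σ (B ^ k * c * t' ^ k) (B ^ k * S * ct σ (B ^ k)) := by
  apply mat_cancel_right (D.a ^ k)
  rw [← uh_mul, inv_mul_cancel_right, uh_mul, hg, uh_pow, a_coe, dU_pow,
    dU_mul_eU σ (B ^ k) (B' ^ k) (t ^ k) (t' ^ k) c S (D.pow_inv_B k) (D.pow_inv_t k)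
      (by rw [ct_pow, D.htu])]

theorem conj_n (D : Dat σ q B B' G G' t t' ν ν' c₀ S₀) (g : ↥(UH σ m d)) (c : Matrix m d F)
    (S : Matrix m m F) (hg : g.1.1 = eU σ c S) :
    (D.n * g * D.n⁻¹).1.1 = eL σ (G * c * ν') (G * S * ct σ G) := by
  apply mat_cancel_right D.n
  rw [← uh_mul, inv_mul_cancel_right, uh_mul, hg, n_coe,
    nU_mul_eU σ G G' ν ν' c S D.hG' D.hν' D.hνu]

theorem rel4 (D : Dat σ q B B' G G' t t' ν ν' c₀ S₀) : D.a ^ q * D.n * D.a = D.n := by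
  apply uh_ext
  rw [uh_mul, uh_mul, uh_pow, a_coe, n_coe, dU_pow]
  apply dU_nU_dU
  · rw [Matrix.mul_assoc, D.hGB, ← Matrix.mul_assoc, ← ct_mul, D.pow_B_inv, ct_one,
      Matrix.one_mul]
  · have e : G' * ct σ (B ^ q) = B * G' := by
      calc G' * ct σ (B ^ q) = G' * (ct σ (B ^ q) * G) * G' := by
            rw [Matrix.mul_assoc, Matrix.mul_assoc, D.hG, Matrix.mul_one]
        _ = G' * (G * B) * G' := by rw [D.hGB]
        _ = B * G' := by rw [← Matrix.mul_assoc, D.hG', Matrix.one_mul]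
    calc B ^ q * ct σ G' * ct σ B' = ct σ (B' * (G' * ct σ (B ^ q))) := by
          rw [ct_mul, ct_mul, ct_ct σ D.hσ]
      _ = ct σ G' := by rw [e, ← Matrix.mul_assoc, D.hB', Matrix.one_mul]
  · exact D.htν

theorem g1_eq (D : Dat σ q B B' G G' t t' ν ν' c₀ S₀) :
    D.a ^ q * (D.b * D.a * D.b⁻¹) = (D.a ^ q * D.g₀ * (D.a ^ q)⁻¹) * D.g₀⁻¹ := by
  have h : D.n * D.a = (D.a ^ q)⁻¹ * D.n := by
    rw [eq_inv_mul_iff_mul_eq, ← mul_assoc]
    exact D.rel4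
  have e : D.b * D.a * D.b⁻¹ = D.g₀ * (D.n * D.a) * D.n⁻¹ * D.g₀⁻¹ := by
    unfold b; group
  rw [e, h]
  group

theorem g1_pair (D : Dat σ q B B' G G' t t' ν ν' c₀ S₀) :
    (B ^ q * S₀ * ct σ (B ^ q) + ct σ S₀ - (B ^ q * c₀ * t' ^ q) * ct σ (-c₀)) +
      ct σ (B ^ q * S₀ * ct σ (B ^ q) + ct σ S₀ - (B ^ q * c₀ * t' ^ q) * ct σ (-c₀)) +
      (B ^ q * c₀ * t' ^ q + -c₀) * ct σ (B ^ q * c₀ * t' ^ q + -c₀) = 0 :=
  pair_mul σ D.hσ (pair_conj σ D.hσ D.hS₀ (B ^ q) (t' ^ q) (by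
    rw [ct_pow, D.htu, D.pow_inv_t])) (pair_inv σ D.hσ D.hS₀)

theorem g1_coe (D : Dat σ q B B' G G' t t' ν ν' c₀ S₀) :
    (D.a ^ q * (D.b * D.a * D.b⁻¹)).1.1 = eU σ (B ^ q * c₀ * t' ^ q + -c₀)
      (B ^ q * S₀ * ct σ (B ^ q) + ct σ S₀ - (B ^ q * c₀ * t' ^ q) * ct σ (-c₀)) := by
  rw [D.g1_eq, uh_mul, D.conj_aq q D.g₀ c₀ S₀ rfl, inv_eU D.hσ D.g₀ c₀ S₀ rfl D.hS₀, eU_mul]

/-- Steps 5 and 6. -/
theorem top_of_Qin (D : Dat σ q B B' G G' t t' ν ν' c₀ S₀)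
    (hgen : ∀ K : Subgroup ↥(UH σ m d), Qin σ K → Qlow σ K → K = ⊤)
    (K : Subgroup ↥(UH σ m d)) (ha : D.a ∈ K) (hb : D.b ∈ K) (hQ : Qin σ K) : K = ⊤ := by
  have hg₀ : D.g₀ ∈ K := hQ D.g₀ c₀ S₀ D.hS₀ rfl
  have hn : D.n ∈ K := by
    have : D.n = D.g₀⁻¹ * D.b := by unfold b; group
    rw [this]
    exact K.mul_mem (K.inv_mem hg₀) hb
  apply hgen K hQ
  intro g c S h hg
  have hp : (G' * S * ct σ G') + ct σ (G' * S * ct σ G') + (G' * c * ν) * ct σ (G' * c * ν) = 0 :=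
    pair_conj σ D.hσ h G' ν (by rw [D.ct_ν, D.hν])
  have he₂ : mkE σ D.hσ (G' * c * ν) (G' * S * ct σ G') hp ∈ K := hQ _ _ _ hp rfl
  have : g = D.n * mkE σ D.hσ (G' * c * ν) (G' * S * ct σ G') hp * D.n⁻¹ := by
    apply uh_ext
    rw [D.conj_n _ _ _ rfl, hg]
    congr 1
    · rw [← Matrix.mul_assoc, ← Matrix.mul_assoc, D.hG, Matrix.one_mul, Matrix.mul_assoc, D.hν,
        Matrix.mul_one]
    · rw [← Matrix.mul_assoc, ← Matrix.mul_assoc, D.hG, Matrix.one_mul, Matrix.mul_assoc,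
        ← ct_mul, D.hG, ct_one, Matrix.mul_one]
  rw [this]
  exact K.mul_mem (K.mul_mem hn he₂) (K.inv_mem hn)

end Dat


/-- the `c`-parts realised in `K`. -/
def Xset (σ : F →+* F) (hσ : ∀ a, σ (σ a) = a) (K : Subgroup ↥(UH σ m d)) :
    AddSubgroup (Matrix m d F) where
  carrier := {c | ∃ S, S + ct σ S + c * ct σ c = 0 ∧ ∃ g ∈ K, g.1.1 = eU σ c S}
  zero_mem' := ⟨0, by rw [ct_zero, Matrix.zero_mul, add_zero, add_zero], 1, K.one_mem,
    by rw [uh_one, eU_zero]⟩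
  add_mem' := by
    rintro c c' ⟨S, h, g, hgK, hg⟩ ⟨S', h', g', hgK', hg'⟩
    exact ⟨S + S' - c * ct σ c', pair_mul σ hσ h h', g * g', K.mul_mem hgK hgK',
      by rw [uh_mul, hg, hg', eU_mul]⟩
  neg_mem' := by
    rintro c ⟨S, h, g, hgK, hg⟩
    exact ⟨ct σ S, pair_inv σ hσ h, g⁻¹, K.inv_mem hgK, inv_eU hσ g c S hg h⟩

/-- the central parts realised in `K`. -/
def Zset (σ : F →+* F) (hσ : ∀ a, σ (σ a) = a) (K : Subgroup ↥(UH σ m d)) :
    AddSubgroup (Matrix m m F) where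
  carrier := {Z | Z + ct σ Z = 0 ∧ ∃ g ∈ K, g.1.1 = eU σ (0 : Matrix m d F) Z}
  zero_mem' := ⟨by rw [ct_zero, add_zero], 1, K.one_mem, by rw [uh_one, eU_zero]⟩
  add_mem' := by
    rintro Z Z' ⟨h, g, hgK, hg⟩ ⟨h', g', hgK', hg'⟩
    refine ⟨?_, g * g', K.mul_mem hgK hgK', ?_⟩
    · rw [ct_add]
      have : Z + Z' + (ct σ Z + ct σ Z') = (Z + ct σ Z) + (Z' + ct σ Z') := by abel
      rw [this, h, h', add_zero]
    · rw [uh_mul, hg, hg', eU_mul, add_zero, Matrix.zero_mul, sub_zero]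
  neg_mem' := by
    rintro Z ⟨h, g, hgK, hg⟩
    refine ⟨?_, g⁻¹, K.inv_mem hgK, ?_⟩
    · rw [ct_neg, ← neg_add, h, neg_zero]
    · have h0 : Z + ct σ Z + (0 : Matrix m d F) * ct σ (0 : Matrix m d F) = 0 := by
        rw [Matrix.zero_mul, add_zero, h]
      rw [inv_eU hσ g 0 Z hg h0, neg_zero]
      congr 1
      exact eq_neg_of_add_eq_zero_right h

theorem mem_Zset_of_X (σ : F →+* F) (hσ : ∀ a, σ (σ a) = a) (K : Subgroup ↥(UH σ m d))
    {c c' : Matrix m d F} (hc : c ∈ Xset σ hσ K) (hc' : c' ∈ Xset σ hσ K) :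
    c' * ct σ c - c * ct σ c' ∈ Zset σ hσ K := by
  obtain ⟨S, h, g, hgK, hg⟩ := hc
  obtain ⟨S', h', g', hgK', hg'⟩ := hc'
  have e1 : (g * g').1.1 = eU σ (c + c') (S + S' - c * ct σ c') := by
    rw [uh_mul, hg, hg', eU_mul]
  have e2 : (g' * g).1.1 = eU σ (c + c') (S' + S - c' * ct σ c) := by
    rw [uh_mul, hg', hg, eU_mul, add_comm c' c]
  have p2 : (S' + S - c' * ct σ c) + ct σ (S' + S - c' * ct σ c) +
      (c + c') * ct σ (c + c') = 0 := by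
    have := pair_mul σ hσ h' h
    rwa [add_comm c' c] at this
  have e3 := div_eU hσ (g * g') (g' * g) (c + c') _ _ e1 e2 p2
  refine ⟨?_, (g * g') * (g' * g)⁻¹,
    K.mul_mem (K.mul_mem hgK hgK') (K.inv_mem (K.mul_mem hgK' hgK)), ?_⟩
  · rw [ct_sub, ct_mul, ct_mul, ct_ct σ hσ, ct_ct σ hσ]; abel
  · rw [e3]; congr 1; abel

theorem ct_single (σ : F →+* F) (i : m) (j : d) (z : F) :
    ct σ (Matrix.single i j z) = Matrix.single j i (σ z) := by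
  ext a b
  rw [ct_apply, Matrix.single_apply, Matrix.single_apply]
  by_cases h : i = b ∧ j = a
  · rw [if_pos h, if_pos ⟨h.2, h.1⟩]
  · rw [if_neg h, if_neg (fun h' => h ⟨h'.2, h'.1⟩), map_zero]

theorem ct_single' (σ : F →+* F) (i j : m) (z : F) :
    ct σ (Matrix.single i j z) = Matrix.single j i (σ z) := by
  ext a b
  rw [ct_apply, Matrix.single_apply, Matrix.single_apply]
  by_cases h : i = b ∧ j = a
  · rw [if_pos h, if_pos ⟨h.2, h.1⟩]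
  · rw [if_neg h, if_neg (fun h' => h ⟨h'.2, h'.1⟩), map_zero]

theorem skew_decomp (σ : F →+* F) (hsub : ∀ c : F, σ c = -c → ∃ l : F, l - σ l = c)
    (Z : Matrix m m F) (hZ : Z + ct σ Z = 0) : ∃ Y : Matrix m m F, Z = Y - ct σ Y := by
  classical
  let _ : LinearOrder m := LinearOrder.lift' (Fintype.equivFin m) (Fintype.equivFin m).injective
  have hZij : ∀ i j, Z i j + σ (Z j i) = 0 := by
    intro i j
    have := congrFun (congrFun hZ i) j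
    rwa [Matrix.add_apply, ct_apply, Matrix.zero_apply] at this
  have hl : ∀ i, ∃ l, l - σ l = Z i i := fun i =>
    hsub (Z i i) (eq_neg_of_add_eq_zero_right (hZij i i))
  choose lam hlam using hl
  refine ⟨Matrix.of fun i j => if i < j then Z i j else if i = j then lam i else 0, ?_⟩
  ext i j
  rw [Matrix.sub_apply, ct_apply, Matrix.of_apply, Matrix.of_apply]
  rcases lt_trichotomy i j with h | h | h
  · rw [if_pos h, if_neg (not_lt.2 h.le), if_neg h.ne', map_zero, sub_zero]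
  · subst h
    rw [if_neg (lt_irrefl i), if_pos rfl, hlam]
  · rw [if_neg (not_lt.2 h.le), if_neg h.ne', if_pos h, zero_sub]
    exact eq_neg_of_add_eq_zero_left (hZij i j)

theorem Zset_all (σ : F →+* F) (hσ : ∀ a, σ (σ a) = a) (K : Subgroup ↥(UH σ m d))
    [Nonempty d] (hsub : ∀ c : F, σ c = -c → ∃ l : F, l - σ l = c)
    (hX : Xset σ hσ K = ⊤) (Z : Matrix m m F) (hZ : Z + ct σ Z = 0) : Z ∈ Zset σ hσ K := by
  have step : ∀ Y : Matrix m m F, Y - ct σ Y ∈ Zset σ hσ K := by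
    intro Y
    induction Y using Matrix.induction_on' with
    | h_zero =>
      rw [ct_zero, sub_zero]
      exact (Zset σ hσ K).zero_mem
    | h_add p q hp hq =>
      have : p + q - ct σ (p + q) = (p - ct σ p) + (q - ct σ q) := by rw [ct_add]; abel
      rw [this]
      exact add_mem hp hq
    | h_std_basis i j z =>
      obtain ⟨l₀⟩ := ‹Nonempty d›
      have h1 : Matrix.single j l₀ (1 : F) ∈ Xset σ hσ K := by rw [hX]; trivial
      have h2 : Matrix.single i l₀ z ∈ Xset σ hσ K := by rw [hX]; trivial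
      have h3 := mem_Zset_of_X σ hσ K h1 h2
      rw [ct_single, ct_single, Matrix.single_mul_single_same, Matrix.single_mul_single_same,
        map_one, mul_one, one_mul] at h3
      rw [ct_single']
      exact h3
  obtain ⟨Y, rfl⟩ := skew_decomp σ hsub Z hZ
  exact step Y

theorem Qin_of_XZ (σ : F →+* F) (hσ : ∀ a, σ (σ a) = a) (K : Subgroup ↥(UH σ m d))
    (hX : Xset σ hσ K = ⊤) (hZ : ∀ Z : Matrix m m F, Z + ct σ Z = 0 → Z ∈ Zset σ hσ K) :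
    Qin σ K := by
  intro g c S h hg
  have hc : c ∈ Xset σ hσ K := by rw [hX]; trivial
  obtain ⟨S_c, hSc, g_c, hgcK, hgc⟩ := hc
  have hsk : (S - S_c) + ct σ (S - S_c) = 0 := by
    rw [ct_sub]
    have : S - S_c + (ct σ S - ct σ S_c) =
        (S + ct σ S + c * ct σ c) - (S_c + ct σ S_c + c * ct σ c) := by abel
    rw [this, h, hSc, sub_zero]
  obtain ⟨-, g_z, hgzK, hgz⟩ := hZ _ hsk
  have : g = g_z * g_c := by
    apply uh_ext
    rw [uh_mul, hgz, hgc, eU_mul, hg, zero_add, Matrix.zero_mul, sub_zero, sub_add_cancel]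
  rw [this]
  exact K.mul_mem hgzK hgcK

/-- **Piece AB of S2412**: two generators when `d ≠ ∅`. -/
theorem two_gen_AB (σ : F →+* F) (hσ : ∀ a, σ (σ a) = a) [Nonempty d]
    (hsub : ∀ c : F, σ c = -c → ∃ l : F, l - σ l = c)
    (hgen : ∀ K : Subgroup ↥(UH σ m d), Qin σ K → Qlow σ K → K = ⊤)
    (q : ℕ) (B B' G G' : Matrix m m F) (t t' ν ν' : Matrix d d F) (c₀ : Matrix m d F)
    (S₀ : Matrix m m F)
    (hB : B * B' = 1) (hB' : B' * B = 1) (hG : G * G' = 1) (hG' : G' * G = 1)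
    (ht : t * t' = 1) (ht' : t' * t = 1) (htu : ct σ t' = t)
    (hν : ν * ν' = 1) (hν' : ν' * ν = 1) (hνu : ct σ ν' = ν)
    (hGB : G * B = ct σ (B ^ q) * G) (htν : t ^ q * ν * t = ν)
    (hdeta : (dU σ B B' t).det = 1) (hdetn : (nU σ G G' ν).det = 1)
    (hS₀ : S₀ + ct σ S₀ + c₀ * ct σ c₀ = 0)
    (hXP : ∀ X : AddSubgroup (Matrix m d F), (∀ c ∈ X, B * c * t' ∈ X) →
        B ^ q * c₀ * t' ^ q - c₀ ∈ X → X = ⊤) :
    ∃ a b : ↥(UH σ m d), Subgroup.closure {a, b} = ⊤ := by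
  have D : Dat σ q B B' G G' t t' ν ν' c₀ S₀ :=
    ⟨hσ, hB, hB', hG, hG', ht, ht', htu, hν, hν', hνu, hGB, htν, hdeta, hdetn, hS₀⟩
  refine ⟨D.a, D.b, ?_⟩
  have ha : D.a ∈ Subgroup.closure {D.a, D.b} := Subgroup.subset_closure (Set.mem_insert _ _)
  have hb : D.b ∈ Subgroup.closure {D.a, D.b} :=
    Subgroup.subset_closure (Set.mem_insert_of_mem _ rfl)
  apply D.top_of_Qin hgen _ ha hb
  have hX : Xset σ hσ (Subgroup.closure {D.a, D.b}) = ⊤ := by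
    apply hXP
    · rintro c ⟨S, h, g, hgK, hg⟩
      exact ⟨B * S * ct σ B, pair_conj σ hσ h B t' (by rw [htu, ht']), D.a * g * D.a⁻¹,
        Subgroup.mul_mem _ (Subgroup.mul_mem _ ha hgK) (Subgroup.inv_mem _ ha),
        D.conj_a g c S hg⟩
    · have e : B ^ q * c₀ * t' ^ q - c₀ = B ^ q * c₀ * t' ^ q + -c₀ := sub_eq_add_neg _ _
      rw [e]
      exact ⟨_, D.g1_pair, _, Subgroup.mul_mem _ (Subgroup.pow_mem _ ha q)
        (Subgroup.mul_mem _ (Subgroup.mul_mem _ hb ha) (Subgroup.inv_mem _ hb)), D.g1_coe⟩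
  exact Qin_of_XZ σ hσ _ hX (Zset_all σ hσ _ hsub hX)

/-- **Piece C of S2412**: two generators when `d = ∅`. -/
theorem two_gen_C (σ : F →+* F) (hσ : ∀ a, σ (σ a) = a) [IsEmpty d]
    (hgen : ∀ K : Subgroup ↥(UH σ m d), Qin σ K → Qlow σ K → K = ⊤)
    (q : ℕ) (A A' G G' S₀ : Matrix m m F)
    (hA : A * A' = 1) (hA' : A' * A = 1) (hG : G * G' = 1) (hG' : G' * G = 1)
    (hGA : G * A = ct σ (A ^ q) * G)
    (hdeta : (dU σ A A' (1 : Matrix d d F)).det = 1)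
    (hdetn : (nU σ G G' (1 : Matrix d d F)).det = 1)
    (hS₀ : S₀ + ct σ S₀ = 0)
    (hZP : ∀ X : AddSubgroup (Matrix m m F), (∀ S ∈ X, A * S * ct σ A ∈ X) →
        A ^ q * S₀ * ct σ (A ^ q) - S₀ ∈ X → ∀ S, S + ct σ S = 0 → S ∈ X) :
    ∃ a b : ↥(UH σ m d), Subgroup.closure {a, b} = ⊤ := by
  have D : Dat σ q A A' G G' (1 : Matrix d d F) 1 1 1 (0 : Matrix m d F) S₀ :=
    ⟨hσ, hA, hA', hG, hG', mul_one 1, mul_one 1, ct_one σ, mul_one 1, mul_one 1, ct_one σ, hGA,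
      by rw [one_pow, mul_one, mul_one], hdeta, hdetn, by rw [Matrix.zero_mul, add_zero, hS₀]⟩
  refine ⟨D.a, D.b, ?_⟩
  have ha : D.a ∈ Subgroup.closure {D.a, D.b} := Subgroup.subset_closure (Set.mem_insert _ _)
  have hb : D.b ∈ Subgroup.closure {D.a, D.b} :=
    Subgroup.subset_closure (Set.mem_insert_of_mem _ rfl)
  apply D.top_of_Qin hgen _ ha hb
  have hZ : ∀ Z : Matrix m m F, Z + ct σ Z = 0 → Z ∈ Zset σ hσ (Subgroup.closure {D.a, D.b}) := by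
    apply hZP (Zset σ hσ (Subgroup.closure {D.a, D.b}))
    · rintro S ⟨h, g, hgK, hg⟩
      refine ⟨?_, D.a * g * D.a⁻¹,
        Subgroup.mul_mem _ (Subgroup.mul_mem _ ha hgK) (Subgroup.inv_mem _ ha), ?_⟩
      · have := pair_conj σ hσ (c := (0 : Matrix m d F)) (S := S)
          (by rw [Matrix.zero_mul, add_zero, h]) A (1 : Matrix d d F) (by rw [ct_one, mul_one])
        rwa [Matrix.mul_zero, Matrix.zero_mul, Matrix.zero_mul, add_zero] at this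
      · rw [D.conj_a g 0 S hg]
        congr 1
        exact Subsingleton.elim _ _
    · have hsk : ct σ S₀ = -S₀ := eq_neg_of_add_eq_zero_right hS₀
      refine ⟨?_, D.a ^ q * (D.b * D.a * D.b⁻¹), Subgroup.mul_mem _ (Subgroup.pow_mem _ ha q)
        (Subgroup.mul_mem _ (Subgroup.mul_mem _ hb ha) (Subgroup.inv_mem _ hb)), ?_⟩
      · have := pair_conj σ hσ (c := (0 : Matrix m d F)) (S := S₀)
          (by rw [Matrix.zero_mul, add_zero, hS₀]) (A ^ q) (1 : Matrix d d F)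
          (by rw [ct_one, mul_one])
        rw [Matrix.mul_zero, Matrix.zero_mul, Matrix.zero_mul, add_zero] at this
        rw [ct_sub, hsk]
        have e : A ^ q * S₀ * ct σ (A ^ q) - S₀ + (ct σ (A ^ q * S₀ * ct σ (A ^ q)) - -S₀) =
            A ^ q * S₀ * ct σ (A ^ q) + ct σ (A ^ q * S₀ * ct σ (A ^ q)) := by abel
        rw [e, this]
      · rw [D.g1_coe]
        congr 1
        · exact Subsingleton.elim _ _
        · rw [Matrix.mul_zero, Matrix.zero_mul, Matrix.zero_mul, sub_zero, hsk, sub_eq_add_neg]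
  intro g c S h hg
  have hc : c = 0 := Subsingleton.elim _ _
  subst hc
  rw [Matrix.zero_mul, add_zero] at h
  obtain ⟨-, g_z, hgzK, hgz⟩ := hZ S h
  have : g = g_z := uh_ext (by rw [hg, hgz])
  rw [this]
  exact hgzK

end Cfsg.Agent.H51.U
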